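/-
The special unitary group in dimension `m + 2` seen from a hyperbolic pair: the unipotent radical of
the stabiliser of an isotropic point and its Levi elements.
-/
import Mathlib
import Cfsg.Prelude.Def_Classical
import Cfsg.Agent.Classical.UBasic
import Cfsg.Agent.Classical.UGroup
import Cfsg.Agent.Classical.UTrans
import Cfsg.Agent.Classical.UGen

set_option autoImplicit false

namespace Cfsg.Agent.MinU

open Cfsg.Agent.Classical.U

universe u

variable {F : Type u} [Field F] {q : ℕ} {m : ℕ}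

/-- The group acting. -/
abbrev SG (m : ℕ) (F : Type u) [Field F] (q : ℕ) := ↥(SUG (m + 2) F q)

/-- The inclusion of the last `m` coordinates. -/
def iW (w : Fin m → F) : Fin (m + 2) → F := Fin.cons 0 (Fin.cons 0 w)

/-- The last `m` coordinates. -/
def pW (v : Fin (m + 2) → F) : Fin m → F := Fin.tail (Fin.tail v)

@[simp] theorem pW_iW (w : Fin m → F) : pW (iW w) = w := by simp [pW, iW]

@[simp] theorem iW_zero : iW (0 : Fin m → F) = 0 := by
  ext i; refine Fin.cases ?_ (fun j => Fin.cases ?_ (fun k => ?_) j) i <;> simp [iW]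

theorem iW_add (v w : Fin m → F) : iW (v + w) = iW v + iW w := by
  ext i; refine Fin.cases ?_ (fun j => Fin.cases ?_ (fun k => ?_) j) i <;> simp [iW]

theorem iW_smul (c : F) (w : Fin m → F) : iW (c • w) = c • iW w := by
  ext i; refine Fin.cases ?_ (fun j => Fin.cases ?_ (fun k => ?_) j) i <;> simp [iW]

theorem iW_injective : Function.Injective (iW : (Fin m → F) → _) := fun v w h => by
  rw [← pW_iW v, h, pW_iW]

theorem herm_iW (v w : Fin m → F) (hq : q ≠ 0) : herm q (iW v) (iW w) = herm q v w := by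
  simp [iW, herm_succ, hq]

variable (hF : SqField F q)
include hF

/-- The parameters of the standard pair. -/
noncomputable def par (m : ℕ) : F × F :=
  ((exists_std_pair hF m).choose, (exists_std_pair hF m).choose_spec.choose)

/-- The first vector of the standard pair. -/
noncomputable def eV (m : ℕ) : Fin (m + 2) → F :=
  Pi.single 0 1 + (par hF m).1 • Pi.single 1 1

/-- The second vector of the standard pair. -/
noncomputable def fV (m : ℕ) : Fin (m + 2) → F :=
  Pi.single 0 1 + (par hF m).2 • eV hF m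

theorem pair_spec : IsUPair q (eV hF m) (fV hF m) ∧ (par hF m).1 ≠ 0 :=
  (exists_std_pair hF m).choose_spec.choose_spec

theorem h_ee : herm q (eV hF m) (eV hF m) = 0 := (pair_spec hF).1.1
theorem h_ff : herm q (fV hF m) (fV hF m) = 0 := (pair_spec hF).1.2.1
theorem h_ef : herm q (eV hF m) (fV hF m) = 1 := (pair_spec hF).1.2.2
theorem h_fe : herm q (fV hF m) (eV hF m) = 1 := ((pair_spec hF).1.symm hF).2.2

theorem h_we (w : Fin m → F) : herm q (iW w) (eV hF m) = 0 := by
  rw [eV, hF.herm_add_right, herm_smul_right, herm_single_one _ hF.q_ne_zero,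
    herm_single_one _ hF.q_ne_zero]
  rw [show (1 : Fin (m + 2)) = (0 : Fin (m + 1)).succ from rfl]
  simp only [iW, Fin.cons_zero, Fin.cons_succ, mul_zero, zero_mul, add_zero, zero_add]

theorem h_wf (w : Fin m → F) : herm q (iW w) (fV hF m) = 0 := by
  rw [fV, hF.herm_add_right, herm_smul_right, h_we hF, herm_single_one _ hF.q_ne_zero]
  simp [iW]

theorem h_ew (w : Fin m → F) : herm q (eV hF m) (iW w) = 0 := by
  rw [← hF.herm_symm, h_we hF, zero_pow hF.q_ne_zero]

theorem h_fw (w : Fin m → F) : herm q (fV hF m) (iW w) = 0 := by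
  rw [← hF.herm_symm, h_wf hF, zero_pow hF.q_ne_zero]

theorem pW_eV : pW (eV hF m) = 0 := by
  ext i; simp [pW, eV, Fin.tail, Pi.single_apply, Fin.ext_iff]

theorem pW_fV : pW (fV hF m) = 0 := by
  ext i; simp [pW, fV, eV, Fin.tail, Pi.single_apply, Fin.ext_iff]

/-- The coordinates of the standard decomposition. -/
noncomputable def ph (m : ℕ) : ((F × F) × (Fin m → F)) ≃ₗ[F] (Fin (m + 2) → F) where
  toFun p := p.1.1 • eV hF m + p.1.2 • fV hF m + iW p.2
  map_add' p p' := by simp only [Prod.fst_add, Prod.snd_add, iW_add]; module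
  map_smul' c p := by
    simp only [Prod.smul_fst, Prod.smul_snd, smul_eq_mul, iW_smul, RingHom.id_apply]; module
  invFun v := ((herm q v (fV hF m), herm q v (eV hF m)), pW v)
  left_inv p := by
    obtain ⟨⟨a, b⟩, w⟩ := p
    have e1 : pW (a • eV hF m + b • fV hF m + iW w) =
        a • pW (eV hF m) + b • pW (fV hF m) + pW (iW w) := rfl
    simp only [herm_add_left, herm_smul_left, h_ee hF, h_ef hF, h_fe hF, h_ff hF, h_we hF, h_wf hF]
    rw [e1, pW_eV, pW_fV, pW_iW]
    simp
  right_inv v := by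
    dsimp only
    set x := v - herm q v (fV hF m) • eV hF m - herm q v (eV hF m) • fV hF m with hx
    have h1 : herm q x (eV hF m) = 0 := by
      simp [hx, herm_sub_left, herm_smul_left, h_ee hF, h_fe hF]
    have h2 : herm q x (fV hF m) = 0 := by
      simp [hx, herm_sub_left, herm_smul_left, h_ff hF, h_ef hF]
    obtain ⟨x0, x1⟩ := coords_zero_of_orth hF.q_ne_zero (pair_spec hF).2 h1 h2 hF
    have e : iW (pW v) = x := by
      have hp : pW x = pW v := by
        have e2 : pW x = pW v - herm q v (fV hF m) • pW (eV hF m) -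
            herm q v (eV hF m) • pW (fV hF m) := rfl
        rw [e2, pW_eV, pW_fV]; simp
      rw [← hp]
      ext i
      refine Fin.cases ?_ (fun j => Fin.cases ?_ (fun k => ?_) j) i
      · simp [iW, x0]
      · simp [iW, show ((0 : Fin (m + 1)).succ : Fin (m + 2)) = 1 from rfl, x1]
      · simp [iW, pW, Fin.tail]
    rw [e, hx]; module

theorem ph_apply (a b : F) (w : Fin m → F) :
    ph hF m ((a, b), w) = a • eV hF m + b • fV hF m + iW w := rfl

theorem herm_ph (p p' : (F × F) × (Fin m → F)) :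
    herm q (ph hF m p) (ph hF m p') =
      p.1.1 * p'.1.2 ^ q + p.1.2 * p'.1.1 ^ q + herm q p.2 p'.2 := by
  obtain ⟨⟨a, b⟩, w⟩ := p
  obtain ⟨⟨a', b'⟩, w'⟩ := p'
  simp only [ph_apply, herm_add_left, hF.herm_add_right, herm_smul_left, herm_smul_right, h_ee hF,
    h_ef hF, h_fe hF, h_ff hF, h_we hF, h_wf hF, h_ew hF, h_fw hF, herm_iW _ _ hF.q_ne_zero]
  ring

theorem ph_eV : ph hF m ((1, 0), 0) = eV hF m := by simp [ph_apply]
theorem ph_fV : ph hF m ((0, 1), 0) = fV hF m := by simp [ph_apply]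
theorem ph_iW (w : Fin m → F) : ph hF m ((0, 0), w) = iW w := by simp [ph_apply]

theorem SG_ext {g g' : SG m F q} (h : ∀ p, g.1.1 (ph hF m p) = g'.1.1 (ph hF m p)) : g = g' :=
  Subtype.ext (Subtype.ext (LinearEquiv.ext fun v => by
    rw [← (ph hF m).apply_symm_apply v]; exact h _))

omit hF in
/-- The parameters of the unipotent radical. -/
def Heis (m : ℕ) (F : Type u) [Field F] (q : ℕ) : Type u :=
  {p : (Fin m → F) × F // p.2 + p.2 ^ q + herm q p.1 p.1 = 0}

theorem heis_cond (p : Heis m F q) : UniCond q (eV hF m) (iW p.1.1) p.1.2 :=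
  ⟨h_ee hF, h_we hF _, by rw [herm_iW _ _ hF.q_ne_zero]; exact p.2⟩

/-- An element of the unipotent radical. -/
noncomputable def tE (p : Heis m F q) : SG m F q :=
  ⟨uni hF (heis_cond hF p), det_uni hF _⟩

theorem tE_apply (p : Heis m F q) (x y : F) (z : Fin m → F) :
    (tE hF p).1.1 (ph hF m ((x, y), z)) =
      ph hF m ((x + p.1.2 * y - herm q z p.1.1, y), z + y • p.1.1) := by
  change (uni hF (heis_cond hF p)).1 _ = _
  rw [uni_apply, ph_apply, ph_apply, iW_add, iW_smul]
  simp only [herm_add_left, herm_smul_left, h_ee hF, h_fe hF, h_we hF, h_ew hF, h_fw hF,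
    herm_iW _ _ hF.q_ne_zero]
  module

theorem tE_injective : Function.Injective (tE hF : Heis m F q → SG m F q) := by
  intro p p' h
  have e := congrArg (fun g : SG m F q => (ph hF m).symm (g.1.1 (ph hF m ((0, 1), 0)))) h
  simp only [tE_apply, LinearEquiv.symm_apply_apply, Prod.mk.injEq, herm_zero_left] at e
  obtain ⟨⟨e1, -⟩, e2⟩ := e
  exact Subtype.ext (Prod.ext (by simpa using e2) (by simpa using e1))

theorem heis_mul_cond (p r : Heis m F q) :
    (p.1.2 + r.1.2 - herm q r.1.1 p.1.1) + (p.1.2 + r.1.2 - herm q r.1.1 p.1.1) ^ q +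
      herm q (p.1.1 + r.1.1) (p.1.1 + r.1.1) = 0 := by
  simp only [herm_add_left, hF.herm_add_right, hF.sub_pow, hF.add_pow, hF.herm_symm]
  linear_combination p.2 + r.2

/-- The product of two parameters. -/
def hMul (p r : Heis m F q) : Heis m F q :=
  ⟨(p.1.1 + r.1.1, p.1.2 + r.1.2 - herm q r.1.1 p.1.1), heis_mul_cond hF p r⟩

theorem tE_mul (p r : Heis m F q) : tE hF p * tE hF r = tE hF (hMul hF p r) := by
  refine SG_ext hF fun ⟨⟨x, y⟩, z⟩ => ?_
  rw [Subgroup.coe_mul, Subgroup.coe_mul, LinearEquiv.mul_apply, tE_apply, tE_apply, tE_apply]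
  congr 1
  refine Prod.ext (Prod.ext ?_ rfl) ?_ <;>
    simp [hMul, herm_add_left, hF.herm_add_right, herm_smul_left] <;> first | ring | module

/-- The neutral parameter. -/
def hOne : Heis m F q := ⟨(0, 0), by simp [hF.q_ne_zero]⟩

theorem tE_one : tE hF (hOne hF : Heis m F q) = 1 := by
  refine SG_ext hF fun ⟨⟨x, y⟩, z⟩ => ?_
  rw [tE_apply]
  simp [hOne, hF.herm_zero_right]

theorem heis_inv_cond (p : Heis m F q) :
    p.1.2 ^ q + (p.1.2 ^ q) ^ q + herm q (-p.1.1) (-p.1.1) = 0 := by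
  rw [hF.pow_pow, herm_neg_left, hF.herm_neg_right]
  linear_combination p.2

/-- The inverse parameter. -/
def hInv (p : Heis m F q) : Heis m F q := ⟨(-p.1.1, p.1.2 ^ q), heis_inv_cond hF p⟩

theorem tE_inv (p : Heis m F q) : (tE hF p)⁻¹ = tE hF (hInv hF p) := by
  refine inv_eq_of_mul_eq_one_right ?_
  rw [tE_mul, ← tE_one hF]
  congr 1
  refine Subtype.ext (Prod.ext (by simp [hMul, hInv, hOne]) ?_)
  simp only [hMul, hInv, hOne, herm_neg_left]
  linear_combination p.2

/-- The unipotent radical. -/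
noncomputable def rad (m : ℕ) : Subgroup (SG m F q) where
  carrier := Set.range (tE hF)
  mul_mem' := by rintro _ _ ⟨p, rfl⟩ ⟨r, rfl⟩; exact ⟨_, (tE_mul hF p r).symm⟩
  one_mem' := ⟨_, tE_one hF⟩
  inv_mem' := by rintro _ ⟨p, rfl⟩; exact ⟨_, (tE_inv hF p).symm⟩

/-- The unipotent radical and its parameters. -/
noncomputable def radEquiv (m : ℕ) : Heis m F q ≃ rad hF m :=
  Equiv.ofInjective _ (tE_injective hF)

/-- Scalings of the pair together with a unitary map of the rest. -/
noncomputable def levLin {l : F} (hl : l ≠ 0) (g : UG m F q) :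
    (Fin (m + 2) → F) ≃ₗ[F] (Fin (m + 2) → F) :=
  (ph hF m).symm.trans (((LinearEquiv.smulOfNeZero F F l hl).prodCongr
    (LinearEquiv.smulOfNeZero F F (l ^ q)⁻¹ (inv_ne_zero (pow_ne_zero _ hl)))).prodCongr g.1 |>.trans
      (ph hF m))

theorem levLin_apply {l : F} (hl : l ≠ 0) (g : UG m F q) (x y : F) (z : Fin m → F) :
    levLin hF hl g (ph hF m ((x, y), z)) = ph hF m ((l * x, (l ^ q)⁻¹ * y), g.1 z) := by
  simp [levLin]

theorem levLin_mem {l : F} (hl : l ≠ 0) (g : UG m F q) : levLin hF hl g ∈ UG (m + 2) F q := by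
  intro u v
  obtain ⟨⟨⟨a, b⟩, w⟩, rfl⟩ := (ph hF m).surjective u
  obtain ⟨⟨⟨a', b'⟩, w'⟩, rfl⟩ := (ph hF m).surjective v
  rw [levLin_apply, levLin_apply, herm_ph, herm_ph, UG_app]
  have hlq : l ^ q ≠ 0 := pow_ne_zero _ hl
  simp only [mul_pow, inv_pow, hF.pow_pow]
  field_simp

theorem det_levLin {l : F} (hl : l ≠ 0) (g : UG m F q) :
    (LinearEquiv.det (levLin hF hl g) : F) = l * (l ^ q)⁻¹ * (LinearEquiv.det g.1 : F) := by
  simp only [LinearEquiv.coe_det, levLin]
  rw [show ((ph hF m).symm.trans (((LinearEquiv.smulOfNeZero F F l hl).prodCongr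
    (LinearEquiv.smulOfNeZero F F (l ^ q)⁻¹ (inv_ne_zero (pow_ne_zero _ hl)))).prodCongr g.1 |>.trans
      (ph hF m))).toLinearMap = (ph hF m).toLinearMap ∘ₗ
      (((LinearEquiv.smulOfNeZero F F l hl).toLinearMap.prodMap
        (LinearEquiv.smulOfNeZero F F (l ^ q)⁻¹ (inv_ne_zero (pow_ne_zero _ hl))).toLinearMap).prodMap
          g.1.toLinearMap) ∘ₗ (ph hF m).symm.toLinearMap from rfl,
    LinearMap.det_conj, LinearMap.det_prodMap, LinearMap.det_prodMap]
  have e : ∀ c : F, ∀ hc : c ≠ 0,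
      LinearMap.det (LinearEquiv.smulOfNeZero F F c hc).toLinearMap = c := fun c hc => by
    rw [show (LinearEquiv.smulOfNeZero F F c hc).toLinearMap = c • LinearMap.id from
      LinearMap.ext fun x => rfl, LinearMap.det_smul, LinearMap.det_id, Module.finrank_self,
      pow_one, mul_one]
  rw [e, e]

/-- A Levi element, under the determinant condition. -/
noncomputable def lev {l : F} (hl : l ≠ 0) (g : UG m F q)
    (hd : (LinearEquiv.det g.1 : F) = l ^ q * l⁻¹) : SG m F q :=
  ⟨⟨levLin hF hl g, levLin_mem hF hl g⟩, mem_SUG.2 (Units.ext (by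
    rw [det_levLin, hd, Units.val_one]
    field_simp))⟩

theorem lev_apply {l : F} (hl : l ≠ 0) (g : UG m F q)
    (hd : (LinearEquiv.det g.1 : F) = l ^ q * l⁻¹) (x y : F) (z : Fin m → F) :
    (lev hF hl g hd).1.1 (ph hF m ((x, y), z)) = ph hF m ((l * x, (l ^ q)⁻¹ * y), g.1 z) :=
  levLin_apply hF hl g x y z

theorem lev_heis_cond {l : F} (g : UG m F q) (p : Heis m F q) :
    l * l ^ q * p.1.2 + (l * l ^ q * p.1.2) ^ q +
      herm q (l ^ q • g.1 p.1.1) (l ^ q • g.1 p.1.1) = 0 := by
  rw [herm_smul_left, herm_smul_right, UG_app, mul_pow, mul_pow, hF.pow_pow]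
  linear_combination l * l ^ q * p.2

/-- The action of a Levi element on the parameters. -/
def hLev (l : F) (g : UG m F q) (p : Heis m F q) : Heis m F q :=
  ⟨(l ^ q • g.1 p.1.1, l * l ^ q * p.1.2), lev_heis_cond hF g p⟩

theorem lev_tE {l : F} (hl : l ≠ 0) (g : UG m F q)
    (hd : (LinearEquiv.det g.1 : F) = l ^ q * l⁻¹) (p : Heis m F q) :
    lev hF hl g hd * tE hF p = tE hF (hLev hF l g p) * lev hF hl g hd := by
  refine SG_ext hF fun ⟨⟨x, y⟩, z⟩ => ?_
  simp only [Subgroup.coe_mul, LinearEquiv.mul_apply, tE_apply, lev_apply]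
  have hlq : l ^ q ≠ 0 := pow_ne_zero _ hl
  congr 1
  refine Prod.ext (Prod.ext ?_ rfl) ?_
  · simp only [hLev, herm_smul_right, hF.pow_pow, UG_app]
    field_simp

  · simp only [hLev, map_add, map_smul, smul_smul]
    congr 2
    field_simp

/-- An element of the smaller group fixing the pair. -/
noncomputable def inner (m : ℕ) : ↥(SUG m F q) →* SG m F q where
  toFun g := lev hF one_ne_zero g.1 (by rw [mem_SUG.1 g.2]; simp)
  map_one' := SG_ext hF fun ⟨⟨x, y⟩, z⟩ => by simp [lev_apply]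
  map_mul' g g' := SG_ext hF fun ⟨⟨x, y⟩, z⟩ => by simp [lev_apply]

theorem inner_apply (g : ↥(SUG m F q)) (x y : F) (z : Fin m → F) :
    (inner hF m g).1.1 (ph hF m ((x, y), z)) = ph hF m ((x, y), g.1.1 z) := by
  simp [inner, lev_apply]

theorem inner_tE (g : ↥(SUG m F q)) (p : Heis m F q) :
    inner hF m g * tE hF p = tE hF (hLev hF 1 g.1 p) * inner hF m g :=
  lev_tE hF one_ne_zero g.1 (by rw [mem_SUG.1 g.2]; simp) p

end Cfsg.Agent.MinU
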