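/-
The invariants of a point under the unipotent radical, and counting of their translates.
-/
import Mathlib
import Cfsg.Agent.MinU.Coord
import Cfsg.Agent.MinIndex.Duality

set_option autoImplicit false

namespace Cfsg.Agent.MinU

open Cfsg.Agent.Classical.U Cfsg.Agent.MinIndex

universe u v

/-- An action of the special unitary group, with the dimension read off from the space. -/
class UAct (F : Type u) [Field F] (q : ℕ) (X : Type v) (m : outParam ℕ) where
  /-- The action itself. -/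
  act : MulAction (SG m F q) X

variable {F : Type u} [Field F] {q : ℕ} {m : ℕ}

instance instUAct {X : Type v} [h : UAct F q X m] : MulAction (SG m F q) X := h.act

variable (hF : SqField F q)
include hF

/-- The elements of trace zero. -/
def skew : AddSubgroup F where
  carrier := {a | a ^ q = -a}
  add_mem' {a b} (ha : a ^ q = -a) (hb : b ^ q = -b) := by
    change (a + b) ^ q = -(a + b)
    rw [hF.add_pow, ha, hb]; ring
  zero_mem' := by simp [hF.q_ne_zero]
  neg_mem' {a} (ha : a ^ q = -a) := by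
    change (-a) ^ q = -(-a)
    rw [hF.neg_pow, ha]

theorem mem_skew {a : F} : a ∈ skew hF ↔ a ^ q = -a := Iff.rfl

/-- The subfield of index two. -/
def fixF : Subfield F where
  carrier := {a | a ^ q = a}
  add_mem' {a b} (ha : a ^ q = a) (hb : b ^ q = b) := by
    change (a + b) ^ q = a + b
    rw [hF.add_pow, ha, hb]
  zero_mem' := zero_pow hF.q_ne_zero
  neg_mem' {a} (ha : a ^ q = a) := by
    change (-a) ^ q = -a
    rw [hF.neg_pow, ha]
  one_mem' := one_pow q
  mul_mem' {a b} (ha : a ^ q = a) (hb : b ^ q = b) := by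
    change (a * b) ^ q = a * b
    rw [mul_pow, ha, hb]
  inv_mem' a (ha : a ^ q = a) := by
    change a⁻¹ ^ q = a⁻¹
    rw [inv_pow, ha]

theorem mem_fixF {a : F} : a ∈ fixF hF ↔ a ^ q = a := Iff.rfl

theorem card_fixF : Nat.card (fixF hF) = q := by
  obtain ⟨hfin, -⟩ := id hF
  classical
  have := Fintype.ofFinite F
  have h1 := hF.one_lt
  have h2 := hF.card_fixed_units
  rw [Nat.card_eq_fintype_card, Fintype.card_subtype] at h2
  rw [Nat.card_eq_fintype_card, Fintype.card_subtype]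
  have e : (Finset.univ.filter fun a : F => a ∈ fixF hF) =
      insert 0 (Finset.univ.filter fun a : F => a ^ (q - 1) = 1) := by
    ext a
    rcases eq_or_ne a 0 with rfl | ha
    · simp [mem_fixF, hF.q_ne_zero]
    · simp [mem_fixF, ha, hF.fixed_iff ha]
  rw [e, Finset.card_insert_of_notMem (by simp [zero_pow (show q - 1 ≠ 0 by omega)]), h2]
  omega

theorem card_skew : Nat.card (skew hF) = q := by
  obtain ⟨d, hd, hdq⟩ := hF.exists_skew
  refine Eq.trans (Nat.card_congr
    { toFun := fun a => (⟨a.1 / d, by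
        rw [mem_fixF, div_pow, hdq, (mem_skew hF).1 a.2, neg_div_neg_eq]⟩ : fixF hF)
      invFun := fun c => ⟨c.1 * d, by
        rw [mem_skew, mul_pow, hdq, (mem_fixF hF).1 c.2, mul_neg]⟩
      left_inv := fun a => Subtype.ext (div_mul_cancel₀ _ hd)
      right_inv := fun c => Subtype.ext (mul_div_cancel_right₀ _ hd) }) (card_fixF hF)

/-- A parameter of the centre. -/
def hZ {a : F} (ha : a ∈ skew hF) : Heis m F q :=
  ⟨(0, a), by simp [(mem_skew hF).1 ha]⟩

theorem card_heis : Nat.card (Heis m F q) = q ^ (2 * m) * q := by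
  obtain ⟨hfin, hcard⟩ := id hF
  have hex : ∀ w : Fin m → F, ∃ a : F, a + a ^ q = -herm q w w := fun w =>
    hF.exists_trace (by rw [hF.neg_pow, hF.herm_symm])
  choose c hc using hex
  refine Eq.trans (Nat.card_congr (β := (Fin m → F) × skew hF)
    { toFun := fun p => (p.1.1, ⟨p.1.2 - c p.1.1, by
        rw [mem_skew, hF.sub_pow]
        linear_combination p.2 - hc p.1.1⟩)
      invFun := fun r => ⟨(r.1, c r.1 + r.2.1), by
        have := (mem_skew hF).1 r.2.2
        rw [hF.add_pow, this]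
        linear_combination hc r.1⟩
      left_inv := fun p => Subtype.ext (Prod.ext rfl (add_sub_cancel _ _))
      right_inv := fun r => Prod.ext rfl (Subtype.ext (add_sub_cancel_left _ _)) }) ?_
  rw [Nat.card_prod, Nat.card_fun, Nat.card_fin, hcard, card_skew hF, ← pow_mul]

variable {X : Type v} [UAct F q X m]

/-- The images in the quotient of the stabiliser inside the radical. -/
def Aset (y : X) : AddSubgroup (Fin m → F) where
  carrier := {w | ∃ p : Heis m F q, p.1.1 = w ∧ tE hF p • y = y}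
  add_mem' := by
    rintro _ _ ⟨p, rfl, hp⟩ ⟨r, rfl, hr⟩
    exact ⟨hMul hF p r, rfl, by rw [← tE_mul, mul_smul, hr, hp]⟩
  zero_mem' := ⟨hOne hF, rfl, by rw [tE_one, one_smul]⟩
  neg_mem' := by
    rintro _ ⟨p, rfl, hp⟩
    exact ⟨hInv hF p, rfl, by rw [← tE_inv, inv_smul_eq_iff, hp]⟩

/-- The stabiliser inside the centre. -/
def Kset (y : X) : AddSubgroup F where
  carrier := {a | ∃ ha : a ∈ skew hF, tE hF (hZ hF ha : Heis m F q) • y = y}
  add_mem' := by
    rintro a b ⟨ha, ea⟩ ⟨hb, eb⟩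
    refine ⟨(skew hF).add_mem ha hb, ?_⟩
    have e : hMul hF (hZ hF ha : Heis m F q) (hZ hF hb) = hZ hF ((skew hF).add_mem ha hb) :=
      Subtype.ext (Prod.ext (by simp [hMul, hZ]) (by simp [hMul, hZ]))
    rw [← e, ← tE_mul, mul_smul, eb, ea]
  zero_mem' := ⟨(skew hF).zero_mem, by
    rw [show (hZ hF (skew hF).zero_mem : Heis m F q) = hOne hF from rfl, tE_one, one_smul]⟩
  neg_mem' := by
    rintro a ⟨ha, ea⟩
    refine ⟨(skew hF).neg_mem ha, ?_⟩
    have e : hInv hF (hZ hF ha : Heis m F q) = hZ hF ((skew hF).neg_mem ha) :=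
      Subtype.ext (Prod.ext (by simp [hInv, hZ]) (by simp [hInv, hZ, (mem_skew hF).1 ha]))
    rw [← e, ← tE_inv, inv_smul_eq_iff, ea]

theorem Kset_le (y : X) : Kset hF y ≤ skew hF := fun _ h => h.1

theorem mem_Kset {y : X} {a : F} (ha : a ∈ skew hF) :
    a ∈ Kset hF y ↔ tE hF (hZ hF ha : Heis m F q) • y = y :=
  ⟨fun ⟨_, h⟩ => h, fun h => ⟨ha, h⟩⟩

/-- Two fixed parameters over one vector differ by an element of the centre part. -/
theorem sub_mem_Kset {y : X} {p s : Heis m F q} (hw : p.1.1 = s.1.1) (hp : tE hF p • y = y)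
    (hs : tE hF s • y = y) : p.1.2 - s.1.2 ∈ Kset hF y := by
  have hd : p.1.2 - s.1.2 ∈ skew hF := by
    rw [mem_skew, hF.sub_pow]
    have := p.2
    rw [hw] at this
    linear_combination this - s.2
  refine ⟨hd, ?_⟩
  have e : hMul hF p (hInv hF s) = hZ hF hd :=
    Subtype.ext (Prod.ext (by simp [hMul, hInv, hZ, hw]) (by
      simp only [hMul, hInv, hZ, herm_neg_left, hw]
      linear_combination s.2))
  rw [← e, ← tE_mul, mul_smul, ← tE_inv, inv_smul_eq_iff.2 hs.symm, hp]

theorem hMul_hZ {p : Heis m F q} {a : F} (ha : a ∈ skew hF) :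
    hMul hF (hZ hF ha) p = ⟨(p.1.1, p.1.2 + a), by
      rw [hF.add_pow, (mem_skew hF).1 ha]; linear_combination p.2⟩ :=
  Subtype.ext (Prod.ext (by simp [hMul, hZ]) (by simp [hMul, hZ, hF.herm_zero_right, add_comm]))

theorem card_fixed_heis (y : X) :
    Nat.card {p : Heis m F q // tE hF p • y = y} = Nat.card (Aset hF y) * Nat.card (Kset hF y) := by
  choose sec hsec using fun w : Aset hF y => w.2
  let f : (Aset hF y) × (Kset hF y) → {p : Heis m F q // tE hF p • y = y} := fun r =>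
    ⟨hMul hF (hZ hF r.2.2.1) (sec r.1), by rw [← tE_mul, mul_smul, (hsec r.1).2, r.2.2.2]⟩
  rw [← Nat.card_prod]
  refine (Nat.card_congr (Equiv.ofBijective f ⟨?_, ?_⟩)).symm
  · rintro ⟨w, a⟩ ⟨w', a'⟩ h
    have h' : hMul hF (hZ hF a.2.1) (sec w) = hMul hF (hZ hF a'.2.1) (sec w') :=
      congrArg Subtype.val h
    rw [hMul_hZ, hMul_hZ] at h'
    have h1 := congrArg (fun p : Heis m F q => p.1.1) h'
    have h2 := congrArg (fun p : Heis m F q => p.1.2) h'
    simp only [(hsec _).1] at h1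
    obtain rfl := Subtype.ext h1
    exact Prod.ext rfl (Subtype.ext (add_left_cancel h2))
  · rintro ⟨p, hp⟩
    refine ⟨(⟨p.1.1, p, rfl, hp⟩,
      ⟨_, sub_mem_Kset hF ((hsec ⟨p.1.1, p, rfl, hp⟩).1).symm hp (hsec _).2⟩), Subtype.ext ?_⟩
    change hMul hF _ _ = p
    rw [hMul_hZ]
    exact Subtype.ext (Prod.ext (hsec _).1 (add_sub_cancel _ _))

/-- The orbit under the radical. -/
def qOrb (y : X) : Set X := Set.range fun p : Heis m F q => tE hF p • y

theorem self_mem_qOrb (y : X) : y ∈ qOrb hF y := ⟨hOne hF, by simp [tE_one hF]⟩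

theorem card_qOrb_mul (y : X) :
    Nat.card (qOrb hF y) * (Nat.card (Aset hF y) * Nat.card (Kset hF y)) = q ^ (2 * m) * q := by
  rw [← card_fixed_heis hF y, ← card_heis hF (m := m)]
  have h1 : qOrb hF y = MulAction.orbit (rad hF m) y := by
    ext z
    constructor
    · rintro ⟨p, rfl⟩; exact ⟨⟨_, p, rfl⟩, rfl⟩
    · rintro ⟨⟨_, p, rfl⟩, rfl⟩; exact ⟨p, rfl⟩
  have h2 : Nat.card {p : Heis m F q // tE hF p • y = y} =
      Nat.card (MulAction.stabilizer (rad hF m) y) :=
    Nat.card_congr ((radEquiv hF m).subtypeEquiv fun p => Iff.rfl)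
  rw [h1, h2, Nat.card_congr (radEquiv hF m)]
  exact (Nat.card_prod _ _).symm.trans
    (Nat.card_congr (MulAction.orbitProdStabilizerEquivGroup (rad hF m) y))

/-- Conjugation inside the radical. -/
theorem hMul_conj (r p : Heis m F q) :
    (hMul hF r (hMul hF p (hInv hF r))).1.1 = p.1.1 ∧
      (hMul hF r (hMul hF p (hInv hF r))).1.2 =
        p.1.2 + (herm q r.1.1 p.1.1 - herm q p.1.1 r.1.1) := by
  refine ⟨by simp [hMul, hInv], ?_⟩
  simp only [hMul, hInv, herm_add_left, herm_neg_left]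
  linear_combination r.2

theorem tE_conj_smul {y : X} {r p : Heis m F q} (hp : tE hF p • y = y) :
    tE hF (hMul hF r (hMul hF p (hInv hF r))) • tE hF r • y = tE hF r • y := by
  rw [← tE_mul, ← tE_mul, ← tE_inv, mul_smul, mul_smul, inv_smul_smul, hp]

theorem Aset_tE (r : Heis m F q) (y : X) : Aset hF (tE hF r • y) = Aset hF y := by
  have key : ∀ (r : Heis m F q) (y : X), Aset hF y ≤ Aset hF (tE hF r • y) := by
    rintro r y w ⟨p, rfl, hp⟩
    exact ⟨_, (hMul_conj hF r p).1, tE_conj_smul hF hp⟩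
  refine le_antisymm ?_ (key r y)
  have := key (hInv hF r) (tE hF r • y)
  rwa [← tE_inv, inv_smul_smul] at this

theorem Kset_tE (r : Heis m F q) (y : X) : Kset hF (tE hF r • y) = Kset hF y := by
  have key : ∀ (r : Heis m F q) (y : X), Kset hF y ≤ Kset hF (tE hF r • y) := by
    rintro r y a ⟨ha, hp⟩
    refine ⟨ha, ?_⟩
    have := tE_conj_smul hF (r := r) hp
    convert this using 3
    refine Subtype.ext (Prod.ext ((hMul_conj hF r _).1.symm) ?_)
    rw [(hMul_conj hF r _).2]
    simp [hZ, hF.herm_zero_right]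
  refine le_antisymm ?_ (key r y)
  have := key (hInv hF r) (tE hF r • y)
  rwa [← tE_inv, inv_smul_smul] at this

/-- The invariants of a point. -/
noncomputable def dat (y : X) : AddSubgroup (Fin m → F) × AddSubgroup F := (Aset hF y, Kset hF y)

theorem dat_of_mem_qOrb {y z : X} (h : z ∈ qOrb hF y) : dat hF z = dat hF y := by
  obtain ⟨p, rfl⟩ := h
  simp [dat, Aset_tE, Kset_tE]

/-- The semilinear maps induced on the quotient. -/
def lmap (l : F) (g : UG m F q) : (Fin m → F) →+ (Fin m → F) where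
  toFun w := l ^ q • g.1 w
  map_zero' := by simp
  map_add' a b := by simp

theorem lmap_injective {l : F} (hl : l ≠ 0) (g : UG m F q) :
    Function.Injective (lmap l g) := fun a b h =>
  g.1.injective (smul_right_injective _ (pow_ne_zero q hl) h)

theorem exists_hLev_eq {l : F} (hl : l ≠ 0) (g : UG m F q) (p : Heis m F q) :
    ∃ p₀, hLev hF l g p₀ = p := by
  refine ⟨hLev hF l⁻¹ g⁻¹ p, Subtype.ext (Prod.ext ?_ ?_)⟩
  · simp only [hLev, inv_pow, map_smul, smul_smul, Subgroup.coe_inv]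
    rw [mul_inv_cancel₀ (pow_ne_zero q hl), one_smul]
    exact g.1.apply_symm_apply _
  · simp only [hLev, inv_pow]
    have := pow_ne_zero q hl
    field_simp

theorem lev_smul_fix {l : F} (hl : l ≠ 0) (g : UG m F q)
    (hd : (LinearEquiv.det g.1 : F) = l ^ q * l⁻¹) {y : X} (p₀ : Heis m F q) :
    tE hF (hLev hF l g p₀) • lev hF hl g hd • y = lev hF hl g hd • y ↔ tE hF p₀ • y = y := by
  rw [← mul_smul, ← lev_tE hF hl g hd p₀, mul_smul]
  exact (MulAction.injective _).eq_iff

theorem Aset_lev {l : F} (hl : l ≠ 0) (g : UG m F q)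
    (hd : (LinearEquiv.det g.1 : F) = l ^ q * l⁻¹) (y : X) :
    Aset hF (lev hF hl g hd • y) = (Aset hF y).map (lmap l g) := by
  ext w
  constructor
  · rintro ⟨p, rfl, hp⟩
    obtain ⟨p₀, rfl⟩ := exists_hLev_eq hF hl g p
    exact ⟨p₀.1.1, ⟨p₀, rfl, (lev_smul_fix hF hl g hd p₀).1 hp⟩, rfl⟩
  · rintro ⟨w₀, ⟨p₀, rfl, hp⟩, rfl⟩
    exact ⟨hLev hF l g p₀, rfl, (lev_smul_fix hF hl g hd p₀).2 hp⟩

theorem Kset_lev {l : F} (hl : l ≠ 0) (g : UG m F q)
    (hd : (LinearEquiv.det g.1 : F) = l ^ q * l⁻¹) (y : X) :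
    Kset hF (lev hF hl g hd • y) = (Kset hF y).map (AddMonoidHom.mulLeft (l * l ^ q)) := by
  have hlq := pow_ne_zero q hl
  have e : ∀ {a : F} (ha : a ∈ skew hF), ∃ h : l * l ^ q * a ∈ skew hF,
      hLev hF l g (hZ hF ha : Heis m F q) = hZ hF h := by
    intro a ha
    refine ⟨?_, Subtype.ext (Prod.ext (by simp [hLev, hZ]) rfl)⟩
    rw [mem_skew, mul_pow, mul_pow, hF.pow_pow, (mem_skew hF).1 ha]; ring
  ext a
  constructor
  · rintro ⟨ha, hp⟩
    have ha0 : a / (l * l ^ q) ∈ skew hF := by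
      rw [mem_skew, div_pow, mul_pow, hF.pow_pow, (mem_skew hF).1 ha, mul_comm (l ^ q), neg_div]
    refine ⟨a / (l * l ^ q), ⟨ha0, (lev_smul_fix hF hl g hd _).1 ?_⟩,
      mul_div_cancel₀ _ (mul_ne_zero hl hlq)⟩
    obtain ⟨h, e'⟩ := e ha0
    rw [e']
    convert hp using 4
    exact mul_div_cancel₀ _ (mul_ne_zero hl hlq)
  · rintro ⟨a₀, ⟨ha, hp⟩, rfl⟩
    obtain ⟨h, e'⟩ := e ha
    refine ⟨h, ?_⟩
    have := (lev_smul_fix hF hl g hd _).2 hp
    rwa [e'] at this

theorem card_Aset_lev {l : F} (hl : l ≠ 0) (g : UG m F q)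
    (hd : (LinearEquiv.det g.1 : F) = l ^ q * l⁻¹) (y : X) :
    Nat.card (Aset hF (lev hF hl g hd • y)) = Nat.card (Aset hF y) := by
  rw [Aset_lev]
  exact (Nat.card_congr ((Aset hF y).equivMapOfInjective _ (lmap_injective hF hl g)).toEquiv).symm

theorem card_Kset_lev {l : F} (hl : l ≠ 0) (g : UG m F q)
    (hd : (LinearEquiv.det g.1 : F) = l ^ q * l⁻¹) (y : X) :
    Nat.card (Kset hF (lev hF hl g hd • y)) = Nat.card (Kset hF y) := by
  rw [Kset_lev]
  refine (Nat.card_congr ((Kset hF y).equivMapOfInjective _ ?_).toEquiv).symm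
  exact fun a b h => mul_left_cancel₀ (mul_ne_zero hl (pow_ne_zero q hl)) h

theorem card_qOrb_congr [Finite X] {y z : X} (hA : Nat.card (Aset hF z) = Nat.card (Aset hF y))
    (hK : Nat.card (Kset hF z) = Nat.card (Kset hF y)) :
    Nat.card (qOrb hF z) = Nat.card (qOrb hF y) := by
  have h1 := card_qOrb_mul hF z
  have h2 := card_qOrb_mul hF y
  rw [hA, hK, ← h2] at h1
  obtain ⟨hfin, -⟩ := id hF
  exact Nat.eq_of_mul_eq_mul_right (Nat.mul_pos Nat.card_pos Nat.card_pos) h1

theorem lev_mul_lev {l l' : F} (hl : l ≠ 0) (hl' : l' ≠ 0) (g g' : UG m F q)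
    (hd : (LinearEquiv.det g.1 : F) = l ^ q * l⁻¹)
    (hd' : (LinearEquiv.det g'.1 : F) = l' ^ q * l'⁻¹) :
    ∃ h : (LinearEquiv.det (g * g').1 : F) = (l * l') ^ q * (l * l')⁻¹,
      lev hF hl g hd * lev hF hl' g' hd' = lev hF (mul_ne_zero hl hl') (g * g') h := by
  refine ⟨by rw [Subgroup.coe_mul, map_mul, Units.val_mul, hd, hd', mul_pow, mul_inv]; ring, ?_⟩
  refine SG_ext hF fun ⟨⟨x, y⟩, z⟩ => ?_
  simp only [Subgroup.coe_mul, LinearEquiv.mul_apply, lev_apply]
  congr 1
  refine Prod.ext (Prod.ext (mul_assoc _ _ _).symm ?_) rfl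
  simp only [mul_pow, mul_inv]
  ring

/-- All translates of the invariants by Levi elements. -/
def trans (y : X) : Set (AddSubgroup (Fin m → F) × AddSubgroup F) :=
  {s | ∃ (l : F) (hl : l ≠ 0) (g : UG m F q) (hd : (LinearEquiv.det g.1 : F) = l ^ q * l⁻¹),
    dat hF (lev hF hl g hd • y) = s}

/-- The translates of the first invariant by the special group of the quotient. -/
def innerTrans (y : X) : Set (AddSubgroup (Fin m → F)) :=
  Set.range fun g : ↥(SUG m F q) => Aset hF (inner hF m g • y)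

theorem Kset_inner (g : ↥(SUG m F q)) (y : X) : Kset hF (inner hF m g • y) = Kset hF y := by
  change Kset hF (lev hF one_ne_zero g.1 (by rw [mem_SUG.1 g.2]; simp) • y) = _
  rw [Kset_lev]
  ext a
  simp [AddSubgroup.mem_map]

theorem mem_Aset_inner {g : ↥(SUG m F q)} {y : X} {w : Fin m → F} (hw : w ∈ Aset hF y) :
    g.1.1 w ∈ Aset hF (inner hF m g • y) := by
  change _ ∈ Aset hF (lev hF one_ne_zero g.1 (by rw [mem_SUG.1 g.2]; simp) • y)
  rw [Aset_lev]
  exact ⟨w, hw, by simp [lmap]⟩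

theorem trans_spec [Finite X] {y : X} {s : AddSubgroup (Fin m → F) × AddSubgroup F}
    (hs : s ∈ trans hF y) : ∃ z : X, dat hF z = s ∧ Nat.card (qOrb hF z) = Nat.card (qOrb hF y) := by
  obtain ⟨l, hl, g, hd, rfl⟩ := hs
  exact ⟨_, rfl, card_qOrb_congr hF (card_Aset_lev hF hl g hd y) (card_Kset_lev hF hl g hd y)⟩

/-- Orbits with different invariants are disjoint. -/
theorem card_mul_le_fibre [Finite X] {c : ℕ}
    (S : Set (AddSubgroup (Fin m → F) × AddSubgroup F))
    (h : ∀ s ∈ S, ∃ z : X, dat hF z = s ∧ c ≤ Nat.card (qOrb hF z)) :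
    Nat.card S * c ≤ Nat.card {z : X | dat hF z ∈ S} := by
  obtain ⟨hfin, -⟩ := id hF
  classical
  choose pt hpt using fun s : S => h s.1 s.2
  let f : (Σ s : S, qOrb hF (pt s)) → {z : X | dat hF z ∈ S} := fun r =>
    ⟨r.2.1, by
      change dat hF r.2.1 ∈ S
      rw [dat_of_mem_qOrb hF r.2.2, (hpt r.1).1]; exact r.1.2⟩
  have hf : Function.Injective f := by
    rintro ⟨s, z, hz⟩ ⟨s', z', hz'⟩ h
    obtain rfl : z = z' := congrArg Subtype.val h
    obtain rfl : s = s' := Subtype.ext (by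
      rw [← (hpt s).1, ← (hpt s').1, ← dat_of_mem_qOrb hF hz, ← dat_of_mem_qOrb hF hz'])
    rfl
  have := Fintype.ofFinite S
  refine le_trans ?_ (Nat.card_le_card_of_injective f hf)
  rw [Nat.card_sigma, Nat.card_eq_fintype_card, ← Finset.card_univ, ← smul_eq_mul]
  exact Finset.card_nsmul_le_sum _ _ _ fun s _ => (hpt s).2

theorem trans_mul_le [Finite X] (y : X) :
    Nat.card (trans hF y) * Nat.card (qOrb hF y) ≤ Nat.card {z : X | dat hF z ∈ trans hF y} :=
  card_mul_le_fibre hF _ fun _ hs => (trans_spec hF hs).imp fun _ h => ⟨h.1, h.2.ge⟩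

theorem trans_mul_le_card [Finite X] (y : X) :
    Nat.card (trans hF y) * Nat.card (qOrb hF y) ≤ Nat.card X :=
  (trans_mul_le hF y).trans (Finite.card_subtype_le _)

omit hF in
/-- A covering bound. -/
theorem card_le_cover {α β : Type*} [Finite α] [Finite β] (S : Set α) (f : α → Set β) (t : Set β)
    {b : ℕ} (hc : ∀ x ∈ t, ∃ s ∈ S, x ∈ f s) (hb : ∀ s ∈ S, Nat.card ↥(f s ∩ t) ≤ b) :
    Nat.card t ≤ Nat.card S * b := by
  classical
  choose sel hsel using fun x : t => hc x.1 x.2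
  let F' : t → Σ s : S, ↥(f s.1 ∩ t) := fun x => ⟨⟨sel x, (hsel x).1⟩, x.1, (hsel x).2, x.2⟩
  have hinj : Function.Injective F' := fun x x' h =>
    Subtype.ext (congrArg (fun r : Σ s : S, ↥(f s.1 ∩ t) => (r.2 : β)) h)
  have := Fintype.ofFinite S
  refine (Nat.card_le_card_of_injective F' hinj).trans ?_
  rw [Nat.card_sigma, Nat.card_eq_fintype_card, ← Finset.card_univ, ← smul_eq_mul]
  exact Finset.sum_le_card_nsmul _ _ _ fun s _ => hb s.1 s.2

/-- The scalings of a partial centre. -/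
def scales (q : ℕ) (K : AddSubgroup F) : Set (AddSubgroup F) :=
  {K' | ∃ c : F, c ≠ 0 ∧ c ^ q = c ∧ K' = K.map (AddMonoidHom.mulLeft c)}

theorem scales_bound {K : AddSubgroup F} (hK : K ≤ skew hF) (hbot : K ≠ ⊥) (htop : K ≠ skew hF) :
    (q + 1) * Nat.card K ≤ Nat.card (scales q K) * q := by
  obtain ⟨hfin, -⟩ := id hF
  classical
  obtain ⟨d, hd, hdq⟩ := hF.exists_skew
  let K' : AddSubgroup (fixF hF) := K.comap
    ((AddMonoidHom.mulLeft d).comp (fixF hF).subtype.toAddMonoidHom)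
  have hK' : Nat.card K' = Nat.card K := Nat.card_congr
    { toFun := fun x => ⟨d * x.1.1, x.2⟩
      invFun := fun a => ⟨⟨a.1 / d, by
        rw [mem_fixF, div_pow, hdq, (mem_skew hF).1 (hK a.2), neg_div_neg_eq]⟩, by
          change d * (a.1 / d) ∈ K
          rw [mul_div_cancel₀ _ hd]; exact a.2⟩
      left_inv := fun x => Subtype.ext (Subtype.ext (mul_div_cancel_left₀ _ hd))
      right_inv := fun a => Subtype.ext (mul_div_cancel₀ _ hd) }
  let B : LinearMap.BilinForm (fixF hF) (fixF hF) := LinearMap.mul (fixF hF) (fixF hF)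
  have hB : ∀ x, (∀ y, B x y = 0) → x = 0 := fun x hx => by simpa [B] using hx 1
  have hs : ∀ x y, B x y = B y x := fun x y => mul_comm x y
  have hcard := card_mul_orthG B hB hs K'
  rw [card_fixF hF, hK'] at hcard
  set D := orthG B K' with hD
  have hDbot : D ≠ ⊥ := by
    rw [hD, Ne, orthG_eq_bot_iff B hB hs]
    intro h
    refine htop (le_antisymm hK fun a ha => ?_)
    have : (⟨a / d, by rw [mem_fixF, div_pow, hdq, (mem_skew hF).1 ha, neg_div_neg_eq]⟩ :
        fixF hF) ∈ K' := h ▸ AddSubgroup.mem_top _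
    have h' : d * (a / d) ∈ K := this
    rwa [mul_div_cancel₀ _ hd] at h'
  obtain ⟨d₀, hd₀, hd₀0⟩ := (AddSubgroup.bot_or_exists_ne_zero D).resolve_left hDbot
  -- the part of the dual of a scaling
  let dual : AddSubgroup F → Set (fixF hF) := fun L =>
    {x | x ∈ orthG B (L.comap ((AddMonoidHom.mulLeft d).comp (fixF hF).subtype.toAddMonoidHom))}
  have hdual : ∀ (c : fixF hF), c ≠ 0 → ∀ x, x ∈ dual (K.map (AddMonoidHom.mulLeft c.1)) ↔
      c * x ∈ D := by
    intro c hc x
    have hc' : (c : F) ≠ 0 := fun h => hc (Subtype.ext h)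
    constructor
    · intro hx a ha
      have := hx (c * a) ⟨d * a.1, ha, by simp; ring⟩
      change psi (fixF hF) (c * a * x) = 0 at this
      change psi (fixF hF) (a * (c * x)) = 0
      rwa [← mul_assoc, mul_comm a c]
    · rintro hx a ⟨k, hk, hka⟩
      have := hx (c⁻¹ * a) (show d * ((c⁻¹ * a : fixF hF) : F) ∈ K by
        have e : (c : F) * k = d * (a : F) := hka
        have e2 : d * ((c⁻¹ * a : fixF hF) : F) = k := by
          rw [Subfield.coe_mul, Subfield.coe_inv]
          field_simp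
          linear_combination -e
        rw [e2]; exact hk)
      change psi (fixF hF) (c⁻¹ * a * (c * x)) = 0 at this
      change psi (fixF hF) (a * x) = 0
      convert this using 2
      field_simp
  have hcov : Nat.card {x : fixF hF | x ≠ 0} ≤ Nat.card (scales q K) * (Nat.card D - 1) := by
    refine card_le_cover (scales q K) dual _ (fun x hx => ?_) ?_
    · refine ⟨_, ⟨((d₀ * x⁻¹ : fixF hF) : F), fun h => mul_ne_zero hd₀0 (inv_ne_zero hx) (Subtype.ext h),
        (d₀ * x⁻¹ : fixF hF).2, rfl⟩, (hdual _ (mul_ne_zero hd₀0 (inv_ne_zero hx)) x).2 ?_⟩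
      rwa [mul_assoc, inv_mul_cancel₀ hx, mul_one]
    · rintro _ ⟨c, hc, hcq, rfl⟩
      have hc' : (⟨c, hcq⟩ : fixF hF) ≠ 0 := fun h => hc (congrArg Subtype.val h)
      refine le_trans (Nat.card_le_card_of_injective (β := {y : D // y ≠ 0})
        (fun x => ⟨⟨⟨c, hcq⟩ * x.1, (hdual _ hc' x.1).1 x.2.1⟩,
          fun h => mul_ne_zero hc' x.2.2 (congrArg Subtype.val h)⟩)
        fun x x' h => Subtype.ext (mul_left_cancel₀ hc'
          (congrArg (fun y : {y : D // y ≠ 0} => y.1.1) h))) ?_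
      have := Fintype.ofFinite D
      simp only [Nat.card_eq_fintype_card, Fintype.card_subtype_compl, Fintype.card_subtype_eq]
      exact le_rfl
  have hq1 : Nat.card {x : fixF hF | x ≠ 0} = q - 1 := by
    have := Fintype.ofFinite (fixF hF)
    refine Eq.trans ?_ (congrArg (· - 1) (card_fixF hF))
    rw [Nat.card_eq_fintype_card, Nat.card_eq_fintype_card]
    change Fintype.card {x : fixF hF // x ≠ 0} = _
    rw [Fintype.card_subtype_compl, Fintype.card_subtype_eq]
  have hself : K ∈ scales q K := ⟨1, one_ne_zero, one_pow q, by ext a; simp [AddSubgroup.mem_map]⟩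
  have htwo : 2 ≤ Nat.card (scales q K) := by
    by_contra h
    have h1 : Nat.card (scales q K) ≤ 1 := by omega
    have hsub := Finite.card_le_one_iff_subsingleton.1 h1
    obtain ⟨a, ha, ha0⟩ := (AddSubgroup.bot_or_exists_ne_zero K).resolve_left hbot
    refine htop (le_antisymm hK fun b hb => ?_)
    rcases eq_or_ne b 0 with rfl | hb0
    · exact K.zero_mem
    have hc : b / a ≠ 0 := div_ne_zero hb0 ha0
    have hcq : (b / a) ^ q = b / a := by
      rw [div_pow, (mem_skew hF).1 hb, (mem_skew hF).1 (hK ha), neg_div_neg_eq]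
    have e := congrArg Subtype.val (Subsingleton.elim
      (⟨_, b / a, hc, hcq, rfl⟩ : scales q K) ⟨K, hself⟩)
    dsimp only at e
    rw [← e]
    exact ⟨a, ha, div_mul_cancel₀ _ ha0⟩
  have hDpos : 0 < Nat.card D := Nat.card_pos
  rw [hq1] at hcov
  set N := Nat.card (scales q K)
  set dd := Nat.card D
  have h1 := hF.one_lt
  have h2 : q + 1 ≤ N * dd := by
    have : N * dd = N * (dd - 1) + N := by
      rw [← Nat.mul_add_one, Nat.sub_add_cancel hDpos]
    omega
  calc (q + 1) * Nat.card K ≤ N * dd * Nat.card K := Nat.mul_le_mul_right _ h2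
    _ = N * q := by rw [mul_assoc, mul_comm dd, hcard]

/-- Every scaling of the centre part occurs, with all its inner translates. -/
theorem trans_lower [Finite X] {y : X} {N : ℕ}
    (h : ∀ (l : F) (hl : l ≠ 0) (g : UG m F q) (hd : (LinearEquiv.det g.1 : F) = l ^ q * l⁻¹),
      N ≤ Nat.card (innerTrans hF (lev hF hl g hd • y)))
    (hdet : ∀ l : F, l ≠ 0 → ∃ g : UG m F q, (LinearEquiv.det g.1 : F) = l ^ q * l⁻¹) :
    Nat.card (scales q (Kset hF y)) * N ≤ Nat.card (trans hF y) := by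
  obtain ⟨hfin, -⟩ := id hF
  classical
  have hex : ∀ K' : scales q (Kset hF y), ∃ (l : F) (hl : l ≠ 0) (g : UG m F q)
      (hd : (LinearEquiv.det g.1 : F) = l ^ q * l⁻¹),
      Kset hF (lev hF hl g hd • y) = K'.1 := by
    rintro ⟨_, c, hc, hcq, rfl⟩
    obtain ⟨x, hx⟩ := hF.exists_norm hcq
    have hx0 : x ≠ 0 := by rintro rfl; rw [zero_pow (Nat.succ_ne_zero q)] at hx; exact hc hx.symm
    obtain ⟨g, hg⟩ := hdet x hx0
    refine ⟨x, hx0, g, hg, ?_⟩
    change Kset hF (lev hF hx0 g hg • y) = (Kset hF y).map (AddMonoidHom.mulLeft c)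
    rw [Kset_lev, show c = x * x ^ q by rw [← hx, pow_succ']]
  choose l hl g hd hK using hex
  let f : (Σ K' : scales q (Kset hF y),
      innerTrans hF (lev hF (hl K') (g K') (hd K') • y)) → trans hF y := fun r =>
    ⟨(r.2.1, r.1.1), by
      obtain ⟨K', A, t, rfl⟩ := r
      obtain ⟨h', e⟩ := lev_mul_lev hF one_ne_zero (hl K') t.1 (g K')
        (by rw [mem_SUG.1 t.2]; simp) (hd K')
      refine ⟨_, mul_ne_zero one_ne_zero (hl K'), _, h', ?_⟩
      rw [← e, mul_smul]
      exact Prod.ext rfl ((Kset_inner hF t _).trans (hK K'))⟩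
  have hf : Function.Injective f := by
    rintro ⟨K', A, hA⟩ ⟨K'', A', hA'⟩ e
    have e1 : A = A' := congrArg (fun s : trans hF y => s.1.1) e
    have e2 : K' = K'' := Subtype.ext (congrArg (fun s : trans hF y => s.1.2) e)
    subst e1 e2
    rfl
  have := Fintype.ofFinite (scales q (Kset hF y))
  refine le_trans ?_ (Nat.card_le_card_of_injective f hf)
  rw [Nat.card_sigma, Nat.card_eq_fintype_card, ← Finset.card_univ, ← smul_eq_mul]
  exact Finset.card_nsmul_le_sum _ _ _ fun K' _ => h _ _ _ _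

end Cfsg.Agent.MinU
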