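/-
Orbits and numbers of vectors for the Levi elements.
-/
import Mathlib
import Cfsg.Agent.MinU.Coord

set_option autoImplicit false

namespace Cfsg.Agent.MinU

open Cfsg.Agent.Classical.U

universe u

variable {F : Type u} [Field F] {q : ℕ} {m : ℕ}

/-- The number of isotropic points in dimension `n`. -/
def isoN (q : ℕ) : ℕ → ℕ
  | 0 => 0
  | 1 => 0
  | m + 2 => q ^ (2 * m + 1) + q ^ 2 * isoN q m + 1

theorem isoN_two (q : ℕ) : isoN q 2 = q + 1 := by simp [isoN]

theorem isoN_three (q : ℕ) : isoN q 3 = q ^ 3 + 1 := by simp [isoN]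

theorem isoN_four (q : ℕ) : isoN q 4 = q ^ 5 + q ^ 2 * (q + 1) + 1 := by
  simp [isoN]

theorem isoN_formula {q : ℕ} : ∀ n : ℕ,
    (q : ℤ) * ((((q : ℤ) ^ 2 - 1) * isoN q n) + 1) =
      (q : ℤ) ^ (2 * n) + ((q : ℤ) - 1) * (-(q : ℤ)) ^ n
  | 0 => by simp [isoN]
  | 1 => by simp [isoN]; ring
  | n + 2 => by
    have ih := isoN_formula (q := q) n
    have h2 : (-(q : ℤ)) ^ (n + 2) = (q : ℤ) ^ 2 * (-(q : ℤ)) ^ n := by ring
    simp only [isoN]
    push_cast
    rw [h2, show 2 * (n + 2) = 2 * n + 4 from by omega, pow_add, pow_succ]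
    linear_combination (q : ℤ) ^ 2 * ih

variable (hF : SqField F q)
include hF

/-- The non-zero isotropic vectors. -/
theorem card_iso_nonzero (n : ℕ) :
    Nat.card {v : Fin n → F // v ≠ 0 ∧ herm q v v = 0} = (q ^ 2 - 1) * isoN q n := by
  obtain ⟨hfin, -⟩ := id hF
  classical
  have := Fintype.ofFinite F
  have h1 : Nat.card {v : Fin n → F // v ≠ 0 ∧ herm q v v = 0} + 1 =
      Nat.card {v : Fin n → F // herm q v v = 0} := by
    simp only [Nat.card_eq_fintype_card, Fintype.card_subtype]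
    have e : (Finset.univ.filter fun v : Fin n → F => herm q v v = 0) =
        insert 0 (Finset.univ.filter fun v : Fin n → F => v ≠ 0 ∧ herm q v v = 0) := by
      ext v
      rcases eq_or_ne v 0 with rfl | hv <;> simp [*]
    rw [e, Finset.card_insert_of_notMem (by simp)]
  have hq := hF.one_lt
  have h2 := (hF.card_values_int n).2
  rw [← h1, ← isoN_formula] at h2
  push_cast at h2
  have h3 := mul_left_cancel₀ (by exact_mod_cast hF.q_ne_zero) h2
  have h4 : 1 ≤ q ^ 2 := Nat.one_le_pow _ _ (by omega)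
  zify [h4]
  linear_combination h3

/-- The vectors of a fixed non-zero value. -/
theorem card_value_formula {c : F} (hc : c ^ q = c) (hc0 : c ≠ 0) (n : ℕ) :
    (q : ℤ) * Nat.card {v : Fin n → F // herm q v v = c} = (q : ℤ) ^ (2 * n) - (-(q : ℤ)) ^ n := by
  rw [hF.card_value_eq hc hc0 n]
  exact (hF.card_values_int n).1

/-- The anisotropic vectors. -/
theorem card_noniso (n : ℕ) :
    Nat.card {v : Fin n → F // herm q v v ≠ 0} + (q ^ 2 - 1) * isoN q n + 1 = q ^ (2 * n) := by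
  obtain ⟨hfin, hcard⟩ := id hF
  classical
  have := Fintype.ofFinite F
  have h1 := card_iso_nonzero hF n
  have h2 : Nat.card {v : Fin n → F // herm q v v = 0} =
      Nat.card {v : Fin n → F // v ≠ 0 ∧ herm q v v = 0} + 1 := by
    simp only [Nat.card_eq_fintype_card, Fintype.card_subtype]
    have e : (Finset.univ.filter fun v : Fin n → F => herm q v v = 0) =
        insert 0 (Finset.univ.filter fun v : Fin n → F => v ≠ 0 ∧ herm q v v = 0) := by
      ext v
      rcases eq_or_ne v 0 with rfl | hv <;> simp [*]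
    rw [e, Finset.card_insert_of_notMem (by simp)]
  have h3 : Nat.card {v : Fin n → F // herm q v v = 0} +
      Nat.card {v : Fin n → F // herm q v v ≠ 0} = q ^ (2 * n) := by
    rw [← Nat.card_sum, Nat.card_congr (Equiv.sumCompl _), Nat.card_fun, Nat.card_fin, hcard,
      ← pow_mul]
  omega

/-- Fixing a vector of non-zero value, with a given determinant. -/
theorem exists_fix_det (hm : 2 ≤ m) {v : Fin m → F} (hv : herm q v v ≠ 0) {d : F}
    (hd : d ^ (q + 1) = 1) :
    ∃ g : UG m F q, g.1 v = v ∧ (LinearEquiv.det g.1 : F) = d := by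
  obtain ⟨p, rfl⟩ : ∃ p, m = p + 1 := ⟨m - 1, by omega⟩
  obtain ⟨x, hx⟩ := hF.exists_norm (c := herm q v v) (hF.herm_symm v v)
  have hx0 : x ≠ 0 := by rintro rfl; rw [zero_pow (Nat.succ_ne_zero q)] at hx; exact hv hx.symm
  have h1 : herm q (x⁻¹ • v) (x⁻¹ • v) = 1 := by
    rw [herm_smul_left, herm_smul_right, ← mul_assoc, ← pow_succ', inv_pow, hx, inv_mul_cancel₀ hv]
  have h0 : herm q (Pi.single 0 1 : Fin (p + 1) → F) (Pi.single 0 1) = 1 := by
    rw [herm_one_single, Pi.single_eq_same, one_pow]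
  obtain ⟨t, ht⟩ := UG_transitive_one hF h0 h1
  obtain ⟨g, hg⟩ := exists_det_eq hF (n := p) (by omega) hd
  refine ⟨t * tailLift p F q g * t⁻¹, ?_, ?_⟩
  · have e : v = x • t.1 (Pi.single 0 1) := by
      rw [ht, smul_smul, mul_inv_cancel₀ hx0, one_smul]
    have e2 : (tailLift p F q g).1 (Pi.single 0 1) = Pi.single 0 1 := by
      rw [tailLift_apply]
      have : Fin.tail (Pi.single 0 1 : Fin (p + 1) → F) = 0 := by
        ext i; simp [Fin.tail]
      rw [this, map_zero]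
      ext i; refine Fin.cases ?_ (fun j => ?_) i <;> simp
    conv_lhs => rw [e]
    rw [map_smul]
    conv_rhs => rw [e]
    congr 1
    simp [e2]
  · simp only [Subgroup.coe_mul, Subgroup.coe_inv, map_mul, map_inv, Units.val_mul]
    rw [mul_right_comm, ← Units.val_mul, mul_inv_cancel, Units.val_one, one_mul]
    change (LinearEquiv.det (consEquiv g.1) : F) = d
    rw [det_consEquiv, hg]

/-- Anisotropic vectors of equal value are conjugate under the special group. -/
theorem exists_SUG_map (hm : 2 ≤ m) {v v' : Fin m → F} (hv : herm q v v ≠ 0)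
    (h : herm q v v = herm q v' v') : ∃ g : ↥(SUG m F q), g.1.1 v = v' := by
  obtain ⟨x, hx⟩ := hF.exists_norm (c := herm q v v) (hF.herm_symm v v)
  have hx0 : x ≠ 0 := by rintro rfl; rw [zero_pow (Nat.succ_ne_zero q)] at hx; exact hv hx.symm
  have h1 : ∀ w : Fin m → F, herm q w w = herm q v v → herm q (x⁻¹ • w) (x⁻¹ • w) = 1 := by
    intro w hw
    rw [herm_smul_left, herm_smul_right, ← mul_assoc, ← pow_succ', inv_pow, hx, hw,
      inv_mul_cancel₀ hv]
  obtain ⟨t, ht⟩ := UG_transitive_one hF (h1 v rfl) (h1 v' h.symm)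
  rw [map_smul] at ht
  have ht' : t.1 v = v' := smul_right_injective _ (inv_ne_zero hx0) ht
  obtain ⟨k, hk, hkd⟩ := exists_fix_det hF hm (v := v') (by rwa [← h])
    (d := ((LinearEquiv.det t.1 : Fˣ) : F)⁻¹) (by rw [inv_pow, det_norm_one hF, inv_one])
  refine ⟨⟨k * t, mem_SUG.2 (Units.ext ?_)⟩, ?_⟩
  · rw [Subgroup.coe_mul, map_mul, Units.val_mul, hkd, inv_mul_cancel₀ (Units.ne_zero _),
      Units.val_one]
  · change (k * t).1 v = v'
    rw [Subgroup.coe_mul, LinearEquiv.mul_apply, ht', hk]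

/-- The Levi elements are transitive on anisotropic vectors. -/
theorem exists_lev_noniso (hm : 2 ≤ m) {v v' : Fin m → F} (hv : herm q v v ≠ 0)
    (hv' : herm q v' v' ≠ 0) :
    ∃ (l : F) (_ : l ≠ 0) (g : UG m F q), (LinearEquiv.det g.1 : F) = l ^ q * l⁻¹ ∧
      l ^ q • g.1 v = v' := by
  have hfix : ∀ w : Fin m → F, herm q w w ^ q = herm q w w := fun w => hF.herm_symm w w
  obtain ⟨c, hc⟩ := hF.exists_norm (c := herm q v' v' / herm q v v) (by rw [div_pow, hfix, hfix])
  have hc0 : c ≠ 0 := by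
    rintro rfl
    rw [zero_pow (Nat.succ_ne_zero q)] at hc
    exact div_ne_zero hv' hv hc.symm
  have hcv : herm q (c • v) (c • v) = herm q v' v' := by
    rw [herm_smul_left, herm_smul_right, ← mul_assoc, ← pow_succ', hc, div_mul_cancel₀ _ hv]
  obtain ⟨t, ht⟩ := exists_SUG_map hF hm (by rwa [hcv]) hcv
  obtain ⟨k, hk, hkd⟩ := exists_fix_det hF hm hv' (d := c * (c ^ q)⁻¹) (by
    rw [pow_succ', mul_pow, inv_pow, hF.pow_pow]
    have := pow_ne_zero q hc0
    field_simp)
  refine ⟨c ^ q, pow_ne_zero _ hc0, k * t.1, ?_, ?_⟩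
  · rw [Subgroup.coe_mul, map_mul, Units.val_mul, hkd, mem_SUG.1 t.2, Units.val_one, mul_one,
      hF.pow_pow]
  · rw [hF.pow_pow, ← map_smul, Subgroup.coe_mul, LinearEquiv.mul_apply, ht, hk]

/-- The special group is transitive on isotropic lines. -/
theorem exists_SUG_line {u v : Fin m → F} (hu : u ≠ 0) (hu0 : herm q u u = 0) (hv : v ≠ 0)
    (hv0 : herm q v v = 0) : ∃ g : ↥(SUG m F q), ∃ c : F, c ≠ 0 ∧ g.1.1 u = c • v := by
  obtain ⟨g, hg, c, hc, e⟩ := TG_transitive_lines hF hu hu0 hv hv0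
  exact ⟨⟨g, TG_le_SUG hF hg⟩, c, hc, e⟩

/-- The Levi elements are transitive on isotropic vectors. -/
theorem exists_lev_iso (hm : 3 ≤ m ∨ m = 2 ∧ (2 : F) = 0) {v v' : Fin m → F} (hv : v ≠ 0)
    (hv0 : herm q v v = 0) (hv' : v' ≠ 0) (hv'0 : herm q v' v' = 0) :
    ∃ (l : F) (_ : l ≠ 0) (g : UG m F q), (LinearEquiv.det g.1 : F) = l ^ q * l⁻¹ ∧
      l ^ q • g.1 v = v' := by
  obtain ⟨p, rfl⟩ : ∃ p, m = p + 2 := ⟨m - 2, by omega⟩
  obtain ⟨hp, hθ⟩ := pair_spec hF (m := p)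
  obtain ⟨t, x, hx, et⟩ := exists_SUG_line hF hv hv0 hp.ne_zero hp.1
  obtain ⟨t', x', hx', et'⟩ := exists_SUG_line hF hv' hv'0 hp.ne_zero hp.1
  set r := x' / x with hr
  have hr0 : r ≠ 0 := div_ne_zero hx' hx
  obtain ⟨l, hl, μ, hμ, hlμ, δ, hδ⟩ : ∃ l : F, l ≠ 0 ∧ ∃ μ : F, μ ≠ 0 ∧ l ^ q * μ = r ∧
      ∃ δ : UG p F q, μ * (μ ^ q)⁻¹ * (LinearEquiv.det δ.1 : F) = l ^ q * l⁻¹ := by
    rcases hm with h3 | ⟨hp2, h2⟩
    · obtain ⟨δ, hδ⟩ := exists_det_eq hF (n := p) (by omega) (c := r ^ q * r⁻¹) (by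
        rw [pow_succ', mul_pow, inv_pow, hF.pow_pow]
        have := pow_ne_zero q hr0
        field_simp)
      refine ⟨1, one_ne_zero, r, hr0, by simp, δ, ?_⟩
      rw [hδ]
      have := pow_ne_zero q hr0
      field_simp
      simp
    · obtain ⟨hfin, -⟩ := id hF
      obtain ⟨pc, k, hpc, hchar, -⟩ := hF.exists_char
      have hpc2 : pc = 2 := ((Nat.prime_dvd_prime_iff_eq hpc Nat.prime_two).1
        ((CharP.cast_eq_zero_iff F pc 2).1 (by exact_mod_cast h2)))
      subst hpc2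
      have := Fact.mk Nat.prime_two
      have hinj : Function.Injective (fun a : F => a ^ 2) := fun a b hab =>
        frobenius_inj F 2 (by simpa [frobenius_def] using hab)
      obtain ⟨s, hs⟩ := (Finite.injective_iff_surjective.1 hinj) r
      have hs' : s ^ 2 = r := hs
      have hs0 : s ≠ 0 := by rintro rfl; exact hr0 (by simpa using hs'.symm)
      refine ⟨s ^ q, pow_ne_zero _ hs0, s, hs0, by rw [hF.pow_pow, ← hs', sq], 1, ?_⟩
      rw [hF.pow_pow]
      simp
  set D : UG (p + 2) F q := ⟨levLin hF hμ δ, levLin_mem hF hμ δ⟩ with hD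
  have hDe : D.1 (eV hF p) = μ • eV hF p := by
    change levLin hF hμ δ (eV hF p) = _
    rw [← ph_eV hF, levLin_apply, map_zero, ← map_smul]
    simp
  refine ⟨l, hl, t'.1⁻¹ * D * t.1, ?_, ?_⟩
  · simp only [Subgroup.coe_mul, Subgroup.coe_inv, map_mul, map_inv, Units.val_mul]
    rw [mem_SUG.1 t.2, mem_SUG.1 t'.2, inv_one, Units.val_one, one_mul, mul_one]
    change (LinearEquiv.det (levLin hF hμ δ) : F) = _
    rw [det_levLin]
    exact hδ
  · simp only [Subgroup.coe_mul, Subgroup.coe_inv, LinearEquiv.mul_apply]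
    rw [et, map_smul, hDe, smul_smul, map_smul, smul_smul]
    have e : (t'.1.1)⁻¹ (eV hF p) = x'⁻¹ • v' := by
      rw [show (t'.1.1)⁻¹ = t'.1.1.symm from rfl, LinearEquiv.symm_apply_eq, map_smul, et',
        smul_smul, inv_mul_cancel₀ hx', one_smul]
    rw [e, smul_smul, show l ^ q * (x * μ) * x'⁻¹ = l ^ q * μ * x * x'⁻¹ by ring, hlμ, hr]
    rw [div_mul_cancel₀ _ hx, mul_inv_cancel₀ hx', one_smul]

end Cfsg.Agent.MinU
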