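/-
Transvections, root groups at all isotropic vectors, generation, and isotropic lines.
-/
import Mathlib
import Cfsg.Agent.MinU.Act
import Cfsg.Agent.MinU.Orbits

set_option autoImplicit false

namespace Cfsg.Agent.MinU

open Cfsg.Agent.Classical.U

universe u v

variable {F : Type u} [Field F] {q : ℕ} {m : ℕ}

section Lines

variable {n : ℕ}

/-- The lines through a set of vectors. -/
def linesOf (S : Set (Fin n → F)) : Set (Submodule F (Fin n → F)) :=
  {L | ∃ v ∈ S, L = Submodule.span F {v}}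

theorem card_linesOf (hF : SqField F q) (S : Set (Fin n → F)) (h0 : ∀ v ∈ S, v ≠ 0)
    (hsm : ∀ v ∈ S, ∀ c : F, c ≠ 0 → c • v ∈ S) :
    Nat.card (linesOf S) * (q ^ 2 - 1) = Nat.card S := by
  obtain ⟨hfin, hcard⟩ := id hF
  classical
  choose rep hrep using fun L : linesOf S => L.2
  have hF0 : Nat.card {c : F // c ≠ 0} = q ^ 2 - 1 := by
    have := Fintype.ofFinite F
    rw [← hcard, Nat.card_eq_fintype_card, Nat.card_eq_fintype_card, Fintype.card_subtype_compl,
      Fintype.card_subtype_eq]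
  let ψ : linesOf S × {c : F // c ≠ 0} → S := fun p =>
    ⟨p.2.1 • rep p.1, hsm _ (hrep p.1).1 _ p.2.2⟩
  rw [← hF0, ← Nat.card_prod]
  refine Nat.card_congr (Equiv.ofBijective ψ ⟨fun p p' hp => ?_, fun s => ?_⟩)
  · have e1 : p.2.1 • rep p.1 = p'.2.1 • rep p'.1 := congrArg Subtype.val hp
    have hL : p.1 = p'.1 := by
      refine Subtype.ext ?_
      rw [(hrep _).2, (hrep p'.1).2]
      conv_lhs => rw [← Submodule.span_singleton_smul_eq (IsUnit.mk0 _ p.2.2)]
      rw [e1, Submodule.span_singleton_smul_eq (IsUnit.mk0 _ p'.2.2)]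
    refine Prod.ext hL (Subtype.ext ?_)
    rw [hL] at e1
    exact smul_left_injective F (h0 _ (hrep p'.1).1) e1
  · set L : linesOf S := ⟨Submodule.span F {s.1}, s.1, s.2, rfl⟩
    have hs : s.1 ∈ Submodule.span F {rep L} := by
      rw [← (hrep L).2]; exact Submodule.mem_span_singleton_self _
    obtain ⟨t, ht⟩ := Submodule.mem_span_singleton.1 hs
    exact ⟨(L, ⟨t, fun h => h0 _ s.2 (by rw [← ht, h, zero_smul])⟩), Subtype.ext ht⟩

end Lines

variable (hF : SqField F q)
include hF

/-- The isotropic lines. -/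
def isoLines (n : ℕ) (F : Type u) [Field F] (q : ℕ) : Set (Submodule F (Fin n → F)) :=
  linesOf {v : Fin n → F | v ≠ 0 ∧ herm q v v = 0}

theorem card_isoLines (n : ℕ) : Nat.card (isoLines n F q) = isoN q n := by
  obtain ⟨hfin, -⟩ := id hF
  have h := card_linesOf hF {v : Fin n → F | v ≠ 0 ∧ herm q v v = 0} (fun v hv => hv.1)
    (fun v hv c hc => ⟨smul_ne_zero hc hv.1, by
      rw [herm_smul_left, herm_smul_right, hv.2, mul_zero, mul_zero]⟩)
  have h2 : Nat.card ↥{v : Fin n → F | v ≠ 0 ∧ herm q v v = 0} = (q ^ 2 - 1) * isoN q n :=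
    card_iso_nonzero hF n
  rw [h2, mul_comm] at h
  have h1 := hF.one_lt
  have h4 : 2 ^ 2 ≤ q ^ 2 := Nat.pow_le_pow_left h1 2
  exact Nat.eq_of_mul_eq_mul_left (by omega) h

/-- A unipotent element as a member of the acting group. -/
noncomputable def uS {v x : Fin (m + 2) → F} {a : F} (h : UniCond q v x a) : SG m F q :=
  ⟨uni hF h, det_uni hF h⟩

/-- A transvection as a member of the acting group. -/
noncomputable def tS {v : Fin (m + 2) → F} {a : F} (h : TrvCond q v a) : SG m F q :=
  ⟨trv hF h, det_uni hF _⟩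

theorem uS_congr {v x v' x' : Fin (m + 2) → F} {a a' : F} (h : UniCond q v x a)
    (h' : UniCond q v' x' a') (hv : v = v') (hx : x = x') (ha : a = a') : uS hF h = uS hF h' :=
  Subtype.ext (uni_congr hF h h' hv hx ha)

theorem tS_eq_uS {v : Fin (m + 2) → F} {a : F} (h : TrvCond q v a) :
    tS hF h = uS hF (h.uniCond hF) := rfl

theorem uS_conj (g : SG m F q) {v x : Fin (m + 2) → F} {a : F} (h : UniCond q v x a) :
    ∃ h' : UniCond q (g.1.1 v) (g.1.1 x) a, g * uS hF h * g⁻¹ = uS hF h' :=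
  ⟨⟨by rw [UG_app]; exact h.1, by rw [UG_app]; exact h.2.1, by rw [UG_app]; exact h.2.2⟩,
    Subtype.ext (uni_conj hF g.1 h)⟩

theorem tS_conj (g : SG m F q) {v : Fin (m + 2) → F} {a : F} (h : TrvCond q v a) :
    ∃ h' : TrvCond q (g.1.1 v) a, g * tS hF h * g⁻¹ = tS hF h' := by
  refine ⟨⟨by rw [UG_app]; exact h.1, h.2⟩, ?_⟩
  obtain ⟨h', e⟩ := uS_conj hF g (h.uniCond hF)
  exact e.trans (uS_congr hF _ _ rfl (map_zero _) rfl)

theorem tS_smul {v : Fin (m + 2) → F} {c a : F} (h : TrvCond q (c • v) a)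
    (h' : TrvCond q v (c * c ^ q * a)) : tS hF h = tS hF h' := by
  refine Subtype.ext (Subtype.ext (LinearEquiv.ext fun w => ?_))
  change (trv hF h).1 w = (trv hF h').1 w
  rw [trv_apply, trv_apply, herm_smul_right, smul_smul]
  congr 2
  ring

theorem trvCond_eV {a : F} (ha : a ∈ skew hF) : TrvCond q (eV hF m) a :=
  ⟨h_ee hF, (mem_skew hF).1 ha⟩

theorem tS_eV {a : F} (ha : a ∈ skew hF) :
    tS hF (trvCond_eV hF (m := m) ha) = tE hF (hZ hF ha) :=
  Subtype.ext (uni_congr hF ((trvCond_eV hF ha).uniCond hF) (heis_cond hF (hZ hF ha)) rfl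
    (by simp [hZ]) rfl)

/-- The vectors orthogonal to `eV` reduce to the last coordinates. -/
theorem exists_decomp {x : Fin (m + 2) → F} (hx : herm q x (eV hF m) = 0) :
    ∃ (r : F) (w : Fin m → F), x = r • eV hF m + iW w := by
  obtain ⟨⟨⟨r, s⟩, w⟩, rfl⟩ := (ph hF m).surjective x
  refine ⟨r, w, ?_⟩
  rw [ph_apply] at hx ⊢
  simp only [herm_add_left, herm_smul_left, h_ee hF, h_fe hF, h_we hF, mul_zero, mul_one, add_zero,
    zero_add] at hx
  rw [hx, zero_smul, add_zero]

/-- A unipotent at `eV` is in the radical. -/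
theorem uS_eV {x : Fin (m + 2) → F} {a : F} (h : UniCond q (eV hF m) x a) :
    ∃ p : Heis m F q, uS hF h = tE hF p := by
  obtain ⟨r, w, rfl⟩ := exists_decomp hF h.2.1
  have hc : (a + r - r ^ q) + (a + r - r ^ q) ^ q + herm q w w = 0 := by
    have h3 := h.2.2
    simp only [herm_add_left, hF.herm_add_right, herm_smul_left, herm_smul_right, h_ee hF, h_we hF,
      h_ew hF, herm_iW _ _ hF.q_ne_zero, mul_zero, add_zero, zero_add] at h3
    rw [hF.sub_pow, hF.add_pow, hF.pow_pow]
    linear_combination h3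
  refine ⟨⟨(w, a + r - r ^ q), hc⟩, Subtype.ext (Subtype.ext (LinearEquiv.ext fun z => ?_))⟩
  change (uni hF h).1 z = (uni hF (heis_cond hF _)).1 z
  rw [uni_apply, uni_apply, hF.herm_add_right, herm_smul_right]
  module

variable {X : Type v} [UAct F q X m]

/-- All unipotents centred at `v` fix the point. -/
def FullAt (y : X) (v : Fin (m + 2) → F) : Prop :=
  ∀ (x : Fin (m + 2) → F) (a : F) (h : UniCond q v x a), uS hF h • y = y

theorem FullAt.map {y : X} {v : Fin (m + 2) → F} (hf : FullAt hF y v) (g : SG m F q) :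
    FullAt hF (g • y) (g.1.1 v) := by
  intro x a h
  have h0 : UniCond q v (g.1.1.symm x) a := by
    obtain ⟨h1, h2, h3⟩ := h
    refine ⟨by rwa [UG_app] at h1, ?_, ?_⟩
    · rw [← UG_app g.1, LinearEquiv.apply_symm_apply]; exact h2
    · rw [← UG_app g.1, LinearEquiv.apply_symm_apply]; exact h3
  obtain ⟨h', e⟩ := uS_conj hF g h0
  rw [uS_congr hF h h' rfl (g.1.1.apply_symm_apply x).symm rfl, ← e, mul_smul, mul_smul,
    inv_smul_smul, hf _ _ h0]

theorem FullAt.map_fix {y : X} {v : Fin (m + 2) → F} (hf : FullAt hF y v) {g : SG m F q}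
    (hg : g • y = y) : FullAt hF y (g.1.1 v) := by
  have := hf.map hF g
  rwa [hg] at this

theorem FullAt.smul_vec {y : X} {v : Fin (m + 2) → F} (hf : FullAt hF y v) {c : F} (hc : c ≠ 0) :
    FullAt hF y (c • v) := by
  intro x a h
  have h' : UniCond q v (c ^ q • x) (c * c ^ q * a) := by
    obtain ⟨h1, h2, h3⟩ := h
    rw [herm_smul_left, herm_smul_right] at h1
    rw [herm_smul_right] at h2
    refine ⟨?_, by rw [herm_smul_left]; exact h2, ?_⟩
    · exact (mul_eq_zero.1 ((mul_eq_zero.1 h1).resolve_left hc)).resolve_left (pow_ne_zero q hc)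
    · rw [herm_smul_left, herm_smul_right, mul_pow, mul_pow, hF.pow_pow]
      linear_combination c * c ^ q * h3
  rw [show uS hF h = uS hF h' from Subtype.ext (uni_smul hF h h')]
  exact hf _ _ h'

theorem fullAt_eV_iff {y : X} :
    FullAt hF y (eV hF m) ↔ Aset hF y = ⊤ ∧ Kset hF y = skew hF := by
  constructor
  · intro hf
    have hfix : ∀ p : Heis m F q, tE hF p • y = y := fun p => by
      have := hf _ _ (heis_cond hF p)
      exact this
    refine ⟨eq_top_iff.2 fun w _ => ?_, le_antisymm (Kset_le hF y) fun a ha => ⟨ha, hfix _⟩⟩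
    obtain ⟨a, ha⟩ := hF.exists_trace (c := -herm q w w) (by rw [hF.neg_pow, hF.herm_symm])
    exact ⟨⟨(w, a), by rw [ha, neg_add_cancel]⟩, rfl, hfix _⟩
  · rintro ⟨hA, hK⟩ x a h
    obtain ⟨p, e⟩ := uS_eV hF h
    rw [e]
    obtain ⟨s, hs, hsy⟩ : p.1.1 ∈ Aset hF y := by rw [hA]; exact AddSubgroup.mem_top _
    have hd : p.1.2 - s.1.2 ∈ skew hF := by
      rw [mem_skew, hF.sub_pow]
      have := p.2
      rw [← hs] at this
      linear_combination this - s.2
    have : p = hMul hF (hZ hF hd) s := by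
      rw [hMul_hZ]
      exact Subtype.ext (Prod.ext hs.symm (add_sub_cancel _ _).symm)
    rw [this, ← tE_mul, mul_smul, hsy]
    exact (mem_Kset hF hd).1 (by rw [hK]; exact hd)

/-- A point fixed by two non-orthogonal root groups is fixed by everything. -/
theorem fixed_of_full_pair (hn : ¬ (m + 2 = 3 ∧ q = 2)) {y : X} {e f : Fin (m + 2) → F}
    (he : herm q e e = 0) (hf : herm q f f = 0) (hef : herm q e f ≠ 0) (hye : FullAt hF y e)
    (hyf : FullAt hF y f) : ∀ g : SG m F q, g • y = y := by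
  have he0 : e ≠ 0 := by rintro rfl; simp at hef
  have near : ∀ e f w : Fin (m + 2) → F, herm q e e = 0 → herm q f f = 0 → herm q e f ≠ 0 →
      herm q w w = 0 → herm q e w ≠ 0 → FullAt hF y e → FullAt hF y f → FullAt hF y w := by
    intro e f w he hf hef hw hew hye hyf
    have hp : IsUPair q e (((herm q e f)⁻¹) ^ q • f) := ⟨he, by
      rw [herm_smul_left, herm_smul_right, hf, mul_zero, mul_zero],
      by rw [herm_smul_right, hF.pow_pow, inv_mul_cancel₀ hef]⟩
    have hp' : IsUPair q e (((herm q e w)⁻¹) ^ q • w) := ⟨he, by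
      rw [herm_smul_left, herm_smul_right, hw, mul_zero, mul_zero],
      by rw [herm_smul_right, hF.pow_pow, inv_mul_cancel₀ hew]⟩
    obtain ⟨x, b, hc, -, e3⟩ := exists_uni_partner hF hp hp'
    have h1 := (hyf.smul_vec hF (pow_ne_zero q (inv_ne_zero hef))).map_fix hF (hye _ _ hc)
    change FullAt hF y ((uni hF hc).1 _) at h1
    rw [e3] at h1
    have h2 := h1.smul_vec hF (inv_ne_zero (pow_ne_zero q (inv_ne_zero hew)))
    rwa [smul_smul, inv_mul_cancel₀ (pow_ne_zero q (inv_ne_zero hew)), one_smul] at h2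
  have hfe : herm q f e ≠ 0 := by rw [← hF.herm_symm]; exact pow_ne_zero _ hef
  have hall : ∀ w : Fin (m + 2) → F, w ≠ 0 → herm q w w = 0 → FullAt hF y w := by
    intro w hw hw0
    by_cases h1 : herm q e w = 0
    swap
    · exact near e f w he hf hef hw0 h1 hye hyf
    by_cases h2 : herm q f w = 0
    swap
    · exact near f e w hf he hfe hw0 h2 hyf hye
    obtain ⟨z, hz, hez, hwz⟩ := exists_isotropic_not_orth hF he0 he hw h1
    have hyz := near e f z he hf hef hz hez hye hyf
    refine near z e w hz he (by rw [← hF.herm_symm]; exact pow_ne_zero _ hez) hw0 ?_ hyz hye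
    rw [← hF.herm_symm]; exact pow_ne_zero _ hwz
  intro g
  have hle : TG (m + 2) F q ≤
      (MulAction.stabilizer (SG m F q) y).map (SUG (m + 2) F q).subtype := by
    rw [TG, Subgroup.closure_le]
    rintro t ⟨w, a, hw, ht⟩
    refine ⟨tS hF hw, ?_, (mem_TG_generator hF hw ht).symm⟩
    rcases eq_or_ne w 0 with rfl | hw0
    · have : tS hF hw = 1 := by
        refine Subtype.ext (Subtype.ext (LinearEquiv.ext fun z => ?_))
        change (trv hF hw).1 z = z
        rw [trv_apply]; simp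
      rw [this]; exact one_mem _
    · exact hall w hw0 hw.1 _ _ (hw.uniCond hF)
  obtain ⟨g', hg', e'⟩ := hle (SUG_le_TG hF (m + 2) (by omega) hn g.2)
  obtain rfl : g' = g := Subtype.ext e'
  exact hg'

/-- If the centre of the radical acts trivially, so does the group. -/
theorem fixed_of_centre (hn : ¬ (m + 2 = 3 ∧ q = 2)) (h : ∀ y : X, Kset hF y = skew hF) :
    ∀ (g : SG m F q) (y : X), g • y = y := by
  have key : ∀ (w : Fin (m + 2) → F) (a : F) (hw : TrvCond q w a) (y : X), tS hF hw • y = y := by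
    intro w a hw y
    rcases eq_or_ne w 0 with rfl | hw0
    · have : tS hF hw = 1 := by
        refine Subtype.ext (Subtype.ext (LinearEquiv.ext fun z => ?_))
        change (trv hF hw).1 z = z
        rw [trv_apply]; simp
      rw [this, one_smul]
    obtain ⟨t, c, hc, e⟩ := exists_SUG_line hF hw0 hw.1 (pair_spec hF (m := m)).1.ne_zero (h_ee hF)
    obtain ⟨h', e'⟩ := tS_conj hF t hw
    have hc2 : TrvCond q (c • eV hF m) a := by rw [← e]; exact h'
    have ha : c * c ^ q * a ∈ skew hF := by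
      rw [mem_skew, mul_pow, mul_pow, hF.pow_pow, hw.2]; ring
    have e3 : tS hF h' • (t • y) = t • y := by
      rw [show tS hF h' = tS hF hc2 from by
        rw [tS_eq_uS, tS_eq_uS]; exact uS_congr hF _ _ e rfl rfl,
        tS_smul hF hc2 (trvCond_eV hF ha), tS_eV]
      exact (mem_Kset hF ha).1 (by rw [h]; exact ha)
    rw [← e', mul_smul, mul_smul, inv_smul_smul] at e3
    exact (MulAction.injective t) e3
  intro g y
  have hle : TG (m + 2) F q ≤
      (MulAction.stabilizer (SG m F q) y).map (SUG (m + 2) F q).subtype := by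
    rw [TG, Subgroup.closure_le]
    rintro t ⟨w, a, hw, ht⟩
    exact ⟨tS hF hw, key w a hw y, (mem_TG_generator hF hw ht).symm⟩
  obtain ⟨g', hg', e'⟩ := hle (SUG_le_TG hF (m + 2) (by omega) hn g.2)
  obtain rfl : g' = g := Subtype.ext e'
  exact hg'

end Cfsg.Agent.MinU
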