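/-
A point fixed by a whole root group forces a large set.
-/
import Mathlib
import Cfsg.Agent.MinU.Base
import Cfsg.Agent.Forms.UnitaryGeom

set_option autoImplicit false

namespace Cfsg.Agent.MinU

open Cfsg.Agent.Classical.U Module

universe u v

variable {F : Type u} [Field F] {q : ℕ} {m : ℕ}

/-- Small actions of `SUG m` are trivial. -/
def Small (m : ℕ) (F : Type u) [Field F] (q T : ℕ) : Prop :=
  ∀ (Y : Type v) [Finite Y] [MulAction ↥(SUG m F q) Y], Nat.card Y < T →
    ∀ (g : ↥(SUG m F q)) (y : Y), g • y = y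

theorem Small.orbit_ge {T : ℕ} (h : Small.{u, v} m F q T) {Y : Type v} [Finite Y]
    [MulAction ↥(SUG m F q) Y] {y : Y} (hy : ∃ g : ↥(SUG m F q), g • y ≠ y) :
    T ≤ Nat.card (MulAction.orbit ↥(SUG m F q) y) := by
  by_contra hlt
  push Not at hlt
  obtain ⟨g, hg⟩ := hy
  exact hg (congrArg Subtype.val (h (MulAction.orbit ↥(SUG m F q) y) hlt g
    ⟨y, MulAction.mem_orbit_self y⟩))

/-- The image of a subspace. -/
def mapL (g : SG m F q) (L : Submodule F (Fin (m + 2) → F)) : Submodule F (Fin (m + 2) → F) :=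
  L.map g.1.1.toLinearMap

theorem mapL_span (g : SG m F q) (v : Fin (m + 2) → F) :
    mapL g (Submodule.span F {v}) = Submodule.span F {g.1.1 v} := by
  rw [mapL, Submodule.map_span, Set.image_singleton]; rfl

theorem mapL_injective (g : SG m F q) : Function.Injective (mapL g) :=
  Submodule.map_injective_of_injective g.1.1.injective

theorem mapL_mem (g : SG m F q) {L : Submodule F (Fin (m + 2) → F)} (h : L ∈ isoLines (m + 2) F q) :
    mapL g L ∈ isoLines (m + 2) F q := by
  obtain ⟨v, ⟨hv, hv0⟩, rfl⟩ := h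
  exact ⟨g.1.1 v, ⟨fun h0 => hv (g.1.1.injective (h0.trans (map_zero _).symm)),
    by rw [UG_app]; exact hv0⟩, mapL_span g v⟩

variable (hF : SqField F q)
include hF

/-- The standard line. -/
noncomputable def eLine (m : ℕ) : Submodule F (Fin (m + 2) → F) := Submodule.span F {eV hF m}

theorem eLine_mem : eLine hF m ∈ isoLines (m + 2) F q :=
  ⟨_, ⟨(pair_spec hF).1.ne_zero, h_ee hF⟩, rfl⟩

theorem exists_mapL_eq {L : Submodule F (Fin (m + 2) → F)} (h : L ∈ isoLines (m + 2) F q) :
    ∃ g : SG m F q, mapL g L = eLine hF m := by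
  obtain ⟨v, ⟨hv, hv0⟩, rfl⟩ := h
  obtain ⟨t, c, hc, e⟩ := exists_SUG_line hF hv hv0 (pair_spec hF (m := m)).1.ne_zero (h_ee hF)
  refine ⟨t, ?_⟩
  rw [mapL_span, e]
  exact Submodule.span_singleton_smul_eq (IsUnit.mk0 _ hc) _

/-- A totally isotropic subspace has at most half the dimension. -/
theorem two_finrank_le {n : ℕ} (U : Submodule F (Fin n → F))
    (hU : ∀ u ∈ U, ∀ v ∈ U, herm q u v = 0) : 2 * finrank F U ≤ n := by
  have h1 : U ≤ Forms.hperp q U := fun u hu v hv => hU u hu v hv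
  have h2 := Submodule.finrank_mono h1
  rw [Forms.finrank_hperp hF] at h2
  have := U.finrank_le
  rw [Module.finrank_fin_fun] at this
  omega

/-- The span of pairwise orthogonal vectors is totally isotropic. -/
theorem ti_span {n : ℕ} {S : Set (Fin n → F)} (h : ∀ u ∈ S, ∀ v ∈ S, herm q u v = 0) :
    ∀ u ∈ Submodule.span F S, ∀ v ∈ Submodule.span F S, herm q u v = 0 := by
  intro u hu v hv
  induction hu using Submodule.span_induction with
  | mem a ha =>
    induction hv using Submodule.span_induction with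
    | mem b hb => exact h a ha b hb
    | zero => exact hF.herm_zero_right a
    | add b c _ _ ib ic => rw [hF.herm_add_right, ib, ic, add_zero]
    | smul c b _ ib => rw [herm_smul_right, ib, mul_zero]
  | zero => exact herm_zero_left v
  | add a b _ _ ia ib => rw [herm_add_left, ia, ib, add_zero]
  | smul c a _ ia => rw [herm_smul_left, ia, mul_zero]

/-- Pairwise orthogonal isotropic lines are few. -/
theorem card_orth_lines_mul_le {n : ℕ} (Fs : Set (Submodule F (Fin n → F)))
    (hiso : Fs ⊆ isoLines n F q)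
    (h : ∀ L ∈ Fs, ∀ L' ∈ Fs, ∀ u ∈ L, ∀ v ∈ L', herm q u v = 0) :
    Nat.card Fs * (q ^ 2 - 1) ≤ q ^ (2 * (n / 2)) - 1 := by
  obtain ⟨hfin, hcard⟩ := id hF
  classical
  set S : Set (Fin n → F) := ⋃ L ∈ Fs, (L : Set (Fin n → F)) with hS
  set U := Submodule.span F S with hU
  have hti : ∀ u ∈ U, ∀ v ∈ U, herm q u v = 0 := by
    refine ti_span hF fun u hu v hv => ?_
    simp only [hS, Set.mem_iUnion, SetLike.mem_coe] at hu hv
    obtain ⟨L, hL, hu⟩ := hu
    obtain ⟨L', hL', hv⟩ := hv
    exact h L hL L' hL' u hu v hv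
  have hle := two_finrank_le hF U hti
  have hsub : Fs ⊆ linesOf {v : Fin n → F | v ∈ U ∧ v ≠ 0} := by
    intro L hL
    obtain ⟨v, ⟨hv, -⟩, rfl⟩ := hiso hL
    exact ⟨v, ⟨Submodule.subset_span (Set.mem_biUnion hL (Submodule.mem_span_singleton_self v)), hv⟩,
      rfl⟩
  have h1 := card_linesOf hF {v : Fin n → F | v ∈ U ∧ v ≠ 0} (fun v hv => hv.2)
    (fun v hv c hc => ⟨U.smul_mem c hv.1, smul_ne_zero hc hv.2⟩)
  have h2 : Nat.card Fs ≤ Nat.card (linesOf {v : Fin n → F | v ∈ U ∧ v ≠ 0}) :=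
    Nat.card_mono (Set.toFinite _) hsub
  have h3 : Nat.card {v : Fin n → F | v ∈ U ∧ v ≠ 0} = Nat.card U - 1 := by
    have := Fintype.ofFinite U
    rw [Nat.card_congr (β := {w : U // w ≠ 0})
      { toFun := fun v => ⟨⟨v.1, v.2.1⟩, fun h0 => v.2.2 (congrArg Subtype.val h0)⟩
        invFun := fun w => ⟨w.1.1, w.1.2, fun h0 => w.2 (Subtype.ext h0)⟩
        left_inv := fun _ => rfl
        right_inv := fun _ => rfl }, Nat.card_eq_fintype_card, Nat.card_eq_fintype_card,
      Fintype.card_subtype_compl, Fintype.card_subtype_eq]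
  rw [h3, Module.natCard_eq_pow_finrank (K := F) (V := U), hcard, ← pow_mul] at h1
  refine (Nat.mul_le_mul_right _ h2).trans (h1.le.trans (Nat.sub_le_sub_right ?_ 1))
  exact Nat.pow_le_pow_right (by have := hF.one_lt; omega)
    (show 2 * finrank F U ≤ 2 * (n / 2) by omega)

variable {X : Type v} [UAct F q X m] [Finite X]

/-- Full at every vector of a line. -/
def FullL (y : X) (L : Submodule F (Fin (m + 2) → F)) : Prop :=
  ∀ v ∈ L, v ≠ 0 → FullAt hF y v

theorem fullL_map {y : X} {L : Submodule F (Fin (m + 2) → F)} (h : FullL hF y L) (g : SG m F q) :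
    FullL hF (g • y) (mapL g L) := by
  rintro _ ⟨v, hv, rfl⟩ hne
  exact (h v hv fun h0 => hne (by simp [h0])).map hF g

theorem fullL_span {y : X} {v : Fin (m + 2) → F} (h : FullAt hF y v) :
    FullL hF y (Submodule.span F {v}) := by
  intro w hw hw0
  obtain ⟨c, rfl⟩ := Submodule.mem_span_singleton.1 hw
  exact h.smul_vec hF fun hc => hw0 (by rw [hc, zero_smul])

/-- The incidences of the isotropic lines with the points. -/
theorem card_incidence (R : X → Submodule F (Fin (m + 2) → F) → Prop)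
    (hR : ∀ (g : SG m F q) y L, R y L → R (g • y) (mapL g L)) :
    Nat.card {p : X × isoLines (m + 2) F q // R p.1 p.2.1} =
      isoN q (m + 2) * Nat.card {y : X // R y (eLine hF m)} := by
  obtain ⟨hfin, -⟩ := id hF
  have hfib : ∀ L : isoLines (m + 2) F q,
      Nat.card {y : X // R y L.1} = Nat.card {y : X // R y (eLine hF m)} := fun L => by
    obtain ⟨g, hg⟩ := exists_mapL_eq hF L.2
    refine Nat.card_congr ((MulAction.toPerm g).subtypeEquiv fun y => ⟨fun h => ?_, fun h => ?_⟩)
    · have := hR g y L.1 h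
      rw [hg] at this
      exact this
    · have := hR g⁻¹ (g • y) (eLine hF m) h
      rwa [inv_smul_smul, ← hg, show mapL g⁻¹ (mapL g L.1) = L.1 from by
        rw [mapL, mapL, ← Submodule.map_comp]
        convert Submodule.map_id L.1
        exact LinearMap.ext fun v => g.1.1.symm_apply_apply v] at this
  have := Fintype.ofFinite (isoLines (m + 2) F q)
  rw [Nat.card_congr (β := Σ L : isoLines (m + 2) F q, {y : X // R y L.1})
      { toFun := fun p => ⟨p.1.2, p.1.1, p.2⟩
        invFun := fun r => ⟨(r.2.1, r.1), r.2.2⟩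
        left_inv := fun _ => rfl
        right_inv := fun _ => rfl },
    Nat.card_sigma, Finset.sum_congr rfl (fun L _ => hfib L), Finset.sum_const, Finset.card_univ,
    ← Nat.card_eq_fintype_card, card_isoLines hF, smul_eq_mul]

/-- The lower bound for the inner translates of a point with two full lines. -/
theorem full_orbit_bound (hn : ¬ (m + 2 = 3 ∧ q = 2))
    (hnofix : ∀ y : X, ∃ g : SG m F q, g • y ≠ y) {Φ : ℕ}
    (hΦ : Small.{u, v} m F q Φ ∨ m ≤ 3 ∧ Φ = isoN q m) {y : X} (hye : FullAt hF y (eV hF m))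
    {r : F} {w : Fin m → F} (hw : w ≠ 0) (hw0 : herm q w w = 0)
    (hyv : FullAt hF y (r • eV hF m + iW w)) :
    Φ ≤ Nat.card {z : X // FullL hF z (eLine hF m)} := by
  classical
  obtain ⟨hfin, -⟩ := id hF
  letI : MulAction ↥(SUG m F q) X := MulAction.compHom X (inner hF m)
  have hsm : ∀ (g : ↥(SUG m F q)) (z : X), g • z = inner hF m g • z := fun g z => rfl
  have hge : ∀ g : ↥(SUG m F q), (inner hF m g).1.1 (eV hF m) = eV hF m := fun g => by
    rw [← ph_eV hF, inner_apply, map_zero]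
  have hgv : ∀ (g : ↥(SUG m F q)) (r : F) (u : Fin m → F),
      (inner hF m g).1.1 (r • eV hF m + iW u) = r • eV hF m + iW (g.1.1 u) := fun g r u => by
    rw [map_add, map_smul, hge, ← ph_iW hF, inner_apply, ph_iW]
  have hfullg : ∀ g : ↥(SUG m F q), FullAt hF (g • y) (eV hF m) ∧
      FullAt hF (g • y) (r • eV hF m + iW (g.1.1 w)) := fun g => by
    rw [hsm]
    have a1 := hye.map hF (inner hF m g)
    have a2 := hyv.map hF (inner hF m g)
    rw [hge] at a1
    rw [hgv] at a2
    exact ⟨a1, a2⟩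
  have horb : MulAction.orbit ↥(SUG m F q) y ⊆ {z : X | FullL hF z (eLine hF m)} := by
    rintro _ ⟨g, rfl⟩
    exact fullL_span hF (hfullg g).1
  have hmono : Nat.card (MulAction.orbit ↥(SUG m F q) y) ≤
      Nat.card {z : X // FullL hF z (eLine hF m)} := Nat.card_mono (Set.toFinite _) horb
  have horth : ∀ (z : X) (r r' : F) (u u' : Fin m → F), herm q u u = 0 → herm q u' u' = 0 →
      FullAt hF z (r • eV hF m + iW u) → FullAt hF z (r' • eV hF m + iW u') → herm q u u' = 0 := by
    intro z r r' u u' hu hu' h1 h2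
    have e : ∀ (s s' : F) (a a' : Fin m → F),
        herm q (s • eV hF m + iW a) (s' • eV hF m + iW a') = herm q a a' := by
      intro s s' a a'
      simp only [herm_add_left, hF.herm_add_right, herm_smul_left, herm_smul_right, h_ee hF,
        h_we hF, h_ew hF, herm_iW _ _ hF.q_ne_zero, mul_zero, add_zero, zero_add]
    by_contra hne
    obtain ⟨g, hg⟩ := hnofix z
    exact hg (fixed_of_full_pair hF hn (by rw [e]; exact hu) (by rw [e]; exact hu')
      (by rw [e]; exact hne) h1 h2 g)
  rcases hΦ with hsmall | ⟨hm3, rfl⟩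
  · refine le_trans (hsmall.orbit_ge ?_) hmono
    by_contra hfix
    push Not at hfix
    obtain ⟨z, hz⟩ : ∃ z : Fin m → F, herm q w z ≠ 0 := by
      by_contra h
      push Not at h
      exact hw (hF.eq_zero_of_herm w h)
    obtain ⟨u, hu, hwu, -⟩ := exists_isotropic_not_orth hF hw hw0 hw hw0
    have hu0 : u ≠ 0 := fun h => hwu (by rw [h, hF.herm_zero_right])
    obtain ⟨g, c, hc, e⟩ := exists_SUG_line hF hw hw0 hu0 hu
    have h2 := (hfullg g).2
    rw [hfix g, e] at h2
    refine hwu ?_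
    have := horth y r r w (c • u) hw0 (by rw [herm_smul_left, herm_smul_right, hu]; ring) hyv h2
    rw [herm_smul_right] at this
    exact (mul_eq_zero.1 this).resolve_left (pow_ne_zero q hc)
  · refine le_trans ?_ hmono
    rw [← card_isoLines hF]
    have key : ∀ L : isoLines m F q, ∃ z : MulAction.orbit ↥(SUG m F q) y, ∃ (r' : F) (u : Fin m → F),
        u ≠ 0 ∧ herm q u u = 0 ∧ L.1 = Submodule.span F {u} ∧
          FullAt hF (z : X) (r' • eV hF m + iW u) := by
      rintro ⟨_, u, ⟨hu, hu0⟩, rfl⟩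
      obtain ⟨g, c, hc, e⟩ := exists_SUG_line hF hw hw0 hu hu0
      refine ⟨⟨g • y, MulAction.mem_orbit _ _⟩, r, c • u, smul_ne_zero hc hu,
        by rw [herm_smul_left, herm_smul_right, hu0]; ring,
        (Submodule.span_singleton_smul_eq (IsUnit.mk0 _ hc) u).symm, ?_⟩
      rw [← e]
      exact (hfullg g).2
    choose z r' u hu hu0 hL hz using key
    refine Nat.card_le_card_of_injective z fun L L' hzz => ?_
    by_contra hne
    have h2 := hz L'
    rw [← hzz] at h2
    have h0 := horth (z L : X) _ _ _ _ (hu0 L) (hu0 L') (hz L) h2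
    have hli : LinearIndependent F ![u L, u L'] := by
      rw [LinearIndependent.pair_iff' (hu L)]
      intro a ha
      refine hne (Subtype.ext ?_)
      rw [hL L, hL L', ← ha]
      refine (Submodule.span_singleton_smul_eq (IsUnit.mk0 _ ?_) _).symm
      exact fun h => hu L' (by rw [← ha, h, zero_smul])
    have hti : ∀ a ∈ Submodule.span F (Set.range ![u L, u L']),
        ∀ b ∈ Submodule.span F (Set.range ![u L, u L']), herm q a b = 0 := by
      refine ti_span hF ?_
      rintro _ ⟨i, rfl⟩ _ ⟨j, rfl⟩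
      fin_cases i <;> fin_cases j <;> simp [hu0 L, hu0 L', h0, Forms.herm_comm_zero hF h0]
    have := two_finrank_le hF _ hti
    rw [finrank_span_eq_card hli, Fintype.card_fin] at this
    omega

/-- No point is fixed by a whole root group. -/
theorem full_absurd (hn : ¬ (m + 2 = 3 ∧ q = 2))
    (hnofix : ∀ y : X, ∃ g : SG m F q, g • y ≠ y) {Φ : ℕ}
    (hΦ : Small.{u, v} m F q Φ ∨ m ≤ 3 ∧ Φ = isoN q m) (h1 : Nat.card X < isoN q (m + 2))
    (h2 : Nat.card X * (q ^ (2 * ((m + 2) / 2)) - 1) < isoN q (m + 2) * Φ * (q ^ 2 - 1)) (y₀ : X) :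
    ¬ FullAt hF y₀ (eV hF m) := by
  classical
  intro hy₀
  obtain ⟨hfin, -⟩ := id hF
  let Fs : X → Set (Submodule F (Fin (m + 2) → F)) := fun y =>
    {L | L ∈ isoLines (m + 2) F q ∧ FullL hF y L}
  have hinc := card_incidence hF (X := X) (fun y L => FullL hF y L) (fun g y L h => fullL_map hF h g)
  have := Fintype.ofFinite X
  have hsum : Nat.card {p : X × isoLines (m + 2) F q // FullL hF p.1 p.2.1} =
      ∑ y : X, Nat.card (Fs y) := by
    rw [← Nat.card_sigma]
    exact Nat.card_congr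
      { toFun := fun p => ⟨p.1.1, p.1.2.1, p.1.2.2, p.2⟩
        invFun := fun r => ⟨(r.1, ⟨r.2.1, r.2.2.1⟩), r.2.2.2⟩
        left_inv := fun _ => rfl
        right_inv := fun _ => rfl }
  have horth : ∀ y, ∀ L ∈ Fs y, ∀ L' ∈ Fs y, ∀ u ∈ L, ∀ v ∈ L', herm q u v = 0 := by
    intro y L hL L' hL' u hu v hv
    by_contra hne
    have hu0 : u ≠ 0 := fun h => hne (by rw [h, herm_zero_left])
    have hv0 : v ≠ 0 := fun h => hne (by rw [h, hF.herm_zero_right])
    have iso : ∀ {L : Submodule F (Fin (m + 2) → F)}, L ∈ isoLines (m + 2) F q → ∀ u ∈ L,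
        herm q u u = 0 := by
      rintro L ⟨e, ⟨-, he⟩, rfl⟩ u hu
      obtain ⟨c, rfl⟩ := Submodule.mem_span_singleton.1 hu
      rw [herm_smul_left, herm_smul_right, he]; ring
    obtain ⟨g, hg⟩ := hnofix y
    exact hg (fixed_of_full_pair hF hn (iso hL.1 u hu) (iso hL'.1 v hv) hne (hL.2 u hu hu0)
      (hL'.2 v hv hv0) g)
  have hφ0 : 1 ≤ Nat.card {y : X // FullL hF y (eLine hF m)} := by
    have : Nonempty {y : X // FullL hF y (eLine hF m)} := ⟨⟨y₀, fullL_span hF hy₀⟩⟩
    exact Nat.card_pos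
  by_cases hone : ∀ y, Nat.card (Fs y) ≤ 1
  · have : ∑ y : X, Nat.card (Fs y) ≤ Nat.card X := by
      rw [Nat.card_eq_fintype_card, Fintype.card_eq_sum_ones]
      exact Finset.sum_le_sum fun y _ => hone y
    rw [← hsum, hinc] at this
    have := le_trans (Nat.le_mul_of_pos_right _ hφ0) this
    omega
  push Not at hone
  obtain ⟨y, hy⟩ := hone
  obtain ⟨⟨L, hL⟩, ⟨L', hL'⟩, hne⟩ := Finite.one_lt_card_iff_nontrivial.1 hy
  have hne' : L ≠ L' := fun h => hne (Subtype.ext h)
  obtain ⟨g, hg⟩ := exists_mapL_eq hF hL.1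
  obtain ⟨v, ⟨hv, hv0⟩, hLv⟩ := hL'.1
  have hye : FullAt hF (g • y) (eV hF m) :=
    fullL_map hF hL.2 g _ (by rw [hg]; exact Submodule.mem_span_singleton_self _)
      (pair_spec hF).1.ne_zero
  have hyv : FullAt hF (g • y) (g.1.1 v) :=
    (hL'.2 v (by rw [hLv]; exact Submodule.mem_span_singleton_self v) hv).map hF g
  have horth' : herm q (g.1.1 v) (eV hF m) = 0 := by
    obtain ⟨e, he, hee⟩ : eV hF m ∈ mapL g L := by
      rw [hg]; exact Submodule.mem_span_singleton_self _
    change g.1.1 e = eV hF m at hee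
    rw [← hee, UG_app]
    exact horth y L' hL' L hL v (by rw [hLv]; exact Submodule.mem_span_singleton_self v) e he
  obtain ⟨r, w, hrw⟩ := exists_decomp hF horth'
  have hw0 : herm q w w = 0 := by
    have : herm q (g.1.1 v) (g.1.1 v) = 0 := by rw [UG_app]; exact hv0
    rw [hrw] at this
    simpa [herm_add_left, hF.herm_add_right, herm_smul_left, herm_smul_right, h_ee hF, h_we hF,
      h_ew hF, herm_iW _ _ hF.q_ne_zero] using this
  have hw : w ≠ 0 := by
    intro h
    refine hne' (mapL_injective g ?_)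
    rw [hg, hLv, mapL_span, hrw, h, iW_zero, add_zero]
    have hr : r ≠ 0 := fun hr => hv (g.1.1.injective (by rw [hrw, hr, h]; simp))
    exact (Submodule.span_singleton_smul_eq (IsUnit.mk0 _ hr) _).symm
  rw [hrw] at hyv
  have hΦle := full_orbit_bound hF hn hnofix hΦ hye hw hw0 hyv
  have hb : (∑ y : X, Nat.card (Fs y)) * (q ^ 2 - 1) ≤
      Nat.card X * (q ^ (2 * ((m + 2) / 2)) - 1) := by
    rw [Finset.sum_mul, Nat.card_eq_fintype_card]
    refine le_trans (Finset.sum_le_card_nsmul _ _ (q ^ (2 * ((m + 2) / 2)) - 1) fun y _ => ?_) (by simp)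
    exact card_orth_lines_mul_le hF (Fs y) (fun L hL => hL.1) (horth y)
  rw [← hsum, hinc] at hb
  exact absurd (le_trans (Nat.mul_le_mul_right _ (Nat.mul_le_mul_left _ hΦle)) hb) (by omega)

end Cfsg.Agent.MinU
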