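/-
The special group of the quotient acting on its additive subgroups.
-/
import Mathlib
import Cfsg.Agent.MinU.Base
import Cfsg.Agent.MinU.Full

set_option autoImplicit false

namespace Cfsg.Agent.MinU

open Cfsg.Agent.Classical.U Module

universe u v

variable {F : Type u} [Field F] {q : ℕ} {m : ℕ}

/-- An element of the special group as an additive map. -/
def sHom (g : ↥(SUG m F q)) : (Fin m → F) →+ (Fin m → F) := g.1.1.toLinearMap.toAddMonoidHom

theorem sHom_apply (g : ↥(SUG m F q)) (w : Fin m → F) : sHom g w = g.1.1 w := rfl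

/-- The action on additive subgroups. -/
@[instance_reducible]
def subAct (m : ℕ) (F : Type u) [Field F] (q : ℕ) :
    MulAction ↥(SUG m F q) (AddSubgroup (Fin m → F)) where
  smul g A := A.map (sHom g)
  one_smul A := by
    change A.map (sHom 1) = A
    exact AddSubgroup.map_id A
  mul_smul g g' A := by
    change A.map (sHom (g * g')) = (A.map (sHom g')).map (sHom g)
    rw [AddSubgroup.map_map]
    rfl

variable (hF : SqField F q)
include hF

/-- An additive subgroup moved by the special group has many translates. -/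
theorem card_translates_ge {T : ℕ} (hs : Small.{u, u} m F q T) {A : AddSubgroup (Fin m → F)}
    (hA : ∃ g : ↥(SUG m F q), A.map (sHom g) ≠ A) :
    T ≤ Nat.card (Set.range fun g : ↥(SUG m F q) => A.map (sHom g)) := by
  obtain ⟨hfin, -⟩ := id hF
  letI := subAct m F q
  exact hs.orbit_ge (y := A) hA

/-- An invariant additive subgroup contains what the transvections produce. -/
theorem trv_diff_mem {A : AddSubgroup (Fin m → F)}
    (hA : ∀ g : ↥(SUG m F q), A.map (sHom g) = A) {w r : Fin m → F} (hw : w ∈ A) {b : F}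
    (h : TrvCond q r b) : (b * herm q w r) • r ∈ A := by
  have h1 : (trv hF h).1 w ∈ A := by
    rw [← hA ⟨trv hF h, det_uni hF _⟩]
    exact ⟨w, hw, rfl⟩
  have h2 := A.sub_mem h1 hw
  rwa [trv_apply, add_sub_cancel_left] at h2

/-- From four dimensions on, the quotient is irreducible over the prime field. -/
theorem invariant_cases (hm : 4 ≤ m) {A : AddSubgroup (Fin m → F)}
    (hA : ∀ g : ↥(SUG m F q), A.map (sHom g) = A) (h0 : A ≠ ⊥) : A = ⊤ := by
  obtain ⟨d, hd, hdq⟩ := hF.exists_skew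
  obtain ⟨w, hw, hw0⟩ := (AddSubgroup.bot_or_exists_ne_zero A).resolve_left h0
  obtain ⟨r, hr, hr0⟩ : ∃ r ∈ A, r ≠ 0 ∧ herm q r r = 0 := by
    by_cases hiso : herm q w w = 0
    · exact ⟨w, hw, hw0, hiso⟩
    obtain ⟨p, rfl⟩ : ∃ p, m = p + 2 := ⟨m - 2, by omega⟩
    obtain ⟨hp, -⟩ := pair_spec hF (m := p)
    obtain ⟨z, hz, hwz⟩ : ∃ z, herm q z z = 0 ∧ herm q w z ≠ 0 := by
      by_cases h1 : herm q (eV hF p) w = 0
      · obtain ⟨z, hz, -, h⟩ := exists_isotropic_not_orth hF hp.ne_zero hp.1 hw0 h1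
        exact ⟨z, hz, h⟩
      · exact ⟨eV hF p, hp.1, fun h => h1 (Forms.herm_comm_zero hF h)⟩
    refine ⟨_, trv_diff_mem hF hA hw (show TrvCond q z d from ⟨hz, hdq⟩), ?_, ?_⟩
    · refine smul_ne_zero (mul_ne_zero hd hwz) fun h => hwz ?_
      rw [h, hF.herm_zero_right]
    · rw [herm_smul_left, herm_smul_right, hz]; ring
  have hall : ∀ v : Fin m → F, herm q v v = 0 → v ∈ A := by
    intro v hv
    rcases eq_or_ne v 0 with rfl | hv0
    · exact A.zero_mem
    obtain ⟨g, hg, e⟩ := TG_transitive_vectors hF (by omega)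
      (hasUni hF (by omega) (by omega)) hr0.1 hr0.2 hv0 hv
    rw [← hA ⟨g, TG_le_SUG hF hg⟩]
    exact ⟨r, hr, e⟩
  obtain ⟨p, rfl⟩ : ∃ p, m = p + 2 := ⟨m - 2, by omega⟩
  refine eq_top_iff.2 fun v _ => ?_
  obtain ⟨⟨⟨a, b⟩, z⟩, rfl⟩ := (ph hF p).surjective v
  obtain ⟨t, ht⟩ := hF.exists_trace (c := -herm q z z) (by rw [hF.neg_pow, hF.herm_symm])
  have h1 : ph hF p ((t, 1), z) ∈ A := hall _ (by
    rw [herm_ph]; simp only [one_pow, mul_one, one_mul]; linear_combination ht)
  have h2 : ∀ c : F, ph hF p ((c, 0), 0) ∈ A := fun c =>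
    hall _ (by rw [herm_ph]; simp [hF.q_ne_zero])
  have h3 : ∀ c : F, ph hF p ((0, c), 0) ∈ A := fun c =>
    hall _ (by rw [herm_ph]; simp [hF.q_ne_zero])
  have := A.add_mem (A.add_mem h1 (h2 (a - t))) (h3 (b - 1))
  rwa [← map_add, ← map_add, show ((((t, 1), z) : (F × F) × (Fin p → F)) + ((a - t, 0), 0) +
    ((0, b - 1), 0)) = ((a, b), z) from by ext <;> simp] at this

variable {X : Type v} [UAct F q X m]

theorem Aset_inner (g : ↥(SUG m F q)) (y : X) :
    Aset hF (inner hF m g • y) = (Aset hF y).map (sHom g) := by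
  change Aset hF (lev hF one_ne_zero g.1 (by rw [mem_SUG.1 g.2]; simp) • y) = _
  rw [Aset_lev, show lmap (1 : F) g.1 = sHom g from AddMonoidHom.ext fun w => by
    simp [lmap, sHom_apply]]

theorem innerTrans_eq (y : X) :
    innerTrans hF y = Set.range fun g : ↥(SUG m F q) => (Aset hF y).map (sHom g) := by
  rw [innerTrans]
  exact congrArg Set.range (funext fun g => Aset_inner hF g y)

theorem innerTrans_ge {T : ℕ} (hs : Small.{u, u} m F q T) (hm : 4 ≤ m) {y : X}
    (h0 : Aset hF y ≠ ⊥) (h1 : Aset hF y ≠ ⊤) : T ≤ Nat.card (innerTrans hF y) := by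
  rw [innerTrans_eq]
  refine card_translates_ge hF hs ?_
  by_contra h
  push Not at h
  exact h1 (invariant_cases hF hm h h0)

/-- The inner translates are among all translates. -/
theorem card_innerTrans_le_trans [Finite X] (y : X) :
    Nat.card (innerTrans hF y) ≤ Nat.card (trans hF y) := by
  obtain ⟨hfin, -⟩ := id hF
  refine Nat.card_le_card_of_injective
    (fun A => (⟨(A.1, Kset hF y), ?_⟩ : trans hF y)) fun A A' h =>
      Subtype.ext (congrArg (fun s : trans hF y => s.1.1) h)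
  obtain ⟨g, hg⟩ := A.2
  exact ⟨1, one_ne_zero, g.1, by rw [mem_SUG.1 g.2]; simp, Prod.ext hg (Kset_inner hF g y)⟩

omit hF in
/-- A covering bound when everything is covered twice. -/
theorem card_le_cover_two {α β : Type*} [Finite α] [Finite β] (S : Set α) (f : α → Set β)
    (t : Set β) {b : ℕ} (hc : ∀ x ∈ t, ∃ s ∈ S, ∃ s' ∈ S, s ≠ s' ∧ x ∈ f s ∧ x ∈ f s')
    (hb : ∀ s ∈ S, Nat.card ↥(f s ∩ t) ≤ b) : 2 * Nat.card t ≤ Nat.card S * b := by
  classical
  choose s₁ hs₁ s₂ hs₂ hne h₁ h₂ using fun x : t => hc x.1 x.2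
  let F' : t ⊕ t → Σ s : S, ↥(f s.1 ∩ t) :=
    Sum.elim (fun x => ⟨⟨s₁ x, hs₁ x⟩, x.1, h₁ x, x.2⟩)
      (fun x => ⟨⟨s₂ x, hs₂ x⟩, x.1, h₂ x, x.2⟩)
  have hinj : Function.Injective F' := by
    rintro (x | x) (x' | x') h
    all_goals
      have e1 : (x : β) = x' := congrArg (fun r : Σ s : S, ↥(f s.1 ∩ t) => (r.2 : β)) h
      have e2 := congrArg (fun r : Σ s : S, ↥(f s.1 ∩ t) => (r.1 : α)) h
      obtain rfl := Subtype.ext e1
      simp only [F', Sum.elim_inl, Sum.elim_inr] at e2
      first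
        | rfl
        | exact absurd e2 (hne x)
        | exact absurd e2.symm (hne x)
  have := Fintype.ofFinite S
  rw [two_mul, ← Nat.card_sum]
  refine (Nat.card_le_card_of_injective F' hinj).trans ?_
  rw [Nat.card_sigma, Nat.card_eq_fintype_card, ← Finset.card_univ, ← smul_eq_mul]
  exact Finset.sum_le_card_nsmul _ _ _ fun s _ => hb s.1 s.2

/-- A subspace of isotropic vectors is totally isotropic. -/
theorem ti_of_all_iso {n : ℕ} {U : Submodule F (Fin n → F)} (h : ∀ u ∈ U, herm q u u = 0) :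
    ∀ u ∈ U, ∀ v ∈ U, herm q u v = 0 := by
  intro u hu v hv
  by_contra hne
  obtain ⟨d, hd, hdq⟩ := hF.exists_skew
  obtain ⟨y, hy⟩ := hF.exists_trace (c := (1 : F)) (one_pow q)
  set c := (y / herm q u v) ^ q
  have := h _ (U.add_mem hu (U.smul_mem c hv))
  simp only [herm_add_left, hF.herm_add_right, herm_smul_left, herm_smul_right, h u hu, h v hv,
    c, hF.pow_pow] at this
  rw [← hF.herm_symm u v, ← mul_pow, div_mul_cancel₀ _ hne] at this
  simp only [mul_zero, add_zero, zero_add] at this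
  rw [div_mul_cancel₀ _ hne, add_comm, hy] at this
  exact one_ne_zero this

theorem exists_noniso_perp (hm : 3 ≤ m) {v : Fin m → F} (hv : v ≠ 0) :
    ∃ x, herm q x v = 0 ∧ herm q x x ≠ 0 := by
  by_contra h
  push Not at h
  have hti := ti_of_all_iso hF (U := Forms.hperp q (Submodule.span F {v}))
    (fun u hu => h u (hu v (Submodule.mem_span_singleton_self v)))
  have h1 := two_finrank_le hF _ hti
  rw [Forms.finrank_hperp hF, finrank_span_singleton hv] at h1
  omega

end Cfsg.Agent.MinU
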