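/-
Points fixed by the centre of the radical.
-/
import Mathlib
import Cfsg.Agent.MinU.Inner

set_option autoImplicit false

namespace Cfsg.Agent.MinU

open Cfsg.Agent.Classical.U Cfsg.Agent.MinIndex Module

universe u v

variable {F : Type u} [Field F] {q : ℕ} {m : ℕ}
variable (hF : SqField F q)
include hF

/-- The symmetric form on the quotient over the subfield of index two. -/
def reForm (m : ℕ) : LinearMap.BilinForm (fixF hF) (Fin m → F) :=
  LinearMap.mk₂ (fixF hF)
    (fun x w => ⟨herm q x w + herm q w x, by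
      rw [mem_fixF, hF.add_pow, hF.herm_symm, hF.herm_symm, add_comm]⟩)
    (fun x x' w => Subtype.ext (by
      simp only [herm_add_left, hF.herm_add_right, Subfield.coe_add]; ring))
    (fun c x w => Subtype.ext (by
      change herm q ((c : F) • x) w + herm q w ((c : F) • x) = (c : F) * (herm q x w + herm q w x)
      rw [herm_smul_left, herm_smul_right, (mem_fixF hF).1 c.2]; ring))
    (fun x w w' => Subtype.ext (by
      simp only [herm_add_left, hF.herm_add_right, Subfield.coe_add]; ring))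
    (fun c x w => Subtype.ext (by
      change herm q x ((c : F) • w) + herm q ((c : F) • w) x = (c : F) * (herm q x w + herm q w x)
      rw [herm_smul_left, herm_smul_right, (mem_fixF hF).1 c.2]; ring))

theorem reForm_coe (x w : Fin m → F) :
    ((reForm hF m x w : fixF hF) : F) = herm q x w + herm q w x := rfl

theorem reForm_sep : ∀ x, (∀ w, reForm hF m x w = 0) → x = 0 := by
  intro x hx
  by_contra hne
  obtain ⟨z, hz⟩ : ∃ z, herm q x z ≠ 0 := by
    by_contra h
    push Not at h
    exact hne (hF.eq_zero_of_herm x h)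
  obtain ⟨y, hy⟩ := hF.exists_trace (c := (1 : F)) (one_pow q)
  have h := congrArg (fun a : fixF hF => (a : F)) (hx ((y / herm q x z) ^ q • z))
  simp only [reForm_coe, ZeroMemClass.coe_zero, herm_smul_left, herm_smul_right, hF.pow_pow] at h
  rw [← hF.herm_symm x z, ← mul_pow, div_mul_cancel₀ _ hz, hy] at h
  exact one_ne_zero h

theorem reForm_symm (x w : Fin m → F) : reForm hF m x w = reForm hF m w x :=
  Subtype.ext (add_comm _ _)

variable [Finite F] {X : Type v} [UAct F q X m]

/-- The dual of the image in the quotient. -/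
noncomputable def Bset (y : X) : AddSubgroup (Fin m → F) :=
  orthG (reForm hF m) (Aset hF y)

theorem card_B_mul (y : X) : Nat.card (Aset hF y) * Nat.card (Bset hF y) = q ^ (2 * m) := by
  obtain ⟨hfin, hcard⟩ := id hF
  rw [Bset, card_mul_orthG (reForm hF m) (reForm_sep hF) (reForm_symm hF), Nat.card_fun, Nat.card_fin,
    hcard, ← pow_mul]

theorem card_qOrb_central [Finite X] {y : X} (hK : Kset hF y = skew hF) :
    Nat.card (qOrb hF y) = Nat.card (Bset hF y) := by
  obtain ⟨hfin, -⟩ := id hF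
  have h := card_qOrb_mul hF y
  rw [hK, card_skew hF, ← card_B_mul hF y, ← mul_assoc] at h
  have h' := Nat.eq_of_mul_eq_mul_right (by have := hF.one_lt; omega) h
  rw [mul_comm (Nat.card (Aset hF y))] at h'
  exact Nat.eq_of_mul_eq_mul_right Nat.card_pos h'

theorem Bset_lev {l : F} (hl : l ≠ 0) (g : UG m F q)
    (hd : (LinearEquiv.det g.1 : F) = l ^ q * l⁻¹) {y : X} {w : Fin m → F}
    (hw : w ∈ Bset hF y) : l⁻¹ • g.1 w ∈ Bset hF (lev hF hl g hd • y) := by
  intro a ha
  rw [Aset_lev] at ha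
  obtain ⟨a₀, ha₀, rfl⟩ := ha
  have h := hw a₀ ha₀
  convert h using 2
  refine Subtype.ext ?_
  simp only [reForm_coe]
  change herm q (l ^ q • g.1 a₀) (l⁻¹ • g.1 w) + herm q (l⁻¹ • g.1 w) (l ^ q • g.1 a₀) = _
  rw [herm_smul_left, herm_smul_right, herm_smul_left, herm_smul_right, UG_app, UG_app, inv_pow,
    hF.pow_pow]
  have := pow_ne_zero q hl
  field_simp

theorem Bset_inner {g : ↥(SUG m F q)} {y : X} {w : Fin m → F} (hw : w ∈ Bset hF y) :
    g.1.1 w ∈ Bset hF (inner hF m g • y) := by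
  change _ ∈ Bset hF (lev hF one_ne_zero g.1 (by rw [mem_SUG.1 g.2]; simp) • y)
  have := Bset_lev hF one_ne_zero g.1 (by rw [mem_SUG.1 g.2]; simp) hw
  simp only [inv_one, one_smul] at this
  exact this

/-- The dual of a first invariant. -/
noncomputable def dualA (A : AddSubgroup (Fin m → F)) : AddSubgroup (Fin m → F) :=
  orthG (reForm hF m) A

omit hF in
theorem card_le_of_ne {p a b : ℕ} (hp : p.Prime) (h : p ^ a < p ^ b) : 2 * p ^ a ≤ p ^ b := by
  have hab : a < b := (Nat.pow_lt_pow_iff_right hp.one_lt).1 h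
  calc 2 * p ^ a ≤ p * p ^ a := Nat.mul_le_mul_right _ hp.two_le
    _ = p ^ (a + 1) := by ring
    _ ≤ p ^ b := Nat.pow_le_pow_right hp.pos hab

/-- The dual is a power of `q` or less than two: its size divides that of the quotient. -/
theorem card_B_dvd (y : X) : Nat.card (Bset hF y) ∣ q ^ (2 * m) :=
  Dvd.intro_left _ (card_B_mul hF y)

/-- Numerical assumptions on the number `R` of points fixed by the centre. -/
structure CentralNum (q m R T' : ℕ) : Prop where
  big : R < q ^ (2 * m)
  iso2 : R < 2 * ((q ^ 2 - 1) * isoN q m)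
  noniso : R + (q ^ 2 - 1) * isoN q m + 1 ≤ q ^ (2 * m) ∨
    4 ≤ m ∧ q = 2 ∧ R < 8 * T' ∧ 3 * R + 4 * ((q ^ 2 - 1) * isoN q m + 1) < 4 * q ^ (2 * m)
  small : m ≤ 3 ∨ R < q ^ 4 * T'

/-- A dual meeting two translates through each of its isotropic vectors, or small. -/
theorem all_iso_small (hm : 3 ≤ m) {B : AddSubgroup (Fin m → F)}
    (hiso : ∀ w ∈ B, herm q w w = 0)
    (hinv : ∀ v ∈ B, v ≠ 0 → ∀ g : ↥(SUG m F q), g.1.1 v = v → ∀ w ∈ B, g.1.1 w ∈ B) :
    Nat.card B ≤ q ^ 2 ∨ ∃ U : Submodule F (Fin m → F), U.toAddSubgroup = B ∧ 2 ≤ finrank F U ∧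
      2 * finrank F U ≤ m := by
  obtain ⟨hfin, hcard⟩ := id hF
  by_cases hline : ∃ v, v ≠ 0 ∧ ∀ w ∈ B, ∃ c : F, w = c • v
  · left
    obtain ⟨v, hv, hc⟩ := hline
    rw [← hcard]
    choose c hc using fun w : B => hc w.1 w.2
    exact Nat.card_le_card_of_injective c fun w w' h => Subtype.ext (by rw [hc w, hc w', h])
  right
  push Not at hline
  have hdiff : ∀ v ∈ B, v ≠ 0 → ∀ w ∈ B, ∀ x, herm q x v = 0 →
      ∃ a : F, a + a ^ q + herm q x x = 0 ∧
        herm q w v • x + (a * herm q w v - herm q w x) • v ∈ B := by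
    intro v hv hv0 w hw x hx
    obtain ⟨a, ha⟩ := hF.exists_trace (c := -herm q x x) (by rw [hF.neg_pow, hF.herm_symm])
    have hc : UniCond q v x a := ⟨hiso v hv, hx, by rw [ha, neg_add_cancel]⟩
    refine ⟨a, hc.2.2, ?_⟩
    have h1 := hinv v hv hv0 ⟨uni hF hc, det_uni hF hc⟩ (by
      change (uni hF hc).1 v = v
      rw [uni_apply, hiso v hv, uniCond_ex hF hc]; simp) w hw
    have h2 := B.sub_mem h1 hw
    change (uni hF hc).1 w - w ∈ B at h2
    rwa [uni_apply, add_assoc, add_sub_cancel_left] at h2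
  have horth : ∀ v ∈ B, ∀ w ∈ B, herm q w v = 0 := by
    intro v hv w hw
    rcases eq_or_ne v 0 with rfl | hv0
    · exact hF.herm_zero_right w
    by_contra hne
    obtain ⟨x, hx, hxx⟩ := exists_noniso_perp hF hm hv0
    obtain ⟨a, -, h⟩ := hdiff v hv hv0 w hw x hx
    have := hiso _ h
    have hxv : herm q v x = 0 := Forms.herm_comm_zero hF hx
    simp only [herm_add_left, hF.herm_add_right, herm_smul_left, herm_smul_right, hiso v hv, hx,
      hxv, mul_zero, add_zero, mul_eq_zero] at this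
    rcases this with h1 | h1 | h1
    · exact hne (eq_zero_of_pow_eq_zero h1)
    · exact hne h1
    · exact hxx h1
  have hsm : ∀ v ∈ B, ∀ c : F, c • v ∈ B := by
    intro v hv c
    rcases eq_or_ne v 0 with rfl | hv0
    · rw [smul_zero]; exact B.zero_mem
    obtain ⟨w, hw, hwv⟩ := hline v hv0
    obtain ⟨x, hx, hwx⟩ : ∃ x, herm q x v = 0 ∧ herm q w x ≠ 0 := by
      by_contra h
      push Not at h
      have hmem : w ∈ Forms.hperp q (Forms.hperp q (Submodule.span F {v})) :=
        fun x hx => h x (hx v (Submodule.mem_span_singleton_self v))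
      rw [Forms.hperp_hperp hF] at hmem
      obtain ⟨t, ht⟩ := Submodule.mem_span_singleton.1 hmem
      exact hwv t ht.symm
    obtain ⟨a, -, h⟩ := hdiff v hv hv0 w hw ((-c / herm q w x) ^ q • x)
      (by rw [herm_smul_left, hx, mul_zero])
    rw [horth v hv w hw, zero_smul, zero_add, mul_zero, zero_sub, herm_smul_right, hF.pow_pow,
      div_mul_cancel₀ _ hwx, neg_neg] at h
    exact h
  let U : Submodule F (Fin m → F) := { B with smul_mem' := fun c v hv => hsm v hv c }
  refine ⟨U, rfl, ?_, two_finrank_le hF U fun u hu v hv => horth v hv u hu⟩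
  by_contra hU
  have hU1 : finrank F U ≤ 1 := by omega
  obtain ⟨v, hv⟩ := finrank_le_one_iff.1 hU1
  rcases eq_or_ne (v : Fin m → F) 0 with h0 | h0
  · obtain ⟨e, he⟩ : ∃ e : Fin m → F, e ≠ 0 := ⟨Pi.single ⟨0, by omega⟩ 1, by simp⟩
    obtain ⟨w, hw, hwv⟩ := hline e he
    obtain ⟨c, hc⟩ := hv ⟨w, hw⟩
    refine hwv 0 ?_
    have := congrArg Subtype.val hc
    simpa [h0] using this.symm
  · obtain ⟨w, hw, hwv⟩ := hline v h0
    obtain ⟨c, hc⟩ := hv ⟨w, hw⟩
    exact hwv c (congrArg Subtype.val hc).symm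

/-- A point fixed by the centre, with a proper image. -/
theorem central_bound [Finite X] {T' : ℕ} (hs : 4 ≤ m → Small.{u, u} m F q T') (hm : 3 ≤ m)
    (hnum : CentralNum q m (Nat.card {z : X | Kset hF z = skew hF}) T') {y : X}
    (hK : Kset hF y = skew hF) (hA : Aset hF y ≠ ⊤) :
    q ^ 2 * isoN q m ≤ Nat.card {z : X | Kset hF z = skew hF} := by
  classical
  obtain ⟨hfin, hcard⟩ := id hF
  have hq1 := hF.one_lt
  set R := Nat.card {z : X | Kset hF z = skew hF} with hR
  set d := Nat.card (Bset hF y) with hd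
  set c := Nat.card (trans hF y) with hc
  have hKtr : ∀ s ∈ trans hF y, s.2 = skew hF := by
    rintro _ ⟨l, hl, g, hd', rfl⟩
    refine (SetLike.coe_injective ?_).trans rfl
    refine Set.eq_of_subset_of_ncard_le (Kset_le hF _) (le_of_eq ?_) (Set.toFinite _)
    rw [← Nat.card_coe_set_eq, ← Nat.card_coe_set_eq]
    exact ((card_Kset_lev hF hl g hd' y).trans (by rw [hK]; rfl)).symm
  have hcd : c * d ≤ R := by
    rw [hd, ← card_qOrb_central hF hK]
    refine (trans_mul_le hF y).trans (Nat.card_mono (Set.toFinite _) ?_)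
    intro z hz
    exact hKtr _ hz
  have hBbot : Bset hF y ≠ ⊥ := by
    rw [Bset, Ne, orthG_eq_bot_iff _ (reForm_sep hF) (reForm_symm hF)]
    exact hA
  have hd2 : 2 ≤ d := by
    obtain ⟨b, hb, hb0⟩ := (AddSubgroup.bot_or_exists_ne_zero _).resolve_left hBbot
    exact Finite.one_lt_card_iff_nontrivial.2 ⟨⟨0, ⟨b, hb⟩, fun h => hb0 (congrArg Subtype.val h).symm⟩⟩
  -- the duals of the translates
  let dual : AddSubgroup (Fin m → F) × AddSubgroup F → Set (Fin m → F) := fun s =>
    (dualA hF s.1 : Set (Fin m → F))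
  have hdual : ∀ s ∈ trans hF y, ∀ t : Set (Fin m → F), (0 : Fin m → F) ∉ t →
      Nat.card ↥(dual s ∩ t) ≤ d - 1 := by
    rintro _ ⟨l, hl, g, hd', rfl⟩ t ht
    have hsz : Nat.card (dualA hF (Aset hF (lev hF hl g hd' • y))) = d := by
      have h1 := card_B_mul hF (lev hF hl g hd' • y)
      rw [card_Aset_lev hF hl g hd', ← card_B_mul hF y] at h1
      exact Nat.eq_of_mul_eq_mul_left Nat.card_pos h1
    have := Fintype.ofFinite (dualA hF (Aset hF (lev hF hl g hd' • y)))
    refine le_trans (Nat.card_le_card_of_injective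
      (β := {w : dualA hF (Aset hF (lev hF hl g hd' • y)) // w ≠ 0})
      (fun x => ⟨⟨x.1, x.2.1⟩, fun h => ht (by
        have e : x.1 = 0 := congrArg Subtype.val h
        rw [← e]; exact x.2.2)⟩) fun x x' h => Subtype.ext
          (congrArg (fun w : {w : dualA hF (Aset hF (lev hF hl g hd' • y)) // w ≠ 0} => w.1.1) h)) ?_
    rw [← hsz, Nat.card_eq_fintype_card, Nat.card_eq_fintype_card, Fintype.card_subtype_compl,
      Fintype.card_subtype_eq]
  have hcd1 : c * (d - 1) + c = c * d := by rw [← Nat.mul_add_one, Nat.sub_add_cancel (by omega)]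
  have hc1 : 1 ≤ c := by
    have : Nonempty (trans hF y) := ⟨⟨dat hF y, 1, one_ne_zero, 1, by simp, by
      congr 1
      convert one_smul (SG m F q) y
      refine SG_ext hF fun ⟨⟨a, b⟩, z⟩ => ?_
      simp [lev_apply]⟩⟩
    exact Nat.card_pos
  have hsmallc : 4 ≤ m → T' ≤ c ∨ d = q ^ (2 * m) := by
    intro hm4
    by_cases hA0 : Aset hF y = ⊥
    · right
      have := card_B_mul hF y
      rw [hA0, AddSubgroup.card_bot, one_mul] at this
      exact this
    · exact Or.inl (le_trans (innerTrans_ge hF (hs hm4) hm4 hA0 hA) (card_innerTrans_le_trans hF y))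
  by_cases hiso : ∀ w ∈ Bset hF y, herm q w w = 0
  swap
  · exfalso
    push Not at hiso
    obtain ⟨v, hv, hv0⟩ := hiso
    have hMn := card_noniso hF m
    have hcov : Nat.card {w : Fin m → F | herm q w w ≠ 0} ≤ c * (d - 1) := by
      refine card_le_cover (trans hF y) dual _ (fun w hw => ?_) (fun s hs' => hdual s hs' _ (by simp))
      obtain ⟨l, hl, g, hdet, e⟩ := exists_lev_noniso hF (by omega) hv0 hw
      have hl' : (l ^ q)⁻¹ ≠ 0 := inv_ne_zero (pow_ne_zero q hl)
      have hdet' : (LinearEquiv.det g.1 : F) = ((l ^ q)⁻¹) ^ q * ((l ^ q)⁻¹)⁻¹ := by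
        rw [hdet, inv_inv, inv_pow, hF.pow_pow, mul_comm]
      refine ⟨_, ⟨(l ^ q)⁻¹, hl', g, hdet', rfl⟩, ?_⟩
      have := Bset_lev hF hl' g hdet' hv
      rw [inv_inv, e] at this
      exact this
    have hM : Nat.card {w : Fin m → F | herm q w w ≠ 0} =
        Nat.card {v : Fin m → F // herm q v v ≠ 0} := rfl
    rcases hnum.noniso with h | ⟨hm4, hq2, h8, h3⟩
    · omega
    · have hd4 : d ≤ 4 := by
        rcases hsmallc hm4 with h | h
        · have : T' * d < 8 * T' := lt_of_le_of_lt ((Nat.mul_le_mul_right d h).trans hcd) h8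
          have hd8 : d < 8 := Nat.lt_of_mul_lt_mul_left (a := T') (by rw [mul_comm T' 8]; exact this)
          have hdv := card_B_dvd hF y
          rw [← hd, hq2] at hdv
          obtain ⟨j, -, hj⟩ := (Nat.dvd_prime_pow Nat.prime_two).1 hdv
          rw [hj] at hd8 ⊢
          have : j < 3 := (Nat.pow_lt_pow_iff_right (by norm_num : 1 < 2)).1
            (by simpa using hd8)
          interval_cases j <;> norm_num
        · exfalso
          have := Nat.le_mul_of_pos_left d hc1
          have := hnum.big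
          omega
      have : 4 * (c * (d - 1)) ≤ 3 * (c * d) := by
        interval_cases d <;> omega
      omega
  -- only isotropic vectors
  have hI : Nat.card {w : Fin m → F | w ≠ 0 ∧ herm q w w = 0} = (q ^ 2 - 1) * isoN q m :=
    card_iso_nonzero hF m
  have hmove : ∀ {v : Fin m → F}, v ∈ Bset hF y → v ≠ 0 → ∀ w : Fin m → F, w ≠ 0 → herm q w w = 0 →
      ∃ (l : F) (hl : l ≠ 0) (g : UG m F q) (hdet : (LinearEquiv.det g.1 : F) = l ^ q * l⁻¹),
        l⁻¹ • g.1 v = w := by
    intro v hv hv0 w hw hw0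
    obtain ⟨l, hl, g, hdet, e⟩ := exists_lev_iso hF (Or.inl hm) hv0 (hiso v hv) hw hw0
    exact ⟨(l ^ q)⁻¹, inv_ne_zero (pow_ne_zero q hl), g,
      by rw [hdet, inv_inv, inv_pow, hF.pow_pow, mul_comm], by rw [inv_inv]; exact e⟩
  by_cases hmov : ∀ v ∈ Bset hF y, v ≠ 0 → ∀ g : ↥(SUG m F q), g.1.1 v = v →
      ∀ w ∈ Bset hF y, g.1.1 w ∈ Bset hF y
  · rcases all_iso_small hF hm hiso hmov with hd' | ⟨U, hU, hU2, hUm⟩
    · rw [← hd] at hd'
      obtain ⟨v, hv, hv0⟩ := (AddSubgroup.bot_or_exists_ne_zero _).resolve_left hBbot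
      have hcov : Nat.card {w : Fin m → F | w ≠ 0 ∧ herm q w w = 0} ≤ c * (d - 1) := by
        refine card_le_cover (trans hF y) dual _ (fun w hw => ?_)
          (fun s hs' => hdual s hs' _ (by simp))
        obtain ⟨l, hl, g, hdet, e⟩ := hmove hv hv0 w hw.1 hw.2
        refine ⟨_, ⟨l, hl, g, hdet, rfl⟩, ?_⟩
        have := Bset_lev hF hl g hdet hv
        rwa [e] at this
      rw [hI] at hcov
      have h4 : 2 ^ 2 ≤ q ^ 2 := Nat.pow_le_pow_left hq1 2
      have : (q ^ 2 - 1) * (q ^ 2 * isoN q m) ≤ (q ^ 2 - 1) * R := by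
        calc (q ^ 2 - 1) * (q ^ 2 * isoN q m) = q ^ 2 * ((q ^ 2 - 1) * isoN q m) := by ring
          _ ≤ q ^ 2 * (c * (d - 1)) := Nat.mul_le_mul_left _ hcov
          _ = c * (q ^ 2 * (d - 1)) := by ring
          _ ≤ c * ((q ^ 2 - 1) * d) := Nat.mul_le_mul_left _ (by
              rw [Nat.mul_sub, Nat.sub_mul, mul_one, one_mul]; omega)
          _ = (q ^ 2 - 1) * (c * d) := by ring
          _ ≤ _ := Nat.mul_le_mul_left _ hcd
      exact Nat.le_of_mul_le_mul_left this (by omega)
    · exfalso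
      rcases hnum.small with h | h
      · omega
      · have hdU : d = (q ^ 2) ^ finrank F U := by
          rw [hd, ← hU, ← hcard]
          exact Module.natCard_eq_pow_finrank (K := F) (V := U)
        have h4 : q ^ 4 ≤ d := by
          rw [hdU, show q ^ 4 = (q ^ 2) ^ 2 by ring]
          exact Nat.pow_le_pow_right (by positivity) hU2
        rcases hsmallc (by omega) with h' | h'
        · have := le_trans (Nat.mul_le_mul h' h4) hcd
          rw [mul_comm] at this
          omega
        · have := Nat.le_mul_of_pos_left d hc1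
          have := hnum.big
          omega
  · exfalso
    push Not at hmov
    obtain ⟨v, hv, hv0, g₀, hg₀, w₀, hw₀, hw₀'⟩ := hmov
    have hcov : 2 * Nat.card {w : Fin m → F | w ≠ 0 ∧ herm q w w = 0} ≤ c * (d - 1) := by
      refine card_le_cover_two (trans hF y) dual _ (fun w hw => ?_)
        (fun s hs' => hdual s hs' _ (by simp))
      obtain ⟨l, hl, g, hdet, e⟩ := hmove hv hv0 w hw.1 hw.2
      obtain ⟨h', e'⟩ := lev_mul_lev hF hl one_ne_zero g g₀.1 hdet (by rw [mem_SUG.1 g₀.2]; simp)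
      refine ⟨_, ⟨l, hl, g, hdet, rfl⟩, _, ⟨_, mul_ne_zero hl one_ne_zero, _, h', rfl⟩, ?_, ?_, ?_⟩
      · intro heq
        rw [← e', mul_smul] at heq
        have h1 : Aset hF (lev hF hl g hdet • y) =
            Aset hF (lev hF hl g hdet • inner hF m g₀ • y) := congrArg Prod.fst heq
        rw [Aset_lev, Aset_lev] at h1
        have h2 : Aset hF y = Aset hF (inner hF m g₀ • y) :=
          AddSubgroup.map_injective (lmap_injective hF hl g) h1
        have h3 : g₀.1.1 w₀ ∈ orthG (reForm hF m) (Aset hF (inner hF m g₀ • y)) :=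
          Bset_inner hF hw₀
        rw [← h2] at h3
        exact hw₀' h3
      · have := Bset_lev hF hl g hdet hv
        rwa [e] at this
      · have := Bset_lev hF (mul_ne_zero hl one_ne_zero) (g * g₀.1) h' hv
        rw [Subgroup.coe_mul, LinearEquiv.mul_apply, hg₀,
          show (l * 1)⁻¹ = l⁻¹ by rw [mul_one], e] at this
        exact this
    rw [hI] at hcov
    have := hnum.iso2
    omega

end Cfsg.Agent.MinU
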