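/-
Bounds for the points whose centre part is proper.
-/
import Mathlib
import Cfsg.Agent.MinU.Central

set_option autoImplicit false

namespace Cfsg.Agent.MinU

open Cfsg.Agent.Classical.U Cfsg.Agent.MinIndex

universe u v

variable {F : Type u} [Field F] {q : ℕ} {m : ℕ}
variable (hF : SqField F q)
include hF

variable {X : Type v} [UAct F q X m]

/-- The commutator of two elements of the radical fixing a point fixes it. -/
theorem comm_mem_Kset {y : X} {w w' : Fin m → F} (hw : w ∈ Aset hF y) (hw' : w' ∈ Aset hF y) :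
    herm q w' w - herm q w w' ∈ Kset hF y := by
  obtain ⟨p, rfl, hp⟩ := hw
  obtain ⟨r, rfl, hr⟩ := hw'
  have h := tE_conj_smul hF (r := r) hp
  rw [hr] at h
  have := sub_mem_Kset hF (hMul_conj hF r p).1 h hp
  rwa [(hMul_conj hF r p).2, add_sub_cancel_left] at this

/-- With a proper centre part the image in the quotient is at most half of it. -/
theorem card_Aset_sq_le {y : X} (hK : Kset hF y ≠ skew hF) :
    Nat.card (Aset hF y) * Nat.card (Aset hF y) ≤ q ^ (2 * m) := by
  obtain ⟨hfin, -⟩ := id hF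
  obtain ⟨d, hd, hdq⟩ := hF.exists_skew
  let L : AddSubgroup (fixF hF) := (Kset hF y).comap
    ((AddMonoidHom.mulLeft d⁻¹).comp (fixF hF).subtype.toAddMonoidHom)
  let M : LinearMap.BilinForm (fixF hF) (fixF hF) := LinearMap.mul (fixF hF) (fixF hF)
  have hL : orthG M L ≠ ⊥ := by
    rw [Ne, orthG_eq_bot_iff M (fun x hx => by simpa [M] using hx 1) (fun x z => mul_comm x z)]
    intro h
    refine hK (le_antisymm (Kset_le hF y) fun a ha => ?_)
    have : (⟨d * a, by
      rw [mem_fixF, mul_pow, hdq, (mem_skew hF).1 ha, neg_mul_neg]⟩ : fixF hF) ∈ L :=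
      h ▸ AddSubgroup.mem_top _
    change d⁻¹ * (d * a) ∈ Kset hF y at this
    rwa [← mul_assoc, inv_mul_cancel₀ hd, one_mul] at this
  obtain ⟨c, hc, hc0⟩ := (AddSubgroup.bot_or_exists_ne_zero _).resolve_left hL
  have hc' : (c : F) * d ≠ 0 := mul_ne_zero (fun h => hc0 (Subtype.ext h)) hd
  have hmem : ∀ a ∈ Aset hF y, ((c : F) * d) • a ∈ Bset hF y := by
    intro a ha a' ha'
    have hk := comm_mem_Kset hF ha' ha
    have hf : d * (herm q a a' - herm q a' a) ∈ fixF hF := by
      rw [mem_fixF, mul_pow, hdq, (mem_skew hF).1 (Kset_le hF y hk), neg_mul_neg]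
    have : (⟨_, hf⟩ : fixF hF) ∈ L := by
      change d⁻¹ * (d * (herm q a a' - herm q a' a)) ∈ Kset hF y
      rwa [← mul_assoc, inv_mul_cancel₀ hd, one_mul]
    have h2 := hc _ this
    convert h2 using 2
    refine Subtype.ext ?_
    simp only [reForm_coe, M, LinearMap.mul_apply_apply, Subfield.coe_mul, herm_smul_left,
      herm_smul_right, mul_pow, hdq, (mem_fixF hF).1 c.2]
    ring
  have hle : Nat.card (Aset hF y) ≤ Nat.card (Bset hF y) :=
    Nat.card_le_card_of_injective (fun a => (⟨_, hmem a.1 a.2⟩ : Bset hF y)) fun a a' h =>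
      Subtype.ext (smul_right_injective _ hc' (congrArg Subtype.val h))
  exact (Nat.mul_le_mul_left _ hle).trans (card_B_mul hF y).le

theorem card_Aset_le {y : X} (hK : Kset hF y ≠ skew hF) : Nat.card (Aset hF y) ≤ q ^ m := by
  have h := card_Aset_sq_le hF hK
  rw [show q ^ (2 * m) = q ^ m * q ^ m by rw [two_mul, pow_add]] at h
  exact Nat.mul_self_le_mul_self_iff.1 h

theorem exists_det_lev (hm : 1 ≤ m) {l : F} (hl : l ≠ 0) :
    ∃ g : UG m F q, (LinearEquiv.det g.1 : F) = l ^ q * l⁻¹ :=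
  exists_det_eq hF hm (by
    rw [pow_succ', mul_pow, inv_pow, hF.pow_pow]
    have := pow_ne_zero q hl
    field_simp)

/-- Translates of a point times its orbit, with trivial centre part. -/
theorem bot_ge [Finite X] {y : X} {N : ℕ} (hK : Kset hF y = ⊥)
    (hN : N ≤ Nat.card (innerTrans hF y)) :
    N * (q ^ (2 * m) * q) ≤ Nat.card X * Nat.card (Aset hF y) := by
  rw [← card_qOrb_mul hF y, hK, AddSubgroup.card_bot, mul_one, ← mul_assoc]
  refine Nat.mul_le_mul_right _ ((Nat.mul_le_mul_right _ ?_).trans (trans_mul_le_card hF y))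
  exact hN.trans (card_innerTrans_le_trans hF y)

/-- Translates of a point times its orbit, with proper centre part. -/
theorem proper_ge' [Finite X] (hm : 1 ≤ m) {y : X} {N : ℕ} (hbot : Kset hF y ≠ ⊥)
    (htop : Kset hF y ≠ skew hF)
    (hN : ∀ (l : F) (hl : l ≠ 0) (g : UG m F q) (hd : (LinearEquiv.det g.1 : F) = l ^ q * l⁻¹),
      N ≤ Nat.card (innerTrans hF (lev hF hl g hd • y))) :
    (q + 1) * N * q ^ (2 * m) ≤
      Nat.card {z : X | dat hF z ∈ trans hF y} * Nat.card (Aset hF y) := by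
  obtain ⟨hfin, -⟩ := id hF
  have h1 := scales_bound hF (Kset_le hF y) hbot htop
  have h2 := trans_lower hF hN fun l hl => exists_det_lev hF hm hl
  have h3 := trans_mul_le hF y
  have h4 := card_qOrb_mul hF y
  set a := Nat.card (Aset hF y)
  set κ := Nat.card (Kset hF y)
  set o := Nat.card (qOrb hF y)
  set σ := Nat.card (scales q (Kset hF y))
  set τ := Nat.card (trans hF y)
  refine Nat.le_of_mul_le_mul_right ?_ (show 0 < q by have := hF.one_lt; omega)
  calc (q + 1) * N * q ^ (2 * m) * q = (q + 1) * κ * (N * o * a) := by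
        rw [mul_assoc ((q + 1) * N), ← h4]; ring
    _ ≤ σ * q * (N * o * a) := Nat.mul_le_mul_right _ h1
    _ = σ * N * o * (a * q) := by ring
    _ ≤ τ * o * (a * q) := Nat.mul_le_mul_right _ (Nat.mul_le_mul_right _ h2)
    _ ≤ Nat.card {z : X | dat hF z ∈ trans hF y} * (a * q) := Nat.mul_le_mul_right _ h3
    _ = _ := by ring

/-- The same bound against all points. -/
theorem proper_ge [Finite X] (hm : 1 ≤ m) {y : X} {N : ℕ} (hbot : Kset hF y ≠ ⊥)
    (htop : Kset hF y ≠ skew hF)
    (hN : ∀ (l : F) (hl : l ≠ 0) (g : UG m F q) (hd : (LinearEquiv.det g.1 : F) = l ^ q * l⁻¹),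
      N ≤ Nat.card (innerTrans hF (lev hF hl g hd • y))) :
    (q + 1) * N * q ^ (2 * m) ≤ Nat.card X * Nat.card (Aset hF y) :=
  (proper_ge' hF hm hbot htop hN).trans (Nat.mul_le_mul_right _ (Finite.card_subtype_le _))

theorem one_le_innerTrans [Finite X] (z : X) : 1 ≤ Nat.card (innerTrans hF z) := by
  obtain ⟨hfin, -⟩ := id hF
  have : Nonempty (innerTrans hF z) := ⟨⟨_, 1, rfl⟩⟩
  exact Nat.card_pos

/-- The centre part of a point with trivial image is trivial or everything. -/
theorem triv_Aset_cases [Finite X] (hm : 1 ≤ m) {y : X}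
    (hk : Nat.card X < (q + 1) * q ^ (2 * m)) (hA : Aset hF y = ⊥) :
    Kset hF y = ⊥ ∨ Kset hF y = skew hF := by
  by_contra h
  push Not at h
  have := proper_ge hF hm h.1 h.2 (N := 1) fun l hl g hd => one_le_innerTrans hF _
  rw [hA, AddSubgroup.card_bot, mul_one, mul_one] at this
  omega

/-- From four dimensions on, a point is regular or fixed by the centre. -/
theorem regular_or_central [Finite X] {T' : ℕ} (hm : 4 ≤ m) (hs : Small.{u, u} m F q T')
    (hk1 : Nat.card X < q ^ (m + 1) * T') (hk2 : Nat.card X < (q + 1) * q ^ (2 * m)) (y : X) :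
    (Aset hF y = ⊥ ∧ Kset hF y = ⊥) ∨ Kset hF y = skew hF := by
  obtain ⟨hfin, -⟩ := id hF
  by_cases htop : Kset hF y = skew hF
  · exact Or.inr htop
  left
  by_cases hA : Aset hF y = ⊥
  · exact ⟨hA, (triv_Aset_cases hF (by omega) hk2 hA).resolve_right htop⟩
  exfalso
  have ha := card_Aset_le hF htop
  have hbig : ∀ z : X, Nat.card (Aset hF z) = Nat.card (Aset hF y) →
      T' ≤ Nat.card (innerTrans hF z) := by
    intro z hz
    refine innerTrans_ge hF hs hm (fun h => hA ?_) fun h => ?_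
    · rw [h, AddSubgroup.card_bot] at hz
      exact AddSubgroup.eq_bot_of_card_eq _ hz.symm
    · have hsq := card_Aset_sq_le hF htop
      obtain ⟨hfin', hcard⟩ := id hF
      rw [← hz, h, Nat.card_congr AddSubgroup.topEquiv.toEquiv, Nat.card_fun, Nat.card_fin, hcard,
        ← pow_mul] at hsq
      have h1 : 2 ≤ q ^ (2 * m) :=
        le_trans hF.one_lt (Nat.le_self_pow (by omega) q)
      nlinarith
  have h2 : q ^ (m + 1) * T' * q ^ m ≤ Nat.card X * Nat.card (Aset hF y) := by
    by_cases hbot : Kset hF y = ⊥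
    · refine le_trans (le_of_eq ?_) (bot_ge hF hbot (hbig y rfl))
      rw [two_mul, pow_add, pow_succ]; ring
    · refine le_trans ?_ (proper_ge hF (by omega) hbot htop fun l hl g hd =>
        hbig _ (card_Aset_lev hF hl g hd y))
      calc q ^ (m + 1) * T' * q ^ m = q * T' * q ^ (2 * m) := by
            rw [two_mul, pow_add, pow_succ]; ring
        _ ≤ (q + 1) * T' * q ^ (2 * m) :=
          Nat.mul_le_mul_right _ (Nat.mul_le_mul_right _ (Nat.le_succ q))
  have h3 := h2.trans (Nat.mul_le_mul_left _ ha)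
  exact absurd (Nat.le_of_mul_le_mul_right h3 (by have := hF.one_lt; positivity)) (by omega)

/-- A transvection of the quotient, as a transvection. -/
theorem inner_trv {v : Fin m → F} {b : F} (h : TrvCond q v b) :
    ∃ h' : TrvCond q (iW v) b, inner hF m ⟨trv hF h, det_uni hF _⟩ = tS hF h' := by
  have h' : TrvCond q (iW v) b := ⟨by rw [herm_iW _ _ hF.q_ne_zero]; exact h.1, h.2⟩
  refine ⟨h', SG_ext hF fun ⟨⟨a, c⟩, z⟩ => ?_⟩
  rw [inner_apply, trv_apply]
  change _ = (trv hF h').1 _
  rw [trv_apply, ph_apply, ph_apply, iW_add, iW_smul]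
  simp only [herm_add_left, herm_smul_left, h_ew hF, h_fw hF, herm_iW _ _ hF.q_ne_zero]
  module

/-- The points fixed by a transvection of the quotient. -/
theorem card_fix_trv [Finite X] {v : Fin m → F} (hv : v ≠ 0) {b : F} (hb : b ≠ 0)
    (h : TrvCond q v b) :
    Nat.card {z : X // inner hF m ⟨trv hF h, det_uni hF _⟩ • z = z} *
        (q ^ 2 * (q ^ (2 * m) * q)) ≤
      (∑ᶠ y : X, Nat.card {s : F // s • v ∈ Aset hF y}) * (q ^ (2 * m) * q) := by
  classical
  obtain ⟨hfin, hcard⟩ := id hF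
  have hfinH : Finite (Heis m F q) := Subtype.finite
  set τ := inner hF m ⟨trv hF h, det_uni hF _⟩ with hτ
  have := Fintype.ofFinite X
  let P : X → Type u := fun y => {p : Heis m F q // τ • tE hF p • y = tE hF p • y}
  have e : Nat.card {z : X // τ • z = z} * Nat.card (Heis m F q) = ∑ y : X, Nat.card (P y) := by
    rw [← Nat.card_prod, ← Nat.card_sigma]
    exact Nat.card_congr
      { toFun := fun r => ⟨(tE hF r.2)⁻¹ • r.1.1, r.2, by
          rw [smul_inv_smul]; exact r.1.2⟩
        invFun := fun r => (⟨tE hF r.2.1 • r.1, r.2.2⟩, r.2.1)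
        left_inv := fun r => Prod.ext (Subtype.ext (smul_inv_smul _ _)) rfl
        right_inv := fun r => by
          obtain ⟨y, p, hp⟩ := r
          refine Sigma.subtype_ext (inv_smul_smul _ y) rfl }
  obtain ⟨u, hu⟩ : ∃ u, herm q u v = 1 := by
    obtain ⟨z, hz⟩ : ∃ z, herm q z v ≠ 0 := by
      by_contra hcon
      push Not at hcon
      exact hv (hF.eq_zero_of_herm v fun z => by rw [← hF.herm_symm, hcon, zero_pow hF.q_ne_zero])
    exact ⟨(herm q z v)⁻¹ • z, by rw [herm_smul_left, inv_mul_cancel₀ hz]⟩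
  let Z := {w : Fin m → F // herm q w v = 0}
  have hZ : Nat.card Z * q ^ 2 = q ^ (2 * m) := by
    rw [← hcard, ← Nat.card_prod, show q ^ (2 * m) = Nat.card (Fin m → F) by
      rw [Nat.card_fun, Nat.card_fin, hcard, ← pow_mul]]
    exact Nat.card_congr
      { toFun := fun r => r.1.1 + r.2 • u
        invFun := fun w => (⟨w - herm q w v • u, by
          rw [herm_sub_left, herm_smul_left, hu, mul_one, sub_self]⟩, herm q w v)
        left_inv := fun r => by
          have e : herm q (r.1.1 + r.2 • u) v = r.2 := by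
            rw [herm_add_left, herm_smul_left, r.1.2, hu, zero_add, mul_one]
          refine Prod.ext (Subtype.ext ?_) e
          simp only [e, add_sub_cancel_right]
        right_inv := fun w => sub_add_cancel _ _ }
  choose c hc using fun w : Fin m → F =>
    hF.exists_trace (c := -herm q w w) (by rw [hF.neg_pow, hF.herm_symm])
  have hP : ∀ y : X, Nat.card (P y) * q ^ 2 ≤
      Nat.card {s : F // s • v ∈ Aset hF y} * (q ^ (2 * m) * q) := by
    intro y
    rcases isEmpty_or_nonempty (P y) with hE | ⟨⟨p₀, hp₀⟩⟩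
    · simp
    have hcond : ∀ p : P y,
        (b * herm q (p.1.1.1 - p₀.1.1) v) • v ∈ Aset hF y := by
      rintro ⟨p, hp⟩
      rw [hτ, ← mul_smul, inner_tE, mul_smul, ← hτ] at hp hp₀
      set p' := hLev hF 1 (trv hF h) p
      set p₀' := hLev hF 1 (trv hF h) p₀
      have hfix : tE hF (hMul hF (hMul hF (hMul hF (hInv hF p) p') (hInv hF p₀')) p₀) • y = y := by
        have e0 : (tE hF p₀')⁻¹ • tE hF p₀ • y = τ • y := by rw [inv_smul_eq_iff]; exact hp₀.symm
        rw [← tE_mul, ← tE_mul, ← tE_mul, ← tE_inv, ← tE_inv, mul_smul, mul_smul, mul_smul, e0, hp,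
          inv_smul_smul]
      refine ⟨_, ?_, hfix⟩
      simp only [p', p₀', hMul, hInv, hLev, one_pow, one_smul]
      change -p.1.1 + (trv hF h).1 p.1.1 + -(trv hF h).1 p₀.1.1 + p₀.1.1 = _
      rw [trv_apply, trv_apply, herm_sub_left]
      module
    let f : P y → {s : F // s • v ∈ Aset hF y} × Z × skew hF := fun p =>
      (⟨b * herm q (p.1.1.1 - p₀.1.1) v, hcond p⟩,
        ⟨p.1.1.1 - herm q p.1.1.1 v • u, by
          rw [herm_sub_left, herm_smul_left, hu, mul_one, sub_self]⟩,
        ⟨p.1.1.2 - c p.1.1.1, by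
          rw [mem_skew, hF.sub_pow]; linear_combination p.1.2 - hc p.1.1.1⟩)
    have hf : Function.Injective f := by
      intro p r hpr
      have e1 : b * herm q (p.1.1.1 - p₀.1.1) v = b * herm q (r.1.1.1 - p₀.1.1) v :=
        congrArg (fun x => (x.1 : F)) hpr
      have e2 : p.1.1.1 - herm q p.1.1.1 v • u = r.1.1.1 - herm q r.1.1.1 v • u :=
        congrArg (fun x => (x.2.1 : Fin m → F)) hpr
      have e3 : p.1.1.2 - c p.1.1.1 = r.1.1.2 - c r.1.1.1 :=
        congrArg (fun x => (x.2.2 : F)) hpr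
      have e4 : herm q p.1.1.1 v = herm q r.1.1.1 v := by
        have := mul_left_cancel₀ hb e1
        rw [herm_sub_left, herm_sub_left] at this
        exact sub_left_injective this
      rw [e4] at e2
      have e5 : p.1.1.1 = r.1.1.1 := sub_left_injective e2
      rw [e5] at e3
      exact Subtype.ext (Subtype.ext (Prod.ext e5 (sub_left_injective e3)))
    have := Nat.card_le_card_of_injective f hf
    rw [Nat.card_prod, Nat.card_prod, card_skew hF] at this
    calc Nat.card (P y) * q ^ 2 ≤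
        Nat.card {s : F // s • v ∈ Aset hF y} * (Nat.card Z * q) * q ^ 2 :=
          Nat.mul_le_mul_right _ this
      _ = Nat.card {s : F // s • v ∈ Aset hF y} * (Nat.card Z * q ^ 2 * q) := by ring
      _ = _ := by rw [hZ]
  rw [mul_left_comm, ← card_heis hF, e, finsum_eq_sum_of_fintype, Finset.mul_sum, Finset.sum_mul,
    card_heis hF]
  exact Finset.sum_le_sum fun y _ => by rw [mul_comm (q ^ 2)]; exact hP y

/-- The transvections of the quotient at one vector are conjugate to the centre. -/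
theorem exists_conj_centre [Finite X] {v : Fin m → F} (hv : v ≠ 0) (hv0 : herm q v v = 0) :
    ∃ (t : SG m F q) (c : F), c ≠ 0 ∧ ∀ (b : skew hF) (z : X),
      inner hF m ⟨trv hF (⟨hv0, b.2⟩ : TrvCond q v b), det_uni hF _⟩ • z = z ↔
        c * c ^ q * b ∈ Kset hF (t • z) := by
  have hiv : iW v ≠ 0 := fun h => hv (iW_injective (h.trans iW_zero.symm))
  have hiv0 : herm q (iW v) (iW v) = 0 := by rw [herm_iW _ _ hF.q_ne_zero, hv0]
  obtain ⟨t, c, hc, et⟩ := exists_SUG_line hF hiv hiv0 (pair_spec hF (m := m)).1.ne_zero (h_ee hF)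
  have hn : c * c ^ q ≠ 0 := mul_ne_zero hc (pow_ne_zero _ hc)
  have hsk : ∀ b ∈ skew hF, c * c ^ q * b ∈ skew hF := fun b hb => by
    rw [mem_skew, mul_pow, mul_pow, hF.pow_pow, (mem_skew hF).1 hb]; ring
  refine ⟨t, c, hc, fun b z => ?_⟩
  obtain ⟨h', e1⟩ := inner_trv hF (⟨hv0, b.2⟩ : TrvCond q v b)
  obtain ⟨h'', e2⟩ := tS_conj hF t h'
  have h3 : TrvCond q (c • eV hF m) b := by rw [← et]; exact h''
  have e3 : tS hF h'' = tE hF (hZ hF (hsk b b.2)) := by
    rw [show tS hF h'' = tS hF h3 from by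
      rw [tS_eq_uS, tS_eq_uS]; exact uS_congr hF _ _ et rfl rfl,
      tS_smul hF h3 (trvCond_eV hF (hsk b b.2)), tS_eV]
  rw [mem_Kset hF (hsk b b.2), ← e3, ← e2, mul_smul, mul_smul, inv_smul_smul,
    (MulAction.injective t).eq_iff, e1]

/-- Summing the fixed points of the transvections at one vector gives the centre parts. -/
theorem sum_fix_trv [Finite X] {v : Fin m → F} (hv : v ≠ 0) (hv0 : herm q v v = 0) :
    ∑ᶠ b : skew hF, Nat.card {z : X //
        inner hF m ⟨trv hF (⟨hv0, b.2⟩ : TrvCond q v b), det_uni hF _⟩ • z = z} =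
      ∑ᶠ y : X, Nat.card (Kset hF y) := by
  classical
  obtain ⟨hfin, -⟩ := id hF
  have := Fintype.ofFinite X
  have := Fintype.ofFinite (skew hF)
  obtain ⟨t, c, hc, key⟩ := exists_conj_centre hF (X := X) hv hv0
  have hn : c * c ^ q ≠ 0 := mul_ne_zero hc (pow_ne_zero _ hc)
  rw [finsum_eq_sum_of_fintype, finsum_eq_sum_of_fintype, ← Nat.card_sigma, ← Nat.card_sigma]
  exact Nat.card_congr
    { toFun := fun r => ⟨t • r.2.1, c * c ^ q * r.1.1, (key r.1 r.2.1).1 r.2.2⟩
      invFun := fun r =>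
        have hb : (c * c ^ q)⁻¹ * r.2.1 ∈ skew hF := by
          rw [mem_skew, mul_pow, inv_pow, mul_pow, hF.pow_pow,
            (mem_skew hF).1 (Kset_le hF _ r.2.2), mul_comm (c ^ q), mul_neg]
        ⟨⟨_, hb⟩, t⁻¹ • r.1, (key ⟨_, hb⟩ _).2 (by
          rw [smul_inv_smul]
          change c * c ^ q * ((c * c ^ q)⁻¹ * r.2.1) ∈ Kset hF r.1
          rw [← mul_assoc, mul_inv_cancel₀ hn, one_mul]; exact r.2.2)⟩
      left_inv := fun r => by
        obtain ⟨⟨b, hb⟩, z, hz⟩ := r
        refine Sigma.subtype_ext (Subtype.ext ?_) (inv_smul_smul t z)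
        change (c * c ^ q)⁻¹ * (c * c ^ q * b) = b
        rw [← mul_assoc, inv_mul_cancel₀ hn, one_mul]
      right_inv := fun r => by
        obtain ⟨y, a, ha⟩ := r
        refine Sigma.subtype_ext (smul_inv_smul t y) ?_
        change c * c ^ q * ((c * c ^ q)⁻¹ * a) = a
        rw [← mul_assoc, mul_inv_cancel₀ hn, one_mul] }

/-- Some point has trivial centre part. -/
theorem exists_Kset_bot [Finite X] (hnt : ∃ y : X, Kset hF y ≠ skew hF)
    (hnum : (q - 1) * (isoN q m + q ^ m) < q ^ 2 * isoN q m) : ∃ y : X, Kset hF y = ⊥ := by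
  classical
  by_contra hcon
  push Not at hcon
  obtain ⟨hfin, hcard⟩ := id hF
  have hq := hF.one_lt
  have := Fintype.ofFinite X
  have := Fintype.ofFinite (skew hF)
  let I := {v : Fin m → F // v ≠ 0 ∧ herm q v v = 0}
  have := Fintype.ofFinite I
  set J := Nat.card I with hJ
  have hJ' : J = (q ^ 2 - 1) * isoN q m := card_iso_nonzero hF m
  let S : I → X → ℕ := fun v y => Nat.card {s : F // s • v.1 ∈ Aset hF y}
  have hF0 : Nat.card {c : F // c ≠ 0} = q ^ 2 - 1 := by
    have := Fintype.ofFinite F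
    rw [← hcard, Nat.card_eq_fintype_card, Nat.card_eq_fintype_card, Fintype.card_subtype_compl,
      Fintype.card_subtype_eq]
  -- one vector
  have hone : ∀ v : I, q ^ 2 * ∑ y : X, Nat.card (Kset hF y) ≤
      q ^ 2 * Nat.card X + (q - 1) * ∑ y : X, S v y := by
    intro v
    have hs := sum_fix_trv hF (X := X) v.2.1 v.2.2
    rw [finsum_eq_sum_of_fintype, finsum_eq_sum_of_fintype] at hs
    rw [← hs, Finset.mul_sum, ← Finset.add_sum_erase _ _ (Finset.mem_univ (0 : skew hF))]
    refine Nat.add_le_add (Nat.mul_le_mul_left _ (Finite.card_subtype_le _)) ?_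
    refine le_trans (Finset.sum_le_card_nsmul _ _ (∑ y : X, S v y) fun b hb => ?_) ?_
    · have hb0 : (b : F) ≠ 0 := fun h => (Finset.mem_erase.1 hb).1 (Subtype.ext h)
      have := card_fix_trv hF (X := X) v.2.1 hb0 ⟨v.2.2, b.2⟩
      rw [finsum_eq_sum_of_fintype, ← mul_assoc] at this
      rw [mul_comm]
      exact Nat.le_of_mul_le_mul_right this (Nat.mul_pos (pow_pos (by omega) _) (by omega))
    · rw [Finset.card_erase_of_mem (Finset.mem_univ _), Finset.card_univ,
        ← Nat.card_eq_fintype_card, card_skew hF, smul_eq_mul]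
  have hall := Finset.sum_le_sum (s := Finset.univ) fun v (_ : v ∈ Finset.univ) => hone v
  rw [Finset.sum_const, Finset.card_univ, ← Nat.card_eq_fintype_card, smul_eq_mul, ← hJ,
    Finset.sum_add_distrib, Finset.sum_const, Finset.card_univ, ← Nat.card_eq_fintype_card,
    smul_eq_mul, ← hJ, ← Finset.mul_sum, Finset.sum_comm, Nat.card_eq_fintype_card (α := X),
    Fintype.card_eq_sum_ones] at hall
  simp only [Finset.mul_sum, mul_one, ← Finset.sum_add_distrib] at hall
  refine absurd hall (not_le.2 ?_)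
  -- one point
  have hS : ∀ y : X, ∀ M, Nat.card {v : I // v.1 ∈ Aset hF y} ≤ M →
      ∑ v : I, S v y ≤ J + (q ^ 2 - 1) * M := by
    intro y M hM
    simp only [S]
    rw [← Nat.card_sigma, ← hF0]
    refine le_trans ?_ (Nat.add_le_add_left (Nat.mul_le_mul_left _ hM) J)
    rw [hJ, ← Nat.card_prod, ← Nat.card_sum]
    refine Nat.card_le_card_of_injective (fun r => if h0 : r.2.1 = 0 then Sum.inl r.1 else
      Sum.inr (⟨r.2.1, h0⟩, ⟨⟨r.2.1 • r.1.1, smul_ne_zero h0 r.1.2.1, by
        rw [herm_smul_left, herm_smul_right, r.1.2.2]; ring⟩, r.2.2⟩)) ?_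
    rintro ⟨v, s, hs⟩ ⟨v', s', hs'⟩ he
    dsimp only at he
    by_cases h0 : s = 0 <;> by_cases h0' : s' = 0
    · rw [dif_pos h0, dif_pos h0'] at he
      cases Sum.inl_injective he
      subst h0 h0'
      rfl
    · rw [dif_pos h0, dif_neg h0'] at he
      exact (Sum.inl_ne_inr he).elim
    · rw [dif_neg h0, dif_pos h0'] at he
      exact (Sum.inr_ne_inl he).elim
    · rw [dif_neg h0, dif_neg h0'] at he
      have he' := Prod.ext_iff.1 (Sum.inr_injective he)
      have e1 : s = s' := congrArg Subtype.val he'.1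
      subst e1
      have e2 : s • v.1 = s • v'.1 := congrArg (fun x => x.1.1) he'.2
      cases Subtype.ext (smul_right_injective _ h0 e2)
      rfl
  have hle : ∀ y : X, q ^ 2 * J + (q - 1) * ∑ v : I, S v y ≤ J * (q ^ 2 * Nat.card (Kset hF y)) := by
    intro y
    by_cases htop : Kset hF y = skew hF
    · rw [htop, card_skew hF]
      refine le_trans (Nat.add_le_add_left (Nat.mul_le_mul_left _
        (hS y J (Finite.card_subtype_le _))) _) ?_
      have h4 : 1 ≤ q ^ 2 := Nat.one_le_pow _ _ (by omega)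
      refine le_of_eq ?_
      zify [h4, show 1 ≤ q by omega]
      ring
    · refine le_trans (Nat.add_le_add_left (Nat.mul_le_mul_left _ (hS y (q ^ m) ?_)) _) ?_
      · refine le_trans (Nat.card_le_card_of_injective (fun w => (⟨w.1.1, w.2⟩ : Aset hF y))
          fun w w' h => Subtype.ext (Subtype.ext (congrArg (fun a : Aset hF y => a.1) h)))
          (card_Aset_le hF htop)
      · have hK2 : 2 ≤ Nat.card (Kset hF y) := by
          obtain ⟨a, ha, ha0⟩ := (AddSubgroup.bot_or_exists_ne_zero _).resolve_left (hcon y)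
          exact Finite.one_lt_card_iff_nontrivial.2
            ⟨⟨0, ⟨a, ha⟩, fun h => ha0 (congrArg Subtype.val h).symm⟩⟩
        refine le_trans ?_ (Nat.mul_le_mul_left _ (Nat.mul_le_mul_left _ hK2))
        rw [hJ']
        have := Nat.mul_le_mul_left (q ^ 2 - 1) hnum.le
        linarith [this]
  obtain ⟨y₀, hy₀⟩ := hnt
  simp only [← mul_assoc] at hle ⊢
  refine Finset.sum_lt_sum (fun y _ => by rw [← Finset.mul_sum]; linarith [hle y]) ⟨y₀, Finset.mem_univ _, ?_⟩
  have hK2 : 2 ≤ Nat.card (Kset hF y₀) := by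
    obtain ⟨a, ha, ha0⟩ := (AddSubgroup.bot_or_exists_ne_zero _).resolve_left (hcon y₀)
    exact Finite.one_lt_card_iff_nontrivial.2
      ⟨⟨0, ⟨a, ha⟩, fun h => ha0 (congrArg Subtype.val h).symm⟩⟩
  have h1 := hS y₀ (q ^ m) (le_trans (Nat.card_le_card_of_injective
    (fun w => (⟨w.1.1, w.2⟩ : Aset hF y₀))
    fun w w' h => Subtype.ext (Subtype.ext (congrArg (fun a : Aset hF y₀ => a.1) h)))
    (card_Aset_le hF hy₀))
  have h4 : 2 ^ 2 ≤ q ^ 2 := Nat.pow_le_pow_left hq 2
  have h5 := Nat.mul_lt_mul_of_pos_left hnum (show 0 < q ^ 2 - 1 by omega)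
  rw [hJ'] at h1 ⊢
  rw [← Finset.mul_sum]
  nlinarith [Nat.mul_le_mul_left ((q ^ 2 - 1) * isoN q m * q ^ 2) hK2,
    Nat.mul_le_mul_left (q - 1) h1, h5]

/-- The transitive end game. -/
theorem final_step [Finite X] [Nonempty X] [MulAction.IsPretransitive (SG m F q) X]
    (hn : ¬ (m + 2 = 3 ∧ q = 2)) (hm : 3 ≤ m)
    (hnofix : ∀ y : X, ∃ g : SG m F q, g • y ≠ y)
    (hsplit : ∀ y : X, (Aset hF y = ⊥ ∧ Kset hF y = ⊥) ∨ Kset hF y = skew hF)
    (hfree : (∀ y : X, Aset hF y = ⊥ ∧ Kset hF y = ⊥) → False)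
    (hfull : ∀ y : X, ¬ FullAt hF y (eV hF m))
    {T' : ℕ} (hs : 4 ≤ m → Small.{u, u} m F q T')
    (hnum : ∀ R, R + q ^ (2 * m) * q ≤ Nat.card X → CentralNum q m R T')
    (hk : Nat.card X < isoN q (m + 2)) : False := by
  classical
  obtain ⟨hfin, -⟩ := id hF
  obtain ⟨x, hx⟩ : ∃ x : X, Kset hF x ≠ skew hF := by
    by_contra h
    push Not at h
    obtain ⟨y⟩ := ‹Nonempty X›
    obtain ⟨g, hg⟩ := hnofix y
    exact hg (fixed_of_centre hF hn h g y)
  have hx' := (hsplit x).resolve_right hx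
  have hQ : Nat.card (qOrb hF x) = q ^ (2 * m) * q := by
    have := card_qOrb_mul hF x
    rwa [hx'.1, hx'.2, AddSubgroup.card_bot, AddSubgroup.card_bot, mul_one, mul_one] at this
  set R := Nat.card {z : X | Kset hF z = skew hF} with hR
  have hsum : R + q ^ (2 * m) * q ≤ Nat.card X := by
    rw [← hQ, hR, ← Nat.card_sum]
    refine Nat.card_le_card_of_injective (Sum.elim Subtype.val Subtype.val) ?_
    have hdis : ∀ z : qOrb hF x, Kset hF (z : X) ≠ skew hF := fun z h => hx (by
      rw [← h]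
      exact (congrArg Prod.snd (dat_of_mem_qOrb hF z.2)).symm)
    rintro (a | a) (b | b) h <;> simp only [Sum.elim_inl, Sum.elim_inr] at h
    · rw [Subtype.ext h]
    · exact (hdis b (h ▸ a.2)).elim
    · exact (hdis a (h.symm ▸ b.2)).elim
    · rw [Subtype.ext h]
  obtain ⟨y, hy⟩ : ∃ y : X, Kset hF y = skew hF := by
    by_contra h
    push Not at h
    exact hfree fun y => (hsplit y).resolve_right (h y)
  have hA : Aset hF y ≠ ⊤ := fun h => hfull y ((fullAt_eV_iff hF).2 ⟨h, hy⟩)
  have hR0 := central_bound hF hs hm (hnum R hsum) hy hA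
  rw [← hR] at hR0
  have hq1 := hF.one_lt
  have hN : isoN q (m + 2) = q ^ (2 * m) * q + q ^ 2 * isoN q m + 1 := by
    rw [isoN, pow_succ]
  have hXR : Nat.card X + 1 = isoN q (m + 2) := by omega
  let Rel : X → Submodule F (Fin (m + 2) → F) → Prop := fun z L =>
    ∀ (v : Fin (m + 2) → F), v ∈ L → ∀ (a : F) (h : TrvCond q v a), tS hF h • z = z
  have hRel : ∀ (g : SG m F q) z L, Rel z L → Rel (g • z) (mapL g L) := by
    rintro g z L hz _ ⟨v, hv, rfl⟩ a h
    have h0 : TrvCond q v a := by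
      refine ⟨?_, h.2⟩
      have := h.1
      change herm q (g.1.1 v) (g.1.1 v) = 0 at this
      rwa [UG_app] at this
    obtain ⟨h', e⟩ := tS_conj hF g h0
    rw [show tS hF h = tS hF h' from rfl, ← e, mul_smul, mul_smul, inv_smul_smul, hz v hv a h0]
  have hinc := card_incidence hF (X := X) Rel hRel
  have hfix : Nat.card {z : X // Rel z (eLine hF m)} = R := by
    refine Nat.card_congr (Equiv.subtypeEquivRight fun z => ⟨fun h => ?_, fun h => ?_⟩)
    · refine le_antisymm (Kset_le hF z) fun a ha => (mem_Kset hF ha).2 ?_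
      rw [← tS_eV hF ha]
      exact h _ (Submodule.mem_span_singleton_self _) a _
    · intro v hv a hv'
      obtain ⟨c, rfl⟩ := Submodule.mem_span_singleton.1 hv
      have ha : c * c ^ q * a ∈ skew hF := by
        rw [mem_skew, mul_pow, mul_pow, hF.pow_pow, hv'.2]; ring
      rw [tS_smul hF hv' (trvCond_eV hF ha), tS_eV]
      exact (mem_Kset hF ha).1 (h.symm ▸ ha)
  rw [hfix] at hinc
  have hc : ∀ z : X, Nat.card {L : isoLines (m + 2) F q // Rel z L.1} =
      Nat.card {L : isoLines (m + 2) F q // Rel y L.1} := by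
    intro z
    obtain ⟨g, rfl⟩ := MulAction.exists_smul_eq (SG m F q) y z
    refine (Nat.card_congr (Equiv.subtypeEquiv (Equiv.ofBijective
      (fun L => (⟨mapL g L.1, mapL_mem g L.2⟩ : isoLines (m + 2) F q)) ?_) fun L => ?_)).symm
    · exact (Finite.injective_iff_bijective).1 fun L L' h =>
        Subtype.ext (mapL_injective g (congrArg Subtype.val h))
    · refine ⟨fun h => hRel g y L.1 h, fun h => ?_⟩
      have := hRel g⁻¹ (g • y) (mapL g L.1) h
      rwa [inv_smul_smul, show mapL g⁻¹ (mapL g L.1) = L.1 from by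
        rw [mapL, mapL, ← Submodule.map_comp]
        convert Submodule.map_id L.1
        exact LinearMap.ext fun v => g.1.1.symm_apply_apply v] at this
  have := Fintype.ofFinite X
  rw [Nat.card_congr (β := Σ z : X, {L : isoLines (m + 2) F q // Rel z L.1})
      { toFun := fun p => ⟨p.1.1, p.1.2, p.2⟩
        invFun := fun r => ⟨(r.1, r.2.1), r.2.2⟩
        left_inv := fun _ => rfl
        right_inv := fun _ => rfl },
    Nat.card_sigma, Finset.sum_congr rfl (fun z _ => hc z), Finset.sum_const, Finset.card_univ,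
    ← Nat.card_eq_fintype_card, smul_eq_mul, ← hXR, Nat.succ_mul] at hinc
  have hdvd : Nat.card X ∣ R :=
    (Nat.dvd_add_right (Dvd.intro _ rfl)).1 (Dvd.intro _ hinc)
  have hRpos : 0 < R := by
    have : Nonempty {z : X | Kset hF z = skew hF} := ⟨⟨y, hy⟩⟩
    exact Nat.card_pos
  have := Nat.le_of_dvd hRpos hdvd
  have : 0 < q ^ (2 * m) * q := Nat.mul_pos (pow_pos (by omega) _) (by omega)
  omega

end Cfsg.Agent.MinU
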