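/-
Dimension five: the quotient has dimension three.
-/
import Mathlib
import Cfsg.Agent.MinU.Mixed

set_option autoImplicit false

namespace Cfsg.Agent.MinU

open Cfsg.Agent.Classical.U Module

universe u v

variable {F : Type u} [Field F] {q : ℕ} {m : ℕ}
variable (hF : SqField F q)
include hF

/-- Commuting isotropic vectors of a three-space are few. -/
theorem card_iso_abelian {A : AddSubgroup (Fin 3 → F)} (hiso : ∀ w ∈ A, herm q w w = 0)
    (hc : ∀ w ∈ A, ∀ w' ∈ A, herm q w w' = herm q w' w) : Nat.card A ≤ q ^ 2 := by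
  obtain ⟨hfin, hcard⟩ := id hF
  classical
  by_cases h0 : ∀ a ∈ A, ∀ b ∈ A, herm q a b = 0
  · have h1 := two_finrank_le hF (Submodule.span F (A : Set (Fin 3 → F))) (ti_span hF h0)
    refine le_trans (Nat.card_le_card_of_injective
      (fun w => (⟨w.1, Submodule.subset_span w.2⟩ : Submodule.span F (A : Set (Fin 3 → F))))
      fun w w' h => Subtype.ext
        (congrArg (fun a : Submodule.span F (A : Set (Fin 3 → F)) => a.1) h)) ?_
    rw [Module.natCard_eq_pow_finrank (K := F), hcard, ← pow_mul]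
    exact Nat.pow_le_pow_right (by have := hF.one_lt; omega) (by omega)
  push Not at h0
  obtain ⟨v, hv, v', hv', hne⟩ := h0
  have hfix : ∀ {w : Fin 3 → F}, w ∈ A → ∀ {u : Fin 3 → F}, u ∈ A → herm q w u ∈ fixF hF :=
    fun {w} hw {u} hu => by rw [mem_fixF, hF.herm_symm, hc u hu w hw]
  refine le_trans (Nat.card_le_card_of_injective
    (fun w : A => ((⟨_, hfix w.2 hv⟩ : fixF hF), (⟨_, hfix w.2 hv'⟩ : fixF hF))) ?_)
    (by rw [Nat.card_prod, card_fixF hF, sq])
  intro w w' h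
  have e1 : herm q w.1 v = herm q w'.1 v := congrArg (fun p : fixF hF × fixF hF => (p.1 : F)) h
  have e2 : herm q w.1 v' = herm q w'.1 v' := congrArg (fun p : fixF hF × fixF hF => (p.2 : F)) h
  by_contra hne'
  set d := w.1 - w'.1 with hd
  have hd0 : d ≠ 0 := fun h0 => hne' (Subtype.ext (sub_eq_zero.1 h0))
  have hdA : d ∈ A := A.sub_mem w.2 w'.2
  have hdv : herm q d v = 0 := by rw [hd, herm_sub_left, e1, sub_self]
  have hdv' : herm q d v' = 0 := by rw [hd, herm_sub_left, e2, sub_self]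
  have hvc : ¬ ∃ c : F, c • d = v := by
    rintro ⟨c, rfl⟩
    rw [herm_smul_left, hdv', mul_zero] at hne
    exact hne rfl
  have hli : LinearIndependent F ![d, v] := by
    rw [LinearIndependent.pair_iff' hd0]
    exact fun c hcv => hvc ⟨c, hcv⟩
  have := two_finrank_le hF _ (ti_span hF (S := Set.range ![d, v]) (by
    rintro _ ⟨i, rfl⟩ _ ⟨j, rfl⟩
    fin_cases i <;> fin_cases j <;>
      simp [hiso _ hdA, hiso _ hv, hdv, Forms.herm_comm_zero hF hdv]))
  rw [finrank_span_eq_card hli, Fintype.card_fin] at this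
  omega

/-- A hyperbolic pair orthogonal to an anisotropic vector. -/
theorem exists_frame {v : Fin 3 → F} (hv : herm q v v ≠ 0) :
    ∃ u u' : Fin 3 → F, IsUPair q u u' ∧ herm q u v = 0 ∧ herm q u' v = 0 ∧
      ∀ w, w = herm q w u' • u + herm q w u • u' + (herm q w v / herm q v v) • v := by
  obtain ⟨x, hx⟩ := hF.exists_norm (c := herm q v v) (hF.herm_symm v v)
  set o : Fin 1 → F := Pi.single 0 x with ho
  have hoo : herm q o o = herm q v v := by
    have ho' : o = x • Pi.single 0 1 := by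
      ext i; simp [ho, Subsingleton.elim i 0]
    rw [ho', herm_smul_left, herm_smul_right, herm_one_single, Pi.single_eq_same, one_pow, mul_one,
      ← pow_succ', hx]
  obtain ⟨g, hg⟩ := exists_SUG_map hF (m := 3) (by omega) (v := (iW o : Fin 3 → F)) (v' := v)
    (by rwa [herm_iW _ _ hF.q_ne_zero, hoo]) (by rw [herm_iW _ _ hF.q_ne_zero, hoo])
  refine ⟨g.1.1 (eV hF 1), g.1.1 (fV hF 1), ⟨?_, ?_, ?_⟩, ?_, ?_, fun w => ?_⟩
  · rw [UG_app]; exact h_ee hF
  · rw [UG_app]; exact h_ff hF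
  · rw [UG_app]; exact h_ef hF
  · rw [← hg, UG_app]; exact h_ew hF _
  · rw [← hg, UG_app]; exact h_fw hF _
  obtain ⟨z, rfl⟩ := g.1.1.surjective w
  obtain ⟨⟨⟨a, b⟩, c⟩, rfl⟩ := (ph hF 1).surjective z
  have hx0 : x ≠ 0 := by rintro rfl; rw [zero_pow (Nat.succ_ne_zero q)] at hx; exact hv hx.symm
  have hc : c = (c 0 / x) • o := by
    ext i
    rw [Subsingleton.elim i 0]
    simp [ho, hx0]
  rw [← hg, UG_app, UG_app, UG_app, UG_app, ← ph_eV hF, ← ph_fV hF, ← ph_iW hF o, herm_ph, herm_ph,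
    herm_ph, herm_ph, ← map_smul, ← map_smul, ← map_smul, ← map_smul, ← map_smul, ← map_smul,
    ← map_add, ← map_add, ← map_add, ← map_add]
  congr 2
  rw [hc]
  simp only [herm_smul_left, hoo, herm_zero_left, hF.herm_zero_right, zero_pow hF.q_ne_zero, one_pow, Prod.smul_mk,
    smul_eq_mul, smul_zero, Prod.mk_add_mk, Prod.mk.injEq, mul_zero, mul_one, zero_add, add_zero,
    mul_div_cancel_right₀ _ hv, and_self]

/-- An invariant commuting set with an anisotropic vector lies on a line. -/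
theorem stab_absurd {A : AddSubgroup (Fin 3 → F)}
    (hinv : ∀ v ∈ A, herm q v v ≠ 0 → ∀ g : ↥(SUG 3 F q), g.1.1 v = v → ∀ w ∈ A, g.1.1 w ∈ A)
    (hc : ∀ w ∈ A, ∀ w' ∈ A, herm q w w' = herm q w' w)
    {v w : Fin 3 → F} (hv : v ∈ A) (hvv : herm q v v ≠ 0) (hw : w ∈ A)
    (hwv : ∀ c : F, c • v ≠ w) : False := by
  obtain ⟨d, hd, hdq⟩ := hF.exists_skew
  have hmove : ∀ v ∈ A, herm q v v ≠ 0 → ∀ w ∈ A, ∀ r : Fin 3 → F, herm q r r = 0 →
      herm q r v = 0 → (d * herm q w r) • r ∈ A := by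
    intro v hv hvv w hw r hr hrv
    have hcond : TrvCond q r d := ⟨hr, hdq⟩
    have h1 := hinv v hv hvv ⟨trv hF hcond, det_uni hF _⟩ (by
      change (trv hF hcond).1 v = v
      rw [trv_apply, Forms.herm_comm_zero hF hrv, mul_zero, zero_smul, add_zero]) w hw
    have h2 := A.sub_mem h1 hw
    change (trv hF hcond).1 w - w ∈ A at h2
    rwa [trv_apply, add_sub_cancel_left] at h2
  have step : ∀ v ∈ A, herm q v v ≠ 0 → ∀ w ∈ A,
      herm q w w * herm q v v = herm q w v * herm q w v ^ q := by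
    intro v hv hvv w hw
    obtain ⟨u, u', hp, huv, hu'v, hdec⟩ := exists_frame hF hvv
    set α := herm q w u'
    set β := herm q w u
    have hx := hmove v hv hvv w hw u hp.1 huv
    have hx' := hmove v hv hvv w hw u' hp.2.1 hu'v
    have hu'u : herm q u' u = 1 := (hp.symm hF).2.2
    have e1 : β * α ^ q = α * β ^ q := by
      have := hc _ hx _ hx'
      simp only [herm_smul_left, herm_smul_right, hp.2.2, hu'u, mul_one, mul_pow, hdq] at this
      refine mul_left_cancel₀ (mul_ne_zero hd hd) ?_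
      linear_combination -this
    have e2 : β * β ^ q + β * β ^ q = 0 := by
      have := hc _ hw _ hx
      rw [herm_smul_left, herm_smul_right, mul_pow, hdq, ← hF.herm_symm w u] at this
      refine (mul_eq_zero.1 (show d * (β * β ^ q + β * β ^ q) = 0 by
        linear_combination -this)).resolve_left hd
    have e3 : α * β ^ q + α * β ^ q = 0 := by
      rcases eq_or_ne β 0 with h0 | h0
      · rw [h0, zero_pow hF.q_ne_zero, mul_zero, add_zero]
      · refine mul_left_cancel₀ h0 ?_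
        linear_combination α * e2
    set γ := herm q w v / herm q v v
    have hvu : herm q v u = 0 := Forms.herm_comm_zero hF huv
    have hvu' : herm q v u' = 0 := Forms.herm_comm_zero hF hu'v
    have hγ : herm q v v ^ q = herm q v v := hF.herm_symm v v
    rw [hdec w]
    simp only [herm_add_left, hF.herm_add_right, herm_smul_left, herm_smul_right, hp.1, hp.2.1,
      hp.2.2, hu'u, huv, hu'v, hvu, hvu', mul_zero, add_zero, zero_add, mul_one]
    rw [mul_pow, hγ]
    linear_combination herm q v v * e3 + herm q v v * e1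
  obtain ⟨u, u', hp, huv, hu'v, hdec⟩ := exists_frame hF hvv
  obtain ⟨p, p', hpp, hpv, hp'v, hne⟩ : ∃ p p' : Fin 3 → F, IsUPair q p p' ∧ herm q p v = 0 ∧
      herm q p' v = 0 ∧ herm q w p ≠ 0 := by
    by_cases h : herm q w u = 0
    · refine ⟨u', u, hp.symm hF, hu'v, huv, fun h' => hwv (herm q w v / herm q v v) ?_⟩
      conv_rhs => rw [hdec w, h, h', zero_smul, zero_smul, zero_add, zero_add]
    · exact ⟨u, u', hp, huv, hu'v, h⟩
  set x := (d * herm q w p) • p with hx
  have hxA : x ∈ A := hmove v hv hvv w hw p hpp.1 hpv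
  have hx'A := hmove v hv hvv x hxA p' hpp.2.1 hp'v
  have hvp : herm q v p = 0 := Forms.herm_comm_zero hF hpv
  have hvv' : herm q (v + x) (v + x) = herm q v v := by
    simp only [hx, herm_add_left, hF.herm_add_right, herm_smul_left, herm_smul_right, hpp.1, hpv,
      hvp, mul_zero, add_zero]
  have := step (v + x) (A.add_mem hv hxA) (by rwa [hvv']) _ hx'A
  simp only [hx, herm_smul_left, herm_smul_right, hF.herm_add_right, hpp.2.1, hp'v, hpp.2.2,
    (hpp.symm hF).2.2, mul_zero, zero_mul, add_zero, zero_add, mul_one] at this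
  have hdw := mul_ne_zero hd hne
  refine mul_ne_zero (mul_ne_zero (mul_ne_zero hd hdw) (pow_ne_zero q hdw))
    (pow_ne_zero q (mul_ne_zero (mul_ne_zero hd hdw) (pow_ne_zero q hdw))) ?_
  simp only [mul_pow, hF.pow_pow] at this ⊢
  linear_combination -this

/-- The special group is transitive on isotropic vectors of a three-space. -/
theorem exists_SUG_iso {v v' : Fin 3 → F} (hv : v ≠ 0) (hv0 : herm q v v = 0) (hv' : v' ≠ 0)
    (hv'0 : herm q v' v' = 0) : ∃ g : ↥(SUG 3 F q), g.1.1 v = v' := by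
  obtain ⟨hp, -⟩ := pair_spec hF (m := 1)
  obtain ⟨t, x, hx, et⟩ := exists_SUG_line hF hv hv0 hp.ne_zero hp.1
  obtain ⟨t', x', hx', et'⟩ := exists_SUG_line hF hv' hv'0 hp.ne_zero hp.1
  have hr : x' / x ≠ 0 := div_ne_zero hx' hx
  obtain ⟨δ, hδ⟩ := exists_det_lev hF (m := 1) le_rfl hr
  set D : ↥(SUG 3 F q) := lev hF hr δ hδ with hD
  have hDe : D.1.1 (eV hF 1) = (x' / x) • eV hF 1 := by
    rw [← ph_eV hF, hD, lev_apply, map_zero, ← map_smul]
    simp
  refine ⟨t'⁻¹ * D * t, ?_⟩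
  simp only [Subgroup.coe_mul, Subgroup.coe_inv, LinearEquiv.mul_apply]
  rw [et, map_smul, hDe, smul_smul, mul_div_cancel₀ _ hx,
    show (t'.1.1)⁻¹ = t'.1.1.symm from rfl, LinearEquiv.symm_apply_eq, et']

variable {X : Type v} [UAct F q X m]

theorem Aset_comm {y : X} (hK : Kset hF y = ⊥) :
    ∀ w ∈ Aset hF y, ∀ w' ∈ Aset hF y, herm q w w' = herm q w' w := by
  intro w hw w' hw'
  have := comm_mem_Kset hF hw hw'
  rw [hK, AddSubgroup.mem_bot, sub_eq_zero] at this
  exact this.symm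

/-- The part of a translate in a set without zero. -/
theorem card_trans_inter [Finite X] {y : X} {s : AddSubgroup (Fin m → F) × AddSubgroup F}
    (hs : s ∈ trans hF y) {t : Set (Fin m → F)} (ht : (0 : Fin m → F) ∉ t) :
    Nat.card ↥((s.1 : Set (Fin m → F)) ∩ t) ≤ Nat.card (Aset hF y) - 1 := by
  obtain ⟨hfin, -⟩ := id hF
  classical
  obtain ⟨l, hl, g, hd, rfl⟩ := hs
  rw [← card_Aset_lev hF hl g hd y]
  have := Fintype.ofFinite (Aset hF (lev hF hl g hd • y))
  refine le_trans (Nat.card_le_card_of_injective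
    (β := {w : Aset hF (lev hF hl g hd • y) // w ≠ 0})
    (fun x => ⟨⟨x.1, x.2.1⟩, fun h => ht (by
      have e : x.1 = 0 := congrArg Subtype.val h
      rw [← e]; exact x.2.2)⟩) fun x x' h => Subtype.ext
        (congrArg (fun w : {w : Aset hF (lev hF hl g hd • y) // w ≠ 0} => w.1.1) h)) ?_
  rw [Nat.card_eq_fintype_card, Nat.card_eq_fintype_card, Fintype.card_subtype_compl,
    Fintype.card_subtype_eq]

/-- Covering vectors by translates bounds the number of points. -/
theorem cover_ge [Finite X] {y : X} (hK : Kset hF y = ⊥) {t : Set (Fin m → F)} {e : ℕ}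
    (h : e * Nat.card t ≤ Nat.card (trans hF y) * (Nat.card (Aset hF y) - 1)) :
    e * Nat.card t * (q ^ (2 * m) * q) ≤
      Nat.card X * (Nat.card (Aset hF y) * (Nat.card (Aset hF y) - 1)) := by
  have h3 := trans_mul_le_card hF y
  have h4 := card_qOrb_mul hF y
  rw [hK, AddSubgroup.card_bot, mul_one] at h4
  calc e * Nat.card t * (q ^ (2 * m) * q)
      ≤ Nat.card (trans hF y) * (Nat.card (Aset hF y) - 1) * (q ^ (2 * m) * q) :=
        Nat.mul_le_mul_right _ h
    _ = Nat.card (trans hF y) * Nat.card (qOrb hF y) *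
          (Nat.card (Aset hF y) * (Nat.card (Aset hF y) - 1)) := by rw [← h4]; ring
    _ ≤ _ := Nat.mul_le_mul_right _ h3

variable {X : Type v} [UAct F q X 3] [Finite X]

set_option maxHeartbeats 1000000 in
/-- A point with trivial centre part is regular in dimension five. -/
theorem five_bot (hk : Nat.card X < isoN q 5) {y : X} (hK : Kset hF y = ⊥) : Aset hF y = ⊥ := by
  classical
  by_contra hA
  obtain ⟨hfin, hcard⟩ := id hF
  have hq := hF.one_lt
  have hT : isoN q 5 = q ^ 7 + q ^ 5 + q ^ 2 + 1 := by rw [isoN, isoN_three]; ring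
  have hc := Aset_comm hF hK
  have ha3 : Nat.card (Aset hF y) ≤ q ^ 3 := card_Aset_le hF (by
    rw [hK]; intro h
    have := card_skew hF
    rw [← h, AddSubgroup.card_bot] at this
    omega)
  set a := Nat.card (Aset hF y) with ha
  have hiso3 : isoN q 3 = q ^ 3 + 1 := isoN_three q
  have hprod : a ≤ q ^ 2 → a * (a - 1) ≤ q ^ 2 * (q ^ 2 - 1) := fun h =>
    Nat.mul_le_mul h (Nat.sub_le_sub_right h 1)
  have hmem : ∀ {l : F} (hl : l ≠ 0) (g : UG 3 F q)
      (hd : (LinearEquiv.det g.1 : F) = l ^ q * l⁻¹) {v : Fin 3 → F}, v ∈ Aset hF y →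
      l ^ q • g.1 v ∈ (dat hF (lev hF hl g hd • y)).1 := by
    intro l hl g hd v hv
    change _ ∈ Aset hF (lev hF hl g hd • y)
    rw [Aset_lev]
    exact ⟨v, hv, rfl⟩
  by_cases hiso : ∀ w ∈ Aset hF y, herm q w w = 0
  · have h2 := hprod (card_iso_abelian hF hiso hc)
    obtain ⟨v, hv, hv0⟩ := (AddSubgroup.bot_or_exists_ne_zero _).resolve_left hA
    have hcov := card_le_cover (trans hF y) (fun s => (s.1 : Set (Fin 3 → F)))
      {w : Fin 3 → F | w ≠ 0 ∧ herm q w w = 0} (fun w hw => by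
        obtain ⟨l, hl, g, hd, e⟩ := exists_lev_iso hF (m := 3) (Or.inl le_rfl) hv0 (hiso v hv)
          hw.1 hw.2
        exact ⟨_, ⟨l, hl, g, hd, rfl⟩, e ▸ hmem hl g hd hv⟩)
      (fun s hs => card_trans_inter hF hs (by simp))
    have hI : Nat.card {w : Fin 3 → F | w ≠ 0 ∧ herm q w w = 0} = (q ^ 2 - 1) * (q ^ 3 + 1) := by
      rw [← hiso3]; exact card_iso_nonzero hF 3
    have h5 := cover_ge hF hK (e := 1) (by rwa [one_mul])
    rw [hI, one_mul] at h5
    have h6 := h5.trans (Nat.mul_le_mul_left _ h2)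
    have h4 : 2 ^ 2 ≤ q ^ 2 := Nat.pow_le_pow_left hq 2
    have h7 : (q ^ 3 + 1) * q ^ 5 * ((q ^ 2 - 1) * q ^ 2) ≤ Nat.card X * ((q ^ 2 - 1) * q ^ 2) := by
      refine le_trans (le_of_eq ?_) (h6.trans (le_of_eq ?_)) <;> ring
    have h8 := Nat.le_of_mul_le_mul_right h7 (Nat.mul_pos (by omega) (by positivity))
    rw [hT] at hk
    nlinarith [Nat.mul_le_mul_left (q ^ 7) hq, Nat.pow_lt_pow_right hq (show 2 < 7 by norm_num)]
  push Not at hiso
  obtain ⟨v, hv, hvv⟩ := hiso
  have hM : Nat.card {w : Fin 3 → F | herm q w w ≠ 0} + (q ^ 2 - 1) * (q ^ 3 + 1) + 1 = q ^ 6 := by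
    have := card_noniso hF 3
    rw [hiso3] at this
    exact this
  set M := Nat.card {w : Fin 3 → F | herm q w w ≠ 0} with hMdef
  have hM' : (M : ℤ) = (q : ℤ) ^ 6 - q ^ 5 + q ^ 3 - q ^ 2 := by
    have h1 : ((M + (q ^ 2 - 1) * (q ^ 3 + 1) + 1 : ℕ) : ℤ) = (q ^ 6 : ℕ) := congrArg _ hM
    push_cast [Nat.one_le_pow 2 q (by omega)] at h1
    linear_combination h1
  by_cases ha2 : a ≤ q ^ 2
  · have hcov := card_le_cover (trans hF y) (fun s => (s.1 : Set (Fin 3 → F)))
      {w : Fin 3 → F | herm q w w ≠ 0} (fun w hw => by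
        obtain ⟨l, hl, g, hd, e⟩ := exists_lev_noniso hF (m := 3) (by omega) hvv hw
        exact ⟨_, ⟨l, hl, g, hd, rfl⟩, e ▸ hmem hl g hd hv⟩)
      (fun s hs => card_trans_inter hF hs (by simp))
    have h5 := cover_ge hF hK (e := 1) (by rwa [one_mul])
    rw [one_mul] at h5
    have h6 := h5.trans (Nat.mul_le_mul_left _ (hprod ha2))
    rw [hT] at hk
    have h4 : 1 ≤ q ^ 2 := Nat.one_le_pow _ _ (by omega)
    zify [h4] at h6 hk
    rw [hM'] at h6
    have hq' : (2 : ℤ) ≤ q := by exact_mod_cast hq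
    have hpos : (0 : ℤ) < (q : ℤ) ^ 2 * ((q : ℤ) ^ 2 - 1) := by nlinarith
    have h7 : (q : ℤ) ^ 7 * (q ^ 2 - q + 1) * (q ^ 2 * (q ^ 2 - 1)) ≤
        Nat.card X * (q ^ 2 * (q ^ 2 - 1)) := le_trans (le_of_eq (by ring)) h6
    have h8 := le_of_mul_le_mul_right h7 hpos
    nlinarith [pow_le_pow_left₀ (by norm_num) hq' 5, pow_le_pow_left₀ (by norm_num) hq' 2,
      mul_nonneg (pow_nonneg (show (0:ℤ) ≤ q by omega) 7) (sub_nonneg.2 hq')]
  obtain ⟨w, hw, hwv⟩ : ∃ w ∈ Aset hF y, ∀ c : F, c • v ≠ w := by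
    by_contra h
    push Not at h
    choose c hc' using h
    refine ha2 ?_
    rw [ha, ← hcard]
    exact Nat.card_le_card_of_injective (fun x => c x.1 x.2) fun x x' hx => Subtype.ext (by
      rw [← hc' x.1 x.2, ← hc' x'.1 x'.2]; exact congrArg (· • v) hx)
  obtain ⟨v₁, hv₁, hvv₁, g₀, hg₀, w₁, hw₁, hw₁'⟩ : ∃ v ∈ Aset hF y, herm q v v ≠ 0 ∧
      ∃ g : ↥(SUG 3 F q), g.1.1 v = v ∧ ∃ w ∈ Aset hF y, g.1.1 w ∉ Aset hF y := by
    by_contra h
    push Not at h
    exact stab_absurd hF h hc hv hvv hw hwv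
  have hcov := card_le_cover_two (trans hF y) (fun s => (s.1 : Set (Fin 3 → F)))
    {w : Fin 3 → F | herm q w w ≠ 0} (fun w hw => by
      obtain ⟨l, hl, g, hd, e⟩ := exists_lev_noniso hF (m := 3) (by omega) hvv₁ hw
      obtain ⟨h', e'⟩ := lev_mul_lev hF hl one_ne_zero g g₀.1 hd (by rw [mem_SUG.1 g₀.2]; simp)
      refine ⟨_, ⟨l, hl, g, hd, rfl⟩, _, ⟨_, mul_ne_zero hl one_ne_zero, _, h', rfl⟩, ?_,
        e ▸ hmem hl g hd hv₁, ?_⟩
      · intro heq
        rw [← e', mul_smul] at heq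
        have h1 : Aset hF (lev hF hl g hd • y) =
            Aset hF (lev hF hl g hd • inner hF 3 g₀ • y) := congrArg Prod.fst heq
        rw [Aset_lev, Aset_lev] at h1
        have h2 : Aset hF y = Aset hF (inner hF 3 g₀ • y) :=
          AddSubgroup.map_injective (lmap_injective hF hl g) h1
        have h3 := mem_Aset_inner hF (g := g₀) hw₁
        rw [← h2] at h3
        exact hw₁' h3
      · have := hmem (mul_ne_zero hl one_ne_zero) (g * g₀.1) h' hv₁
        rwa [Subgroup.coe_mul, LinearEquiv.mul_apply, hg₀,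
          show (l * 1) ^ q = l ^ q by rw [mul_one], e] at this)
    (fun s hs => card_trans_inter hF hs (by simp))
  have h5 := cover_ge hF hK (e := 2) hcov
  have h6 := h5.trans (Nat.mul_le_mul_left _ (Nat.mul_le_mul ha3 (Nat.sub_le_sub_right ha3 1)))
  rw [hT] at hk
  have hk' : Nat.card X ≤ q ^ 7 + q ^ 5 + q ^ 2 := Nat.le_of_lt_succ hk
  have h7 := h6.trans (Nat.mul_le_mul_right _ hk')
  have h4 : 1 ≤ q ^ 3 := Nat.one_le_pow _ _ (by omega)
  zify [h4] at h7
  rw [hM'] at h7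
  have hq' : (2 : ℤ) ≤ q := by exact_mod_cast hq
  have hpos : (0 : ℤ) < (q : ℤ) ^ 5 := by positivity
  have hkey : 0 < (q : ℤ) ^ 8 - 2 * q ^ 7 - q ^ 6 + 3 * q ^ 5 - 2 * q ^ 4 + 1 := by
    rcases (show (q : ℤ) = 2 ∨ 3 ≤ (q : ℤ) by omega) with h | h
    · rw [h]; norm_num
    · nlinarith [mul_nonneg (pow_nonneg (show (0:ℤ) ≤ q by omega) 6) (sub_nonneg.2 h),
        mul_nonneg (pow_nonneg (show (0:ℤ) ≤ q by omega) 4) (sub_nonneg.2 h),
        mul_nonneg (pow_nonneg (show (0:ℤ) ≤ q by omega) 7) (sub_nonneg.2 h)]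
  have hp := mul_pos hpos hkey
  ring_nf at hp h7
  linarith

/-- In dimension five a point is regular or fixed by the centre. -/
theorem five_split (hk : Nat.card X < isoN q 5) (y : X) :
    (Aset hF y = ⊥ ∧ Kset hF y = ⊥) ∨ Kset hF y = skew hF := by
  classical
  obtain ⟨hfin, hcard⟩ := id hF
  have hq := hF.one_lt
  have hT : isoN q 5 = q ^ 7 + q ^ 5 + q ^ 2 + 1 := by rw [isoN, isoN_three]; ring
  by_cases htop : Kset hF y = skew hF
  · exact Or.inr htop
  by_cases hbot : Kset hF y = ⊥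
  · exact Or.inl ⟨five_bot hF hk hbot, hbot⟩
  exfalso
  have hk2 : Nat.card X < (q + 1) * q ^ (2 * 3) := by
    rw [hT] at hk
    have : q ^ 5 + q ^ 2 + 1 ≤ q ^ 6 := by
      have : q ^ 2 < q ^ 5 := Nat.pow_lt_pow_right hq (by norm_num)
      nlinarith [Nat.mul_le_mul_left (q ^ 5) hq]
    rw [show (q + 1) * q ^ (2 * 3) = q ^ 7 + q ^ 6 by ring]
    omega
  have hA : Aset hF y ≠ ⊥ := fun h =>
    (triv_Aset_cases hF (by omega) hk2 h).elim hbot htop
  have hnum : (q - 1) * (isoN q 3 + q ^ 3) < q ^ 2 * isoN q 3 := by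
    rw [isoN_three]
    calc (q - 1) * (q ^ 3 + 1 + q ^ 3) ≤ q * (q ^ 3 + 1 + q ^ 3) :=
          Nat.mul_le_mul_right _ (Nat.sub_le _ _)
      _ < q ^ 2 * (q ^ 3 + 1) := by nlinarith [Nat.pow_le_pow_left hq 3, Nat.mul_le_mul_left (q ^ 4) hq]
  obtain ⟨x, hx⟩ := exists_Kset_bot hF (X := X) ⟨y, htop⟩ hnum
  have hxQ : Nat.card (qOrb hF x) = q ^ 7 := by
    have := card_qOrb_mul hF x
    rw [five_bot hF hk hx, hx, AddSubgroup.card_bot, AddSubgroup.card_bot, mul_one, mul_one] at this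
    rw [this]; ring
  have hdis : Nat.card {z : X | dat hF z ∈ trans hF y} + q ^ 7 ≤ Nat.card X := by
    rw [← hxQ, ← Nat.card_sum]
    refine Nat.card_le_card_of_injective (Sum.elim Subtype.val Subtype.val) ?_
    have key : ∀ (z : {z : X | dat hF z ∈ trans hF y}) (z' : qOrb hF x), (z : X) ≠ z' := by
      rintro ⟨z, l, hl, g, hd, hz⟩ ⟨z', hz'⟩ (rfl : z = z')
      have e1 : Kset hF (lev hF hl g hd • y) = Kset hF z := congrArg Prod.snd hz
      have e2 : Kset hF z = Kset hF x := congrArg Prod.snd (dat_of_mem_qOrb hF hz')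
      have e3 := card_Kset_lev hF hl g hd y
      rw [e1, e2, hx, AddSubgroup.card_bot] at e3
      exact hbot (AddSubgroup.eq_bot_of_card_eq _ e3.symm)
    rintro (a | a) (b | b) h <;> simp only [Sum.elim_inl, Sum.elim_inr] at h
    · rw [Subtype.ext h]
    · exact (key a b h).elim
    · exact (key b a h.symm).elim
    · rw [Subtype.ext h]
  have ha3 := card_Aset_le hF htop
  have hN : ∀ (l : F) (hl : l ≠ 0) (g : UG 3 F q) (hd : (LinearEquiv.det g.1 : F) = l ^ q * l⁻¹),
      q ^ 2 - 1 ≤ Nat.card (innerTrans hF (lev hF hl g hd • y)) := by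
    intro l hl g hd
    set z := lev hF hl g hd • y
    have hca : Nat.card (Aset hF z) = Nat.card (Aset hF y) := card_Aset_lev hF hl g hd y
    obtain ⟨v, hv, hv0⟩ := (AddSubgroup.bot_or_exists_ne_zero (Aset hF z)).resolve_left (fun h => by
      rw [h, AddSubgroup.card_bot] at hca
      exact hA (AddSubgroup.eq_bot_of_card_eq _ hca.symm))
    obtain ⟨t, ht0, ht, hmove⟩ : ∃ t : Set (Fin 3 → F), (0 : Fin 3 → F) ∉ t ∧
        (q ^ 2 - 1) * (q ^ 3 + 1) ≤ Nat.card t ∧
        ∀ w ∈ t, ∃ g : ↥(SUG 3 F q), g.1.1 v = w := by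
      by_cases hvv : herm q v v = 0
      · exact ⟨{w | w ≠ 0 ∧ herm q w w = 0}, by simp, by
          rw [← isoN_three q]; exact (card_iso_nonzero hF 3).ge,
          fun w hw => exists_SUG_iso hF hv0 hvv hw.1 hw.2⟩
      · refine ⟨{w | herm q w w = herm q v v}, by simp [Ne.symm hvv], ?_,
          fun w hw => exists_SUG_map hF (by omega) hvv hw.symm⟩
        have := card_value_formula hF (hF.herm_symm v v) hvv 3
        change (q : ℤ) * Nat.card {w : Fin 3 → F | herm q w w = herm q v v} = _ at this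
        have h4 : 1 ≤ q ^ 2 := Nat.one_le_pow _ _ (by omega)
        have hq' : (2 : ℤ) ≤ q := by exact_mod_cast hq
        zify [h4]
        refine le_of_mul_le_mul_left ?_ (show (0 : ℤ) < q by omega)
        rw [this]
        ring_nf
        nlinarith [pow_nonneg (show (0 : ℤ) ≤ q by omega) 4]
    have hcov := card_le_cover (innerTrans hF z) (fun A => (A : Set (Fin 3 → F))) t
      (b := q ^ 3 - 1) (fun w hw => by
        obtain ⟨g', e⟩ := hmove w hw
        exact ⟨_, ⟨g', rfl⟩, e ▸ mem_Aset_inner hF hv⟩)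
      (fun A hA' => by
        obtain ⟨g', rfl⟩ := hA'
        refine (card_trans_inter hF (y := z) (s := dat hF (inner hF 3 g' • z))
          ⟨1, one_ne_zero, g'.1, by rw [mem_SUG.1 g'.2]; simp, rfl⟩ ht0).trans ?_
        exact Nat.sub_le_sub_right (hca.le.trans ha3) 1)
    have h8 : (q ^ 2 - 1) * (q ^ 3 - 1) ≤
        Nat.card (innerTrans hF z) * (q ^ 3 - 1) :=
      le_trans (Nat.mul_le_mul_left _ (by omega)) (ht.trans hcov)
    have h4 : 2 ^ 3 ≤ q ^ 3 := Nat.pow_le_pow_left hq 3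
    exact Nat.le_of_mul_le_mul_right h8 (by omega)
  have h1 := proper_ge' hF (by omega) hbot htop hN
  have h2 := h1.trans (Nat.mul_le_mul_left _ ha3)
  rw [hT] at hk
  have h3 : Nat.card {z : X | dat hF z ∈ trans hF y} ≤ q ^ 5 + q ^ 2 := by omega
  have h4 := h2.trans (Nat.mul_le_mul_right _ h3)
  have h5 : 1 ≤ q ^ 2 := Nat.one_le_pow _ _ (by omega)
  zify [h5] at h4
  have hq' : (2 : ℤ) ≤ q := by exact_mod_cast hq
  have hkey : (0 : ℤ) < (q : ℤ) ^ 6 - q ^ 4 - q ^ 3 - q ^ 2 := by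
    nlinarith [pow_le_pow_left₀ (by norm_num) hq' 4, pow_le_pow_left₀ (by norm_num) hq' 2,
      mul_nonneg (pow_nonneg (show (0:ℤ) ≤ q by omega) 5) (sub_nonneg.2 hq'),
      mul_nonneg (pow_nonneg (show (0:ℤ) ≤ q by omega) 4) (sub_nonneg.2 hq'),
      mul_nonneg (pow_nonneg (show (0:ℤ) ≤ q by omega) 3) (sub_nonneg.2 hq')]
  have hp := mul_pos (show (0 : ℤ) < (q : ℤ) ^ 3 by positivity) hkey
  ring_nf at hp h4
  linarith

end Cfsg.Agent.MinU
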