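/-
Dimension four: the invariants of the points.
-/
import Mathlib
import Cfsg.Agent.MinU.Five

set_option autoImplicit false

namespace Cfsg.Agent.MinU

open Cfsg.Agent.Classical.U Cfsg.Agent.MinIndex Module

universe u v

variable {F : Type u} [Field F] {q : ℕ} {m : ℕ}
variable (hF : SqField F q)
include hF

/-- Orthogonal isotropic vectors are dependent up to dimension three. -/
theorem ti_line (hm : m ≤ 3) {u v : Fin m → F} (hu : u ≠ 0) (huu : herm q u u = 0)
    (hvv : herm q v v = 0) (huv : herm q u v = 0) : ∃ c : F, c • u = v := by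
  by_contra h
  push Not at h
  have hli : LinearIndependent F ![u, v] := by
    rw [LinearIndependent.pair_iff' hu]
    exact h
  have := two_finrank_le hF _ (ti_span hF (S := Set.range ![u, v]) (by
    rintro _ ⟨i, rfl⟩ _ ⟨j, rfl⟩
    fin_cases i <;> fin_cases j <;> simp [huu, hvv, huv, Forms.herm_comm_zero hF huv]))
  rw [finrank_span_eq_card hli, Fintype.card_fin] at this
  omega

variable {X : Type v} [UAct F q X 2] [Finite X]

theorem mem_trans_Aset {y : X} {l : F} (hl : l ≠ 0) (g : UG 2 F q)
    (hd : (LinearEquiv.det g.1 : F) = l ^ q * l⁻¹) {v : Fin 2 → F} (hv : v ∈ Aset hF y) :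
    l ^ q • g.1 v ∈ (dat hF (lev hF hl g hd • y)).1 := by
  change _ ∈ Aset hF (lev hF hl g hd • y)
  rw [Aset_lev]
  exact ⟨v, hv, rfl⟩

theorem inner_mem_trans (g : ↥(SUG 2 F q)) (y : X) :
    dat hF (inner hF 2 g • y) ∈ trans hF y :=
  ⟨1, one_ne_zero, g.1, by rw [mem_SUG.1 g.2]; simp, rfl⟩

/-- In dimension four a point with trivial centre part has a totally isotropic plane of translates. -/
theorem four_bot (hk : Nat.card X < (q + 1) * (q ^ 3 + 1)) {y : X} (hK : Kset hF y = ⊥) :
    (∀ w ∈ Aset hF y, herm q w w = 0) ∧ Nat.card (Aset hF y) = q ^ 2 ∧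
      (q + 1) * q ^ 3 ≤ Nat.card {z : X | dat hF z ∈ trans hF y} ∧
      ∀ w : Fin 2 → F, w ≠ 0 → herm q w w = 0 →
        ∃ z : X, dat hF z ∈ trans hF y ∧ w ∈ Aset hF z := by
  classical
  obtain ⟨hfin, hcard⟩ := id hF
  have hq := hF.one_lt
  have hc := Aset_comm hF hK
  have hne : Kset hF y ≠ skew hF := by
    rw [hK]; intro h
    have := card_skew hF
    rw [← h, AddSubgroup.card_bot] at this
    omega
  have ha2 : Nat.card (Aset hF y) ≤ q ^ 2 := card_Aset_le hF hne
  have h4 : 1 ≤ q ^ 2 := Nat.one_le_pow _ _ (by omega)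
  have horb : Nat.card (qOrb hF y) * Nat.card (Aset hF y) = q ^ 5 := by
    have := card_qOrb_mul hF y
    rw [hK, AddSubgroup.card_bot, mul_one] at this
    rw [this]; ring
  have hT : Nat.card X < q ^ 4 + q ^ 3 + q + 1 := by
    calc Nat.card X < (q + 1) * (q ^ 3 + 1) := hk
      _ = _ := by ring
  have hA : Aset hF y ≠ ⊥ := by
    intro h
    rw [h, AddSubgroup.card_bot, mul_one] at horb
    have := Finite.card_subtype_le (α := X) (fun z => z ∈ qOrb hF y)
    change Nat.card (qOrb hF y) ≤ _ at this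
    rw [horb] at this
    rcases (show q = 2 ∨ 3 ≤ q by omega) with h2 | h3
    · subst h2; norm_num at this hT; omega
    · nlinarith [Nat.mul_le_mul_left (q ^ 4) h3, Nat.mul_le_mul_left (q ^ 3) hq,
        Nat.pow_lt_pow_right hq (show 1 < 4 by norm_num)]
  have hI : Nat.card {w : Fin 2 → F | w ≠ 0 ∧ herm q w w = 0} = (q ^ 2 - 1) * (q + 1) := by
    rw [← isoN_two q]; exact card_iso_nonzero hF 2
  have hiso : ∀ w ∈ Aset hF y, herm q w w = 0 := by
    by_contra hcon
    push Not at hcon
    obtain ⟨v, hv, hvv⟩ := hcon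
    have hcov := card_le_cover (trans hF y) (fun s => (s.1 : Set (Fin 2 → F)))
      {w : Fin 2 → F | herm q w w ≠ 0} (fun w hw => by
        obtain ⟨l, hl, g, hd, e⟩ := exists_lev_noniso hF (m := 2) le_rfl hvv hw
        exact ⟨_, ⟨l, hl, g, hd, rfl⟩, e ▸ mem_trans_Aset hF hl g hd hv⟩)
      (fun s hs => card_trans_inter hF hs (by simp))
    have h5 := cover_ge hF hK (e := 1) (by rwa [one_mul])
    rw [one_mul] at h5
    have hM := card_noniso hF 2
    rw [isoN_two] at hM
    change Nat.card {w : Fin 2 → F | herm q w w ≠ 0} + _ + _ = _ at hM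
    set M := Nat.card {w : Fin 2 → F | herm q w w ≠ 0}
    by_cases h3 : 3 ≤ q
    · have h6 := h5.trans (Nat.mul_le_mul_left _ (Nat.mul_le_mul ha2 (Nat.sub_le_sub_right ha2 1)))
      have hM' : (M : ℤ) = ((q : ℤ) ^ 2 - 1) * (q * (q - 1)) := by
        have h1 : ((M + (q ^ 2 - 1) * (q + 1) + 1 : ℕ) : ℤ) = (q ^ (2 * 2) : ℕ) := congrArg _ hM
        push_cast [h4] at h1
        linear_combination h1
      zify [h4] at h6 hT
      rw [hM'] at h6
      have hq' : (3 : ℤ) ≤ q := by exact_mod_cast h3
      have hpos : (0 : ℤ) < (q : ℤ) ^ 2 * ((q : ℤ) ^ 2 - 1) := by nlinarith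
      have h7 : (q : ℤ) ^ 4 * (q - 1) * (q ^ 2 * (q ^ 2 - 1)) ≤
          Nat.card X * (q ^ 2 * (q ^ 2 - 1)) := le_trans (le_of_eq (by ring)) h6
      have h8 := le_of_mul_le_mul_right h7 hpos
      nlinarith [mul_nonneg (pow_nonneg (show (0:ℤ) ≤ q by omega) 4) (sub_nonneg.2 hq'),
        mul_nonneg (pow_nonneg (show (0:ℤ) ≤ q by omega) 3) (sub_nonneg.2 hq'),
        mul_nonneg (pow_nonneg (show (0:ℤ) ≤ q by omega) 1) (sub_nonneg.2 hq'),
        mul_nonneg (pow_nonneg (show (0:ℤ) ≤ q by omega) 2) (sub_nonneg.2 hq')]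
    · obtain rfl : q = 2 := by omega
      have h2 : (2 : F) = 0 := by
        have := Fintype.ofFinite F
        have h := FiniteField.cast_card_eq_zero F
        rw [← Nat.card_eq_fintype_card, hcard] at h
        norm_num at h
        have : (2 : F) * 2 = 0 := by linear_combination h
        exact (mul_self_eq_zero).1 this
      have hM6 : M = 6 := by norm_num at hM; omega
      rw [hM6] at h5
      norm_num at h5 hT ha2 horb
      have ha4 : Nat.card (Aset hF y) = 4 := by
        interval_cases h : Nat.card (Aset hF y) <;> omega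
      have hfib : ∀ s ∈ trans hF y,
          Nat.card ↥((s.1 : Set (Fin 2 → F)) ∩ {w : Fin 2 → F | w ≠ 0 ∧ herm 2 w w = 0}) ≤ 1 := by
        rintro _ ⟨l, hl, g, hd, rfl⟩
        set z := lev hF hl g hd • y
        have hKz : Kset hF z = ⊥ := AddSubgroup.eq_bot_of_card_eq _ (by
          rw [card_Kset_lev hF hl g hd, hK, AddSubgroup.card_bot])
        have hcz := Aset_comm hF hKz
        rw [Finite.card_le_one_iff_subsingleton]
        refine ⟨fun ⟨x, hxA, hx0, hx⟩ ⟨x', hx'A, hx'0, hx'⟩ => Subtype.ext ?_⟩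
        by_contra hne
        change x ≠ x' at hne
        have hsum : herm 2 (x + x') (x + x') = 0 := by
          rw [herm_add_left, hF.herm_add_right, hF.herm_add_right, hx, hx', hcz x' hx'A x hxA]
          linear_combination herm 2 x x' * h2
        have hx2 : x + x' ≠ 0 := fun h => hne (by
          have e : x = -x' := eq_neg_of_add_eq_zero_left h
          rw [e, neg_eq_iff_add_eq_zero, ← two_smul F, h2, zero_smul])
        have hlv : herm 2 (l ^ 2 • g.1 v) (l ^ 2 • g.1 v) ≠ 0 := by
          rw [herm_smul_left, herm_smul_right, UG_app]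
          exact mul_ne_zero (pow_ne_zero _ hl) (mul_ne_zero (pow_ne_zero _ (pow_ne_zero _ hl)) hvv)
        have hmem := mem_trans_Aset hF hl g hd hv
        let five : Fin 5 → Aset hF z :=
          ![0, ⟨x, hxA⟩, ⟨x', hx'A⟩, ⟨x + x', (Aset hF z).add_mem hxA hx'A⟩, ⟨_, hmem⟩]
        have hinj : Function.Injective five := by
          intro i j hij
          have hij' := congrArg Subtype.val hij
          have hxs : x + x' ≠ x := fun h => hx'0 (add_eq_left.1 h)
          have hx's : x + x' ≠ x' := fun h => hx0 (add_eq_right.1 h)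
          fin_cases i <;> fin_cases j <;>
            first
              | rfl
              | (exfalso; simp [five] at hij'
                 first
                   | exact hij'.elim hl fun h => hvv (by rw [h, herm_zero_left])
                   | exact hx0 hij' | exact hx0 hij'.symm | exact hx'0 hij' | exact hx'0 hij'.symm
                   | exact hne hij' | exact hne hij'.symm | exact hx2 hij' | exact hx2 hij'.symm
                   | exact hxs hij' | exact hxs hij'.symm | exact hx's hij' | exact hx's hij'.symm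
                   | (rw [hij'] at hlv; simp [hx, hx', hsum] at hlv)
                   | (rw [← hij'] at hlv; simp [hx, hx', hsum] at hlv))
        have := Nat.card_le_card_of_injective five hinj
        rw [card_Aset_lev hF hl g hd, ha4, Nat.card_fin] at this
        omega
      obtain ⟨x, hx, hx'⟩ : ∃ x ∈ Aset hF y, x ≠ 0 ∧ herm 2 x x = 0 := by
        by_contra h
        push Not at h
        have hlt : ∀ x ∈ Aset hF y, x ≠ 0 → herm 2 x x = 1 := by
          intro x hx hx0
          have h0 := h x hx hx0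
          have h1 := hF.herm_symm x x
          have h5' : herm 2 x x * (herm 2 x x - 1) = 0 := by linear_combination h1
          exact sub_eq_zero.1 ((mul_eq_zero.1 h5').resolve_left h0)
        obtain ⟨⟨b, hb⟩, hb0, hbv⟩ : ∃ b : Aset hF y, b ≠ 0 ∧ b ≠ ⟨v, hv⟩ := by
          by_contra h'
          push Not at h'
          have : Nat.card (Aset hF y) ≤ Nat.card (Fin 2) := Nat.card_le_card_of_surjective
            ![0, ⟨v, hv⟩] fun b => by
              rcases eq_or_ne b 0 with rfl | hb
              · exact ⟨0, rfl⟩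
              · exact ⟨1, (h' b hb).symm⟩
          rw [ha4, Nat.card_fin] at this
          omega
        have hb0' : b ≠ 0 := fun e => hb0 (Subtype.ext e)
        have hv0 : v ≠ 0 := fun e => hvv (by rw [e, herm_zero_left])
        have hs : v + b ≠ 0 := fun e => hbv (Subtype.ext (by
          have e' : v = -b := eq_neg_of_add_eq_zero_left e
          change b = v
          rw [e', eq_neg_iff_add_eq_zero, ← two_smul F, h2, zero_smul]))
        have := hlt _ ((Aset hF y).add_mem hv hb) hs
        rw [herm_add_left, hF.herm_add_right, hF.herm_add_right, hlt v hv hv0, hlt b hb hb0',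
          hc b hb v hv] at this
        exact one_ne_zero (α := F) (by linear_combination (herm 2 v b + 1) * h2 - this)
      have hcov2 := card_le_cover (trans hF y) (fun s => (s.1 : Set (Fin 2 → F)))
        {w : Fin 2 → F | w ≠ 0 ∧ herm 2 w w = 0} (fun w hw => by
          obtain ⟨l, hl, g, hd, e⟩ := exists_lev_iso hF (m := 2) (Or.inr ⟨rfl, h2⟩) hx'.1 hx'.2
            hw.1 hw.2
          exact ⟨_, ⟨l, hl, g, hd, rfl⟩, e ▸ mem_trans_Aset hF hl g hd hx⟩) hfib
      rw [hI, mul_one] at hcov2
      norm_num at hcov2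
      have h9 := trans_mul_le_card hF y
      rw [ha4] at horb
      have h8 : Nat.card (qOrb hF y) = 8 := by
        have h := card_qOrb_mul hF y
        rw [ha4, hK, AddSubgroup.card_bot] at h
        norm_num at h ⊢
        omega
      rw [h8, Nat.card_coe_set_eq] at h9
      omega
  obtain ⟨v, hv, hv0⟩ := (AddSubgroup.bot_or_exists_ne_zero _).resolve_left hA
  have hmain : q + 1 ≤ Nat.card (trans hF y) ∧ (Nat.card (Aset hF y) = q ^ 2 →
      ∀ w : Fin 2 → F, w ≠ 0 → herm q w w = 0 → ∃ s ∈ trans hF y, w ∈ s.1) := by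
    by_cases horth : ∀ x ∈ Aset hF y, ∀ x' ∈ Aset hF y, herm q x x' = 0
    · refine ⟨?_, fun ha w hw hww => ?_⟩
      · rw [← isoN_two q, ← card_isoLines hF 2, ← mul_one (Nat.card (trans hF y))]
        refine card_le_cover (trans hF y)
          (fun s => {L | ∃ w ∈ s.1, w ≠ 0 ∧ L = Submodule.span F {w}}) _ (fun L hL => ?_) ?_
        · obtain ⟨w, ⟨hw, hww⟩, rfl⟩ := hL
          obtain ⟨g, c, hc', e⟩ := exists_SUG_line hF hv0 (hiso v hv) hw hww
          refine ⟨_, inner_mem_trans hF g y, g.1.1 v, mem_Aset_inner hF hv,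
            fun h => hv0 (g.1.1.injective (h.trans (map_zero _).symm)), ?_⟩
          rw [e]
          exact (Submodule.span_singleton_smul_eq (IsUnit.mk0 _ hc') _).symm
        · rintro _ ⟨l, hl, g, hd, rfl⟩
          rw [Finite.card_le_one_iff_subsingleton]
          refine ⟨fun ⟨L, hL, _⟩ ⟨L', hL', _⟩ => Subtype.ext ?_⟩
          obtain ⟨x, hx, hx0, rfl⟩ := hL
          obtain ⟨x', hx', hx'0, rfl⟩ := hL'
          change x ∈ Aset hF (lev hF hl g hd • y) at hx
          change x' ∈ Aset hF (lev hF hl g hd • y) at hx'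
          rw [Aset_lev] at hx hx'
          obtain ⟨a, ha, rfl⟩ := hx
          obtain ⟨a', ha', rfl⟩ := hx'
          have e : ∀ a ∈ Aset hF y, ∀ a' ∈ Aset hF y,
              herm q (lmap l g a) (lmap l g a') = 0 := fun a ha a' ha' => by
            change herm q (l ^ q • g.1 a) (l ^ q • g.1 a') = 0
            rw [herm_smul_left, herm_smul_right, UG_app, horth a ha a' ha', mul_zero, mul_zero]
          obtain ⟨c, hc'⟩ := ti_line hF (by norm_num) hx0 (e a ha a ha) (e a' ha' a' ha')
            (e a ha a' ha')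
          change Submodule.span F {lmap l g a} = Submodule.span F {lmap l g a'}
          rw [← hc']
          refine (Submodule.span_singleton_smul_eq (IsUnit.mk0 _ ?_) _).symm
          exact fun h => hx'0 (by rw [← hc', h, zero_smul])
      · have hline : ∀ c : F, c • v ∈ Aset hF y := by
          choose f hf using fun x : Aset hF y =>
            ti_line hF (by norm_num) hv0 (hiso v hv) (hiso x.1 x.2) (horth v hv x.1 x.2)
          have hfi : Function.Injective f := fun a b h => Subtype.ext (by rw [← hf a, ← hf b, h])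
          have hfb := hfi.bijective_of_nat_card_le (by rw [hcard, ha])
          intro c
          obtain ⟨x, rfl⟩ := hfb.2 c
          rw [hf]; exact x.2
        obtain ⟨g, c, hc', e⟩ := exists_SUG_line hF hv0 (hiso v hv) hw hww
        refine ⟨_, inner_mem_trans hF g y, ?_⟩
        have := mem_Aset_inner hF (g := g) (hline c⁻¹)
        rwa [map_smul, e, smul_smul, inv_mul_cancel₀ hc', one_smul] at this
    · push Not at horth
      obtain ⟨x, hx, x', hx', hne'⟩ := horth
      have h2 : (2 : F) = 0 := by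
        have h := hiso _ ((Aset hF y).add_mem hx hx')
        rw [herm_add_left, hF.herm_add_right, hF.herm_add_right, hiso x hx, hiso x' hx',
          hc x' hx' x hx] at h
        refine (mul_eq_zero.1 (show (2 : F) * herm q x x' = 0 by linear_combination h)).resolve_right
          hne'
      have hcov : ∀ w : Fin 2 → F, w ≠ 0 → herm q w w = 0 → ∃ s ∈ trans hF y, w ∈ s.1 := by
        intro w hw hww
        obtain ⟨l, hl, g, hd, e⟩ := exists_lev_iso hF (m := 2) (Or.inr ⟨rfl, h2⟩) hv0 (hiso v hv)
          hw hww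
        exact ⟨_, ⟨l, hl, g, hd, rfl⟩, e ▸ mem_trans_Aset hF hl g hd hv⟩
      refine ⟨?_, fun _ => hcov⟩
      have h := card_le_cover (trans hF y) (fun s => (s.1 : Set (Fin 2 → F)))
        {w : Fin 2 → F | w ≠ 0 ∧ herm q w w = 0} (fun w hw => hcov w hw.1 hw.2)
        (fun s hs => card_trans_inter hF hs (by simp))
      rw [hI] at h
      have h' := h.trans (Nat.mul_le_mul_left _ (Nat.sub_le_sub_right ha2 1))
      rw [mul_comm] at h'
      have : 2 ^ 2 ≤ q ^ 2 := Nat.pow_le_pow_left hq 2
      exact Nat.le_of_mul_le_mul_right h' (by omega)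
  have hge := trans_mul_le hF y
  have hle : (q + 1) * q ^ 5 ≤
      Nat.card {z : X | dat hF z ∈ trans hF y} * Nat.card (Aset hF y) := by
    rw [← horb, ← mul_assoc]
    exact Nat.mul_le_mul_right _ ((Nat.mul_le_mul_right _ hmain.1).trans hge)
  have ha : Nat.card (Aset hF y) = q ^ 2 := by
    refine le_antisymm ha2 (not_lt.1 fun hlt => ?_)
    obtain ⟨p, k, hp, -, hqk⟩ := hF.exists_char
    have hdvd : Nat.card (Aset hF y) ∣ p ^ (k * 4) := by
      rw [pow_mul, ← hqk]; exact Dvd.intro _ (card_B_mul hF y)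
    obtain ⟨j, -, hj⟩ := (Nat.dvd_prime_pow hp).1 hdvd
    rw [hj, show q ^ 2 = p ^ (k * 2) by rw [hqk, pow_mul]] at hlt
    have h2 := card_le_of_ne hp hlt
    rw [← hj, show p ^ (k * 2) = q ^ 2 by rw [hqk, pow_mul]] at h2
    have hZ : Nat.card {z : X | dat hF z ∈ trans hF y} ≤ Nat.card X := Finite.card_subtype_le _
    have h3 : 2 * ((q + 1) * q ^ 5) ≤ Nat.card X * q ^ 2 :=
      calc 2 * ((q + 1) * q ^ 5) ≤ 2 * (Nat.card X * Nat.card (Aset hF y)) :=
            Nat.mul_le_mul_left _ (hle.trans (Nat.mul_le_mul_right _ hZ))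
        _ = Nat.card X * (2 * Nat.card (Aset hF y)) := by ring
        _ ≤ _ := Nat.mul_le_mul_left _ h2
    have h5 : 2 * (q + 1) * q ^ 3 ≤ Nat.card X :=
      Nat.le_of_mul_le_mul_right (le_trans (le_of_eq (by ring)) h3) (pow_pos (by omega) 2)
    nlinarith [Nat.pow_lt_pow_right hq (show 1 < 3 by norm_num)]
  refine ⟨hiso, ha, ?_, fun w hw hww => ?_⟩
  · rw [ha] at hle
    exact Nat.le_of_mul_le_mul_right (le_trans (le_of_eq (by ring)) hle) (pow_pos (by omega) 2)
  · obtain ⟨s, hs, hws⟩ := hmain.2 ha w hw hww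
    obtain ⟨z, hz, -⟩ := trans_spec hF hs
    exact ⟨z, hz ▸ hs, by rw [← hz] at hws; exact hws⟩

/-- In dimension four every centre part is trivial. -/
theorem four_split (hk : Nat.card X < (q + 1) * (q ^ 3 + 1))
    (hnofix : ∀ y : X, ∃ g : SG 2 F q, g • y ≠ y)
    (hfull : ∀ y : X, ¬ FullAt hF y (eV hF 2)) (y : X) : Kset hF y = ⊥ := by
  classical
  obtain ⟨hfin, hcard⟩ := id hF
  have hq := hF.one_lt
  by_contra hbot
  have hnum : (q - 1) * (isoN q 2 + q ^ 2) < q ^ 2 * isoN q 2 := by
    rw [isoN_two]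
    have h1 : 1 ≤ q := hq.le
    zify [h1]
    nlinarith
  obtain ⟨x₁, hx₁⟩ : ∃ x : X, Kset hF x ≠ skew hF := by
    by_contra h
    push Not at h
    obtain ⟨g, hg⟩ := hnofix y
    exact hg (fixed_of_centre hF (by omega) h g y)
  obtain ⟨x, hx⟩ := exists_Kset_bot hF (X := X) ⟨x₁, hx₁⟩ hnum
  obtain ⟨-, -, hS, -⟩ := four_bot hF hk hx
  set R := Nat.card {z : X | Kset hF z ≠ ⊥} with hR
  have hsum : Nat.card {z : X | dat hF z ∈ trans hF x} + R ≤ Nat.card X := by
    rw [hR, ← Nat.card_sum]
    refine Nat.card_le_card_of_injective (Sum.elim Subtype.val Subtype.val) ?_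
    have key : ∀ z : {z : X | dat hF z ∈ trans hF x}, Kset hF (z : X) = ⊥ := by
      rintro ⟨z, l, hl, g, hd, hz⟩
      have e : Kset hF (lev hF hl g hd • x) = Kset hF z := congrArg Prod.snd hz
      exact AddSubgroup.eq_bot_of_card_eq _ (by
        rw [← e, card_Kset_lev hF hl g hd, hx, AddSubgroup.card_bot])
    rintro (a | a) (b | b) h <;> simp only [Sum.elim_inl, Sum.elim_inr] at h
    · rw [Subtype.ext h]
    · exact (b.2 (h ▸ key a)).elim
    · exact (a.2 (h.symm ▸ key b)).elim
    · rw [Subtype.ext h]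
  have hRq : R ≤ q := by
    have : (q + 1) * (q ^ 3 + 1) = (q + 1) * q ^ 3 + q + 1 := by ring
    omega
  by_cases htop : Kset hF y = skew hF
  · have hA : Aset hF y ≠ ⊤ := fun h => hfull y ((fullAt_eV_iff hF).2 ⟨h, htop⟩)
    set d := Nat.card (Bset hF y) with hd
    set c := Nat.card (trans hF y) with hc
    have hKtr : ∀ s ∈ trans hF y, s.2 ≠ ⊥ := by
      rintro _ ⟨l, hl, g, hd', rfl⟩ h
      have := card_Kset_lev hF hl g hd' y
      change Kset hF (lev hF hl g hd' • y) = ⊥ at h
      rw [h, htop, card_skew hF, AddSubgroup.card_bot] at this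
      omega
    have hcd : c * d ≤ R := by
      rw [hd, ← card_qOrb_central hF htop]
      refine (trans_mul_le hF y).trans (Nat.card_mono (Set.toFinite _) ?_)
      intro z hz
      exact hKtr _ hz
    have hBbot : Bset hF y ≠ ⊥ := by
      rw [Bset, Ne, orthG_eq_bot_iff _ (reForm_sep hF) (reForm_symm hF)]
      exact hA
    obtain ⟨b, hb, hb0⟩ := (AddSubgroup.bot_or_exists_ne_zero _).resolve_left hBbot
    let dual : AddSubgroup (Fin 2 → F) × AddSubgroup F → Set (Fin 2 → F) := fun s =>
      (dualA hF s.1 : Set (Fin 2 → F))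
    have hdual : ∀ s ∈ trans hF y, Nat.card {w : Fin 2 → F | w ∈ dual s ∧ w ≠ 0} ≤ d - 1 := by
      rintro _ ⟨l, hl, g, hd', rfl⟩
      have hsz : Nat.card (dualA hF (Aset hF (lev hF hl g hd' • y))) = d := by
        have h1 := card_B_mul hF (lev hF hl g hd' • y)
        rw [card_Aset_lev hF hl g hd', ← card_B_mul hF y] at h1
        exact Nat.eq_of_mul_eq_mul_left Nat.card_pos h1
      have := Fintype.ofFinite (dualA hF (Aset hF (lev hF hl g hd' • y)))
      refine le_trans (Nat.card_le_card_of_injective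
        (β := {w : dualA hF (Aset hF (lev hF hl g hd' • y)) // w ≠ 0})
        (fun x => ⟨⟨x.1, x.2.1⟩, fun h => x.2.2 (congrArg Subtype.val h)⟩) fun x x' h => Subtype.ext
          (congrArg (fun w : {w : dualA hF (Aset hF (lev hF hl g hd' • y)) // w ≠ 0} => w.1.1) h)) ?_
      rw [← hsz, Nat.card_eq_fintype_card, Nat.card_eq_fintype_card, Fintype.card_subtype_compl,
        Fintype.card_subtype_eq]
    have hcov : q + 1 ≤ c * (d - 1) := by
      by_cases hbb : herm q b b = 0
      · rw [← isoN_two q, ← card_isoLines hF 2]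
        refine card_le_cover (trans hF y)
          (fun s => {L | ∃ w : Fin 2 → F, w ∈ dual s ∧ w ≠ 0 ∧ L = Submodule.span F {w}}) _
          (fun L hL => ?_) fun s hs => le_trans ?_ (hdual s hs)
        · obtain ⟨w, ⟨hw, hww⟩, rfl⟩ := hL
          obtain ⟨g, c', hc', e⟩ := exists_SUG_line hF hb0 hbb hw hww
          refine ⟨_, inner_mem_trans hF g y, g.1.1 b, Bset_inner hF hb,
            fun h => hb0 (g.1.1.injective (h.trans (map_zero _).symm)), ?_⟩
          rw [e]
          exact (Submodule.span_singleton_smul_eq (IsUnit.mk0 _ hc') _).symm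
        · choose w hw using fun L : ↥({L | ∃ w : Fin 2 → F, w ∈ dual s ∧ w ≠ 0 ∧
            L = Submodule.span F {w}} ∩ isoLines 2 F q) => L.2.1
          exact Nat.card_le_card_of_injective
            (fun L => (⟨w L, (hw L).1, (hw L).2.1⟩ : {w : Fin 2 → F | w ∈ dual s ∧ w ≠ 0}))
            fun L L' h => Subtype.ext (by
              rw [(hw L).2.2, (hw L').2.2, show w L = w L' from congrArg Subtype.val h])
      · refine le_trans ?_ (card_le_cover (trans hF y) dual {w : Fin 2 → F | herm q w w ≠ 0}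
          (fun w hw => ?_) fun s hs => le_trans ?_ (hdual s hs))
        · have hM := card_noniso hF 2
          rw [isoN_two] at hM
          change Nat.card {w : Fin 2 → F | herm q w w ≠ 0} + _ + _ = _ at hM
          have h4 : 1 ≤ q ^ 2 := Nat.one_le_pow _ _ (by omega)
          zify [h4] at hM ⊢
          have hq' : (2 : ℤ) ≤ q := by exact_mod_cast hq
          have hMv : (Nat.card {w : Fin 2 → F | herm q w w ≠ 0} : ℤ) =
              ((q : ℤ) ^ 2 - 1) * (q * (q - 1)) := by linear_combination hM
          have h3 : (3 : ℤ) ≤ (q : ℤ) ^ 2 - 1 := by nlinarith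
          have h5 : (q : ℤ) ≤ q * (q - 1) := by nlinarith
          rw [hMv]
          nlinarith [mul_le_mul h3 h5 (by omega) (by omega)]
        · obtain ⟨l, hl, g, hdet, e⟩ := exists_lev_noniso hF (m := 2) le_rfl hbb hw
          have hl' : (l ^ q)⁻¹ ≠ 0 := inv_ne_zero (pow_ne_zero q hl)
          have hdet' : (LinearEquiv.det g.1 : F) = ((l ^ q)⁻¹) ^ q * ((l ^ q)⁻¹)⁻¹ := by
            rw [hdet, inv_inv, inv_pow, hF.pow_pow, mul_comm]
          refine ⟨_, ⟨(l ^ q)⁻¹, hl', g, hdet', rfl⟩, ?_⟩
          have := Bset_lev hF hl' g hdet' hb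
          rw [inv_inv, e] at this
          exact this
        · exact Nat.card_mono (Set.toFinite _) fun w hw =>
            ⟨hw.1, fun h => hw.2 (by rw [h, herm_zero_left])⟩
    have : c * (d - 1) ≤ c * d := Nat.mul_le_mul_left _ (Nat.sub_le _ _)
    omega
  · have h1 := card_qOrb_mul hF y
    have horb : Nat.card (qOrb hF y) ≤ q := by
      refine le_trans (Nat.card_mono (Set.toFinite _) ?_) hRq
      intro z hz
      rw [Set.mem_setOf_eq, show Kset hF z = Kset hF y from
        congrArg Prod.snd (dat_of_mem_qOrb hF hz)]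
      exact hbot
    have ha := card_Aset_le hF htop
    have hκ : Nat.card (Kset hF y) < q := by
      refine lt_of_lt_of_le ?_ (card_skew hF).le
      exact Set.ncard_lt_ncard (s := (Kset hF y : Set F)) (t := (skew hF : Set F))
        (lt_of_le_of_ne (Kset_le hF y) fun h => htop (SetLike.coe_injective h)) (Set.toFinite _)
    have h2 := Nat.mul_le_mul horb (Nat.mul_le_mul ha hκ.le)
    rw [h1] at h2
    have h45 := Nat.pow_lt_pow_right hq (show 4 < 5 by norm_num)
    ring_nf at h2 h45
    omega

end Cfsg.Agent.MinU
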