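/-
Dimension four: there is no small action.
-/
import Mathlib
import Cfsg.Agent.MinU.FourA

set_option autoImplicit false

namespace Cfsg.Agent.MinU

open Cfsg.Agent.Classical.U Cfsg.Agent.MinIndex Module

universe u v

variable {F : Type u} [Field F] {q : ℕ}
variable (hF : SqField F q)
include hF

omit hF in
/-- A scalar of norm one as a unitary map of the plane. -/
noncomputable def scalUG {μ : F} (hμ : μ * μ ^ q = 1) : UG 2 F q :=
  ⟨LinearEquiv.smulOfNeZero F (Fin 2 → F) μ (left_ne_zero_of_mul_eq_one hμ), fun a b => by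
    simp only [LinearEquiv.smulOfNeZero_apply]
    change herm q (μ • a) (μ • b) = herm q a b
    rw [herm_smul_left, herm_smul_right, ← mul_assoc, hμ, one_mul]⟩

omit hF in
theorem scalUG_apply {μ : F} (hμ : μ * μ ^ q = 1) (w : Fin 2 → F) :
    (scalUG hμ).1 w = μ • w := rfl

omit hF in
theorem det_scalUG {μ : F} (hμ : μ * μ ^ q = 1) :
    (LinearEquiv.det (scalUG hμ).1 : F) = μ ^ 2 := by
  rw [LinearEquiv.coe_det]
  rw [show (scalUG hμ).1.toLinearMap = μ • LinearMap.id from LinearMap.ext fun x => rfl,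
    LinearMap.det_smul, LinearMap.det_id, Module.finrank_fin_fun, mul_one]

/-- A commuting plane of isotropic vectors is closed under the subfield. -/
theorem fixF_closed {A : AddSubgroup (Fin 2 → F)} (hiso : ∀ w ∈ A, herm q w w = 0)
    (hc : ∀ w ∈ A, ∀ w' ∈ A, herm q w w' = herm q w' w) (ha : Nat.card A = q ^ 2) {c : F}
    (hcf : c ∈ fixF hF) {w : Fin 2 → F} (hw : w ∈ A) : c • w ∈ A := by
  classical
  obtain ⟨hfin, hcard⟩ := id hF
  have hq := hF.one_lt
  by_cases h0 : ∀ x ∈ A, ∀ x' ∈ A, herm q x x' = 0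
  · obtain ⟨v, hv, hv0⟩ : ∃ v ∈ A, v ≠ 0 := by
      refine (AddSubgroup.bot_or_exists_ne_zero A).resolve_left fun h => ?_
      rw [h, AddSubgroup.card_bot] at ha
      have : 1 < q ^ 2 := Nat.one_lt_pow (by omega) hq
      omega
    choose f hf using fun x : A =>
      ti_line hF (by norm_num) hv0 (hiso v hv) (hiso x.1 x.2) (h0 v hv x.1 x.2)
    have hfi : Function.Injective f := fun a b h => Subtype.ext (by rw [← hf a, ← hf b, h])
    have hfb := hfi.bijective_of_nat_card_le (by rw [hcard, ha])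
    obtain ⟨x, hx⟩ := hfb.2 (c * f ⟨w, hw⟩)
    have h := hf x
    rw [hx, mul_smul, hf ⟨w, hw⟩] at h
    exact h.symm ▸ x.2
  push Not at h0
  obtain ⟨v, hv, v', hv', hne⟩ := h0
  have hfix : ∀ {w : Fin 2 → F}, w ∈ A → ∀ {u : Fin 2 → F}, u ∈ A → herm q w u ∈ fixF hF :=
    fun {w} hw {u} hu => by rw [mem_fixF, hF.herm_symm, hc u hu w hw]
  have hsep : ∀ x : Fin 2 → F, herm q x v = 0 → herm q x v' = 0 → x = 0 := by
    intro x h1 h2
    have hli : LinearIndependent F ![v, v'] := by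
      rw [LinearIndependent.pair_iff' (fun h => hne (by rw [h, herm_zero_left]))]
      intro a ha'
      exact hne (by rw [← ha', herm_smul_right, hiso v hv, mul_zero])
    have hspan := hli.span_eq_top_of_card_eq_finrank (by simp)
    refine hF.eq_zero_of_herm x fun z => ?_
    have hz : z ∈ Submodule.span F (Set.range ![v, v']) := hspan ▸ Submodule.mem_top
    induction hz using Submodule.span_induction with
    | mem z hz =>
      obtain ⟨i, rfl⟩ := hz
      fin_cases i <;> simp [h1, h2]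
    | zero => exact hF.herm_zero_right x
    | add a b _ _ ia ib => rw [hF.herm_add_right, ia, ib, add_zero]
    | smul t a _ ia => rw [herm_smul_right, ia, mul_zero]
  let f : A → fixF hF × fixF hF := fun x => (⟨_, hfix x.2 hv⟩, ⟨_, hfix x.2 hv'⟩)
  have hfi : Function.Injective f := by
    intro x x' h
    have e1 : herm q x.1 v = herm q x'.1 v := congrArg (fun p : fixF hF × fixF hF => (p.1 : F)) h
    have e2 : herm q x.1 v' = herm q x'.1 v' := congrArg (fun p : fixF hF × fixF hF => (p.2 : F)) h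
    exact Subtype.ext (sub_eq_zero.1 (hsep _ (by rw [herm_sub_left, e1, sub_self])
      (by rw [herm_sub_left, e2, sub_self])))
  have hfb := hfi.bijective_of_nat_card_le (by rw [Nat.card_prod, card_fixF hF, ha, sq])
  obtain ⟨x, hx⟩ := hfb.2 (⟨c * herm q w v, (fixF hF).mul_mem hcf (hfix hw hv)⟩,
    ⟨c * herm q w v', (fixF hF).mul_mem hcf (hfix hw hv')⟩)
  have e1 : herm q x.1 v = c * herm q w v :=
    congrArg (fun p : fixF hF × fixF hF => (p.1 : F)) hx
  have e2 : herm q x.1 v' = c * herm q w v' :=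
    congrArg (fun p : fixF hF × fixF hF => (p.2 : F)) hx
  have : c • w = x.1 := sub_eq_zero.1 (hsep _ (by rw [herm_sub_left, herm_smul_left, e1, sub_self])
    (by rw [herm_sub_left, herm_smul_left, e2, sub_self]))
  exact this ▸ x.2

variable {X : Type v} [UAct F q X 2] [Finite X]

/-- Each isotropic vector lies in the invariant of at most one orbit. -/
theorem four_count (hk : Nat.card X < (q + 1) * (q ^ 3 + 1)) (hK : ∀ y : X, Kset hF y = ⊥)
    {w : Fin 2 → F} (hw : w ≠ 0) (hww : herm q w w = 0) :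
    Nat.card {z : X // w ∈ Aset hF z} ≤ q ^ 3 := by
  classical
  obtain ⟨hfin, hcard⟩ := id hF
  have hq := hF.one_lt
  by_contra hlt
  push Not at hlt
  let I := {v : Fin 2 → F // v ≠ 0 ∧ herm q v v = 0}
  have := Fintype.ofFinite I
  have := Fintype.ofFinite X
  have hJ : Nat.card I = (q ^ 2 - 1) * (q + 1) := by
    rw [← isoN_two q]; exact card_iso_nonzero hF 2
  have ha : ∀ y : X, Nat.card (Aset hF y) = q ^ 2 := fun y => (four_bot hF hk (hK y)).2.1
  have horb : ∀ y : X, Nat.card (qOrb hF y) = q ^ 3 := fun y => by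
    have h := card_qOrb_mul hF y
    rw [hK y, AddSubgroup.card_bot, mul_one, ha y] at h
    exact Nat.eq_of_mul_eq_mul_right (pow_pos (by omega) 2) (h.trans (by ring))
  have hsub : ∀ (v : Fin 2 → F) (z : X), v ∈ Aset hF z → ∀ z' ∈ qOrb hF z, v ∈ Aset hF z' :=
    fun v z hz z' hz' => by
      rwa [show Aset hF z' = Aset hF z from congrArg Prod.fst (dat_of_mem_qOrb hF hz')]
  have hlow : ∀ v : I, q ^ 3 ≤ Nat.card {z : X // v.1 ∈ Aset hF z} := by
    intro v
    obtain ⟨y⟩ : Nonempty X := by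
      by_contra h
      rw [not_nonempty_iff] at h
      have : Nat.card {z : X // w ∈ Aset hF z} = 0 := Nat.card_of_isEmpty
      omega
    obtain ⟨z, -, hz⟩ := (four_bot hF hk (hK y)).2.2.2 v.1 v.2.1 v.2.2
    rw [← horb z]
    exact Nat.card_mono (Set.toFinite {z : X | v.1 ∈ Aset hF z}) (hsub _ z hz)
  have htwo : 2 * q ^ 3 ≤ Nat.card {z : X // w ∈ Aset hF z} := by
    obtain ⟨⟨z, hz⟩⟩ : Nonempty {z : X // w ∈ Aset hF z} := (Nat.card_pos_iff.1 (by omega)).1
    obtain ⟨z', hz', hne⟩ : ∃ z', w ∈ Aset hF z' ∧ z' ∉ qOrb hF z := by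
      by_contra h
      push Not at h
      have : Nat.card {z : X // w ∈ Aset hF z} ≤ Nat.card (qOrb hF z) :=
        Nat.card_mono (Set.toFinite (qOrb hF z)) h
      rw [horb] at this
      omega
    rw [two_mul]
    nth_rw 1 [← horb z]
    rw [← horb z', ← Nat.card_sum]
    refine Nat.card_le_card_of_injective (Sum.elim (fun r => ⟨r.1, hsub _ _ hz _ r.2⟩)
      fun r => ⟨r.1, hsub _ _ hz' _ r.2⟩) ?_
    have key : ∀ (r : qOrb hF z) (r' : qOrb hF z'), (r : X) ≠ r' := by
      rintro ⟨r, p, rfl⟩ ⟨r', p', rfl⟩ h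
      refine hne ⟨hMul hF (hInv hF p') p, ?_⟩
      change tE hF p • z = tE hF p' • z' at h
      change tE hF (hMul hF (hInv hF p') p) • z = z'
      rw [← tE_mul, ← tE_inv, mul_smul, h, inv_smul_smul]
    rintro (a | a) (b | b) h <;> simp only [Sum.elim_inl, Sum.elim_inr, Subtype.mk.injEq] at h
    · rw [Subtype.ext h]
    · exact (key a b h).elim
    · exact (key b a h.symm).elim
    · rw [Subtype.ext h]
  have hup : ∑ v : I, Nat.card {z : X // v.1 ∈ Aset hF z} ≤ Nat.card X * (q ^ 2 - 1) := by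
    rw [← Nat.card_sigma]
    refine le_trans (Nat.card_le_card_of_injective (β := Σ z : X, {v : Aset hF z // v ≠ 0})
      (fun r => ⟨r.2.1, ⟨r.1.1, r.2.2⟩, fun h => r.1.2.1 (congrArg Subtype.val h)⟩) ?_) ?_
    · rintro ⟨⟨v, hv⟩, z, hz⟩ ⟨⟨v', hv'⟩, z', hz'⟩ h
      obtain rfl : z = z' := congrArg Sigma.fst h
      simp only [Sigma.mk.injEq, heq_eq_eq, true_and, Subtype.mk.injEq] at h
      subst h
      rfl
    · rw [Nat.card_sigma, Nat.card_eq_fintype_card, ← Finset.card_univ, ← smul_eq_mul]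
      refine Finset.sum_le_card_nsmul _ _ _ fun z _ => le_of_eq ?_
      have := Fintype.ofFinite (Aset hF z)
      rw [← ha z, Nat.card_eq_fintype_card, Nat.card_eq_fintype_card, Fintype.card_subtype_compl,
        Fintype.card_subtype_eq]
  have hsum : Nat.card I * q ^ 3 + q ^ 3 ≤ ∑ v : I, Nat.card {z : X // v.1 ∈ Aset hF z} := by
    rw [← Finset.add_sum_erase _ _ (Finset.mem_univ (⟨w, hw, hww⟩ : I))]
    have h1 := Finset.card_nsmul_le_sum (Finset.univ.erase (⟨w, hw, hww⟩ : I))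
      (fun v : I => Nat.card {z : X // v.1 ∈ Aset hF z}) (q ^ 3) fun v _ => hlow v
    rw [Finset.card_erase_of_mem (Finset.mem_univ _), Finset.card_univ, ← Nat.card_eq_fintype_card,
      smul_eq_mul, Nat.sub_mul, one_mul] at h1
    have h2 : q ^ 3 ≤ Nat.card I * q ^ 3 := Nat.le_mul_of_pos_left _ (by
      rw [hJ]; exact Nat.mul_pos (by have := Nat.pow_le_pow_left (show 2 ≤ q from hq) 2; omega) (by omega))
    simp only [I] at h1 h2 ⊢
    omega
  have h := hsum.trans hup
  rw [hJ] at h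
  have h4 : 1 ≤ q ^ 2 := Nat.one_le_pow _ _ (by omega)
  have hk' : Nat.card X ≤ q ^ 4 + q ^ 3 + q := by
    have : (q + 1) * (q ^ 3 + 1) = q ^ 4 + q ^ 3 + q + 1 := by ring
    omega
  have h' := h.trans (Nat.mul_le_mul_right _ hk')
  zify [h4] at h'
  nlinarith

/-- The unipotent products have few fixed points, and some. -/
theorem four_fix (hk : Nat.card X < (q + 1) * (q ^ 3 + 1)) (hK : ∀ y : X, Kset hF y = ⊥)
    [Nonempty X] {b α : F} (hb : b ∈ skew hF) (hb0 : b ≠ 0) (hα : α ∈ skew hF) (hα0 : α ≠ 0) :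
    Nat.card {z : X // tE hF (hZ hF hα : Heis 2 F q) •
        inner hF 2 ⟨trv hF (⟨h_ee hF, hb⟩ : TrvCond q (eV hF 0) b), det_uni hF _⟩ • z = z} ≤ q ^ 2 ∧
      ∃ z : X, tE hF (hZ hF hα : Heis 2 F q) •
        inner hF 2 ⟨trv hF (⟨h_ee hF, hb⟩ : TrvCond q (eV hF 0) b), det_uni hF _⟩ • z = z := by
  classical
  obtain ⟨hfin, hcard⟩ := id hF
  set r := eV hF 0 with hr
  have htr : TrvCond q r b := ⟨h_ee hF, hb⟩
  set τ := inner hF 2 ⟨trv hF htr, det_uni hF _⟩ with hτ
  have hτ' : ∀ a c : F, ∀ z : Fin 2 → F, τ.1.1 (ph hF 2 ((a, c), z)) =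
      ph hF 2 ((a, c), z + (b * herm q z r) • r) := by
    intro a c z
    rw [hτ, inner_apply, trv_apply]
  have hαs : α ^ q = -α := hα
  obtain ⟨ν, hν⟩ := hF.exists_norm (c := -b / α) (by
    rw [div_pow, hF.neg_pow, (mem_skew hF).1 hb, hαs, neg_div_neg_eq])
  have hν' : α * ν ^ (q + 1) = -b := by rw [hν, mul_div_cancel₀ _ hα0]
  have hν0 : ν ≠ 0 := by
    rintro rfl
    rw [zero_pow (Nat.succ_ne_zero q), mul_zero] at hν'
    exact hb0 (neg_eq_zero.1 hν'.symm)
  set e' := eV hF 2 + ν • iW r with he'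
  set x' := (-(α * ν)) • iW r with hx'
  have hcond : UniCond q e' x' α := by
    refine ⟨?_, ?_, ?_⟩
    · simp [he', hr, herm_add_left, hF.herm_add_right, herm_smul_left, herm_smul_right, h_ee hF,
        h_ew hF, h_we hF, herm_iW _ _ hF.q_ne_zero]
    · simp [he', hx', hr, hF.herm_add_right, herm_smul_left, herm_smul_right, h_we hF,
        herm_iW _ _ hF.q_ne_zero, h_ee hF, herm_neg_left]
    · simp [hx', hr, herm_smul_left, herm_smul_right, herm_iW _ _ hF.q_ne_zero, h_ee hF, hαs,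
        herm_neg_left, hF.herm_neg_right]
  have hu : tE hF (hZ hF hα : Heis 2 F q) * τ = uS hF hcond := by
    refine SG_ext hF fun ⟨⟨a, c⟩, z⟩ => ?_
    rw [Subgroup.coe_mul, Subgroup.coe_mul, LinearEquiv.mul_apply, hτ', tE_apply]
    change _ = (uni hF hcond).1 _
    rw [uni_apply, ph_apply, ph_apply]
    simp only [hZ, hF.herm_zero_right, sub_zero, smul_zero, add_zero, he', hx', hF.herm_add_right,
      herm_add_left, herm_smul_left, herm_smul_right, h_ee hF, h_fe hF, h_ew hF, h_fw hF, h_we hF,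
      herm_iW _ _ hF.q_ne_zero, iW_add, iW_smul, hF.neg_pow, mul_pow, hαs]
    match_scalars
    all_goals first
      | ring1
      | linear_combination (herm q z r) * hν'
      | linear_combination -(herm q z r) * hν'
      | (rw [pow_succ] at hν'; linear_combination (herm q z r) * hν')
      | (rw [pow_succ] at hν'; linear_combination -(herm q z r) * hν')
  have he'f : herm q e' (fV hF 2) = 1 := by
    rw [he', herm_add_left, herm_smul_left, h_ef hF, h_wf hF, mul_zero, add_zero]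
  have he'0 : e' ≠ 0 := fun h => by
    rw [h, herm_zero_left] at he'f
    exact zero_ne_one he'f
  obtain ⟨t, c, hc, et⟩ :=
    exists_SUG_line hF he'0 hcond.1 (pair_spec hF (m := 2)).1.ne_zero (h_ee hF)
  obtain ⟨h', e1⟩ := uS_conj hF t hcond
  have hh : UniCond q (c • eV hF 2) (t.1.1 x') α := by rw [← et]; exact h'
  set x'' := c ^ q • t.1.1 x' with hx''
  have hh2 : UniCond q (eV hF 2) x'' (c * c ^ q * α) := by
    refine ⟨h_ee hF, ?_, ?_⟩
    · have := hh.2.1
      rw [herm_smul_right] at this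
      rw [hx'', herm_smul_left]; exact this
    · rw [hx'', herm_smul_left, herm_smul_right, mul_pow, mul_pow, hF.pow_pow]
      linear_combination c * c ^ q * hh.2.2
  obtain ⟨p, hp⟩ := uS_eV hF hh2
  have e2 : t * (tE hF (hZ hF hα : Heis 2 F q) * τ) * t⁻¹ = tE hF p := by
    rw [hu, e1, uS_congr hF h' hh et rfl rfl, ← hp]
    exact Subtype.ext (uni_smul hF hh hh2)
  obtain ⟨s, w₀, hdec⟩ := exists_decomp hF hh2.2.1
  have hpw : p.1.1 = w₀ := by
    have h := congrArg (fun g : SG 2 F q => pW (g.1.1 (fV hF 2))) hp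
    change pW ((uni hF hh2).1 (fV hF 2)) = pW ((tE hF p).1.1 (fV hF 2)) at h
    have ea : ∀ x y : Fin 4 → F, pW (x + y) = pW x + pW y := fun _ _ => rfl
    have es : ∀ x y : Fin 4 → F, pW (x - y) = pW x - pW y := fun _ _ => rfl
    have em : ∀ (a : F) (x : Fin 4 → F), pW (a • x) = a • pW x := fun _ _ => rfl
    rw [uni_apply, h_fe hF, ← ph_fV hF, tE_apply, hdec] at h
    simp only [ph_apply, one_smul, zero_smul, iW_zero, zero_add, add_zero, ea, es, em, pW_eV,
      pW_fV, pW_iW, smul_zero, sub_zero, mul_one] at h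
    exact h.symm
  have hwiso : herm q w₀ w₀ = 0 := by
    have h1 : herm q x'' x'' = 0 := by
      rw [hx'', herm_smul_left, herm_smul_right, UG_app, hx', herm_smul_left, herm_smul_right,
        herm_iW _ _ hF.q_ne_zero, hr, h_ee hF]
      ring
    rw [hdec] at h1
    simpa [herm_add_left, hF.herm_add_right, herm_smul_left, herm_smul_right, h_ee hF, h_we hF,
      h_ew hF, herm_iW _ _ hF.q_ne_zero] using h1
  have hw0 : w₀ ≠ 0 := by
    intro h
    rw [h, iW_zero, add_zero, hx''] at hdec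
    have hcq := pow_ne_zero q hc
    have h3 : t.1.1 x' = t.1.1 ((s * (c ^ q)⁻¹ * c⁻¹) • e') := by
      rw [LinearEquiv.map_smul t.1.1 (s * (c ^ q)⁻¹ * c⁻¹) e', et, smul_smul, mul_assoc, inv_mul_cancel₀ hc, mul_one, mul_comm, ← smul_smul,
        ← hdec, smul_smul, inv_mul_cancel₀ hcq, one_smul]
    have h4 := congrArg (fun z => herm q z (fV hF 2)) (t.1.1.injective h3)
    simp only [hx', herm_smul_left, h_wf hF, mul_zero, he'f, mul_one] at h4
    have h5 := t.1.1.injective h3
    rw [← h4, zero_smul, hx', smul_eq_zero, neg_eq_zero] at h5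
    exact h5.elim (mul_ne_zero hα0 hν0) fun h6 => (pair_spec hF (m := 0)).1.ne_zero
      (iW_injective (h6.trans iW_zero.symm))
  subst hpw
  -- the lifts of the vector
  have hlift : ∀ a ∈ skew hF, ∃ g : Heis 2 F q, ∀ p' : Heis 2 F q, p'.1.1 = p.1.1 →
      p'.1.2 = p.1.2 + a → tE hF g * tE hF p * (tE hF g)⁻¹ = tE hF p' := by
    intro a ha
    obtain ⟨u, hu'⟩ : ∃ u, herm q u p.1.1 = 1 := by
      obtain ⟨z, hz⟩ : ∃ z, herm q z p.1.1 ≠ 0 := by
        by_contra hcon
        push Not at hcon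
        exact hw0 (hF.eq_zero_of_herm _ fun z => by
          rw [← hF.herm_symm, hcon, zero_pow hF.q_ne_zero])
      exact ⟨(herm q z p.1.1)⁻¹ • z, by rw [herm_smul_left, inv_mul_cancel₀ hz]⟩
    obtain ⟨y₀, hy₀⟩ := hF.exists_trace (c := (1 : F)) (one_pow q)
    obtain ⟨a₀, ha₀⟩ := hF.exists_trace (c := -herm q ((a * y₀) • u) ((a * y₀) • u))
      (by rw [hF.neg_pow, hF.herm_symm])
    let g : Heis 2 F q := ⟨((a * y₀) • u, a₀), by rw [ha₀, neg_add_cancel]⟩
    refine ⟨g, fun p' h1 h2 => ?_⟩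
    rw [mul_assoc, tE_inv, tE_mul, tE_mul]
    congr 1
    refine Subtype.ext (Prod.ext ((hMul_conj hF g p).1.trans h1.symm) ?_)
    rw [(hMul_conj hF g p).2, h2]
    have e : herm q p.1.1 g.1.1 = (a * y₀) ^ q := by
      change herm q p.1.1 ((a * y₀) • u) = _
      rw [herm_smul_right, ← hF.herm_symm u, hu', one_pow, mul_one]
    have e' : herm q g.1.1 p.1.1 = a * y₀ := by
      change herm q ((a * y₀) • u) p.1.1 = _
      rw [herm_smul_left, hu', mul_one]
    rw [e, e', mul_pow, (mem_skew hF).1 ha]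
    linear_combination a * hy₀
  choose g hg using hlift
  have hmk : ∀ a ∈ skew hF, ∃ p' : Heis 2 F q, p'.1.1 = p.1.1 ∧ p'.1.2 = p.1.2 + a :=
    fun a ha => ⟨⟨(p.1.1, p.1.2 + a), by
      rw [hF.add_pow, (mem_skew hF).1 ha]; linear_combination p.2⟩, rfl, rfl⟩
  choose lift hlift1 hlift2 using hmk
  have hfixg : ∀ (a : F) (ha : a ∈ skew hF) (z : X), tE hF p • z = z ↔
      tE hF (lift a ha) • tE hF (g a ha) • z = tE hF (g a ha) • z := fun a ha z => by
    rw [← hg a ha _ (hlift1 a ha) (hlift2 a ha), mul_smul, mul_smul, inv_smul_smul,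
      (MulAction.injective _).eq_iff]
  have hcnt : Nat.card {z : X // tE hF p • z = z} * q ≤ q ^ 3 := by
    refine le_trans ?_ (four_count hF hk hK hw0 hwiso)
    calc Nat.card {z : X // tE hF p • z = z} * q
        = Nat.card ({z : X // tE hF p • z = z} × skew hF) := by rw [Nat.card_prod, card_skew hF]
      _ ≤ _ := ?_
    refine Nat.card_le_card_of_injective (fun r => ⟨tE hF (g r.2.1 r.2.2) • r.1.1,
      lift r.2.1 r.2.2, hlift1 _ _, (hfixg _ _ _).1 r.1.2⟩) ?_
    rintro ⟨⟨z, hz⟩, ⟨a, ha⟩⟩ ⟨⟨z', hz'⟩, ⟨a', ha'⟩⟩ h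
    have h' : tE hF (g a ha) • z = tE hF (g a' ha') • z' := congrArg Subtype.val h
    have h1 := (hfixg a ha z).1 hz
    have h2 := (hfixg a' ha' z').1 hz'
    rw [← h'] at h2
    have h3 := sub_mem_Kset hF ((hlift1 a ha).trans (hlift1 a' ha').symm) h1 h2
    rw [hK, AddSubgroup.mem_bot, hlift2, hlift2] at h3
    obtain rfl : a = a' := by linear_combination h3
    cases (MulAction.injective _) h'
    rfl
  have hequiv : ∀ z : X, tE hF (hZ hF hα : Heis 2 F q) • τ • z = z ↔ tE hF p • t • z = t • z := by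
    intro z
    rw [← e2, mul_smul, mul_smul, inv_smul_smul, mul_smul, (MulAction.injective t).eq_iff]
  refine ⟨?_, ?_⟩
  · change Nat.card {z : X // tE hF (hZ hF hα : Heis 2 F q) • τ • z = z} ≤ q ^ 2
    rw [Nat.card_congr (β := {z : X // tE hF p • z = z})
      ((MulAction.toPerm t).subtypeEquiv fun z => hequiv z)]
    refine Nat.le_of_mul_le_mul_right (hcnt.trans (le_of_eq (by ring))) ?_
    have := hF.one_lt; omega
  · obtain ⟨y⟩ := ‹Nonempty X›
    obtain ⟨z, -, p', hp', hp'z⟩ := (four_bot hF hk (hK y)).2.2.2 _ hw0 hwiso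
    have ha : p'.1.2 - p.1.2 ∈ skew hF := by
      rw [mem_skew, hF.sub_pow]
      have := p'.2
      rw [hp'] at this
      linear_combination this - p.2
    refine ⟨t⁻¹ • (tE hF (g _ ha))⁻¹ • z, ?_⟩
    change tE hF (hZ hF hα : Heis 2 F q) • τ • _ = _
    rw [hequiv, smul_inv_smul, hfixg _ ha, smul_inv_smul]
    rw [show lift _ ha = p' from Subtype.ext (Prod.ext ((hlift1 _ ha).trans hp'.symm)
      ((hlift2 _ ha).trans (add_sub_cancel _ _)))]
    exact hp'z

/-- There is no small action in dimension four. -/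
theorem four_absurd [Nonempty X] (hk : Nat.card X < (q + 1) * (q ^ 3 + 1))
    (hnofix : ∀ y : X, ∃ g : SG 2 F q, g • y ≠ y)
    (hfull : ∀ y : X, ¬ FullAt hF y (eV hF 2)) : False := by
  classical
  obtain ⟨hfin, hcard⟩ := id hF
  have hq := hF.one_lt
  have hfinH : Finite (Heis 2 F q) := Subtype.finite
  have hK : ∀ y : X, Kset hF y = ⊥ := four_split hF hk hnofix hfull
  have ha : ∀ y : X, Nat.card (Aset hF y) = q ^ 2 := fun y => (four_bot hF hk (hK y)).2.1
  have horb : ∀ y : X, Nat.card (qOrb hF y) = q ^ 3 := fun y => by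
    have h := card_qOrb_mul hF y
    rw [hK y, AddSubgroup.card_bot, mul_one, ha y] at h
    exact Nat.eq_of_mul_eq_mul_right (pow_pos (by omega) 2) (h.trans (by ring))
  obtain ⟨b, hb0, hb⟩ := hF.exists_skew
  set r := eV hF 0 with hr
  have htr : TrvCond q r b := ⟨h_ee hF, hb⟩
  set τ := inner hF 2 ⟨trv hF htr, det_uni hF _⟩ with hτ
  have hfree : ∀ z : X, τ • z ≠ z := by
    intro z hz
    obtain ⟨t, c, hc, key⟩ := exists_conj_centre hF (X := X) (pair_spec hF (m := 0)).1.ne_zero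
      (h_ee hF)
    have h := (key ⟨b, hb⟩ z).1 hz
    rw [hK, AddSubgroup.mem_bot] at h
    exact mul_ne_zero (mul_ne_zero hc (pow_ne_zero _ hc)) hb0 h
  let C : Set X := {x | ∃ (α : F) (hα : α ∈ skew hF), α ≠ 0 ∧
    tE hF (hZ hF hα : Heis 2 F q) • τ • x = x}
  have hC : Nat.card C ≤ (q - 1) * q ^ 2 := by
    refine le_trans (card_le_cover {α : F | α ∈ skew hF ∧ α ≠ 0}
      (fun α => {x : X | ∃ hα : α ∈ skew hF, tE hF (hZ hF hα : Heis 2 F q) • τ • x = x}) C
      (b := q ^ 2) (fun x hx => ?_) fun α hα => ?_) (le_of_eq ?_)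
    · obtain ⟨α, hα, hα0, e⟩ := hx
      exact ⟨α, ⟨hα, hα0⟩, hα, e⟩
    · refine le_trans (Nat.card_mono (Set.toFinite _) Set.inter_subset_left) ?_
      refine le_trans (le_of_eq ?_) (four_fix hF hk hK hb hb0 hα.1 hα.2).1
      refine Nat.card_congr (Equiv.subtypeEquivRight fun x => ?_)
      exact ⟨fun ⟨_, h⟩ => h, fun h => ⟨hα.1, h⟩⟩
    · congr 1
      have := Fintype.ofFinite (skew hF)
      rw [Nat.card_congr (β := {a : skew hF // a ≠ 0})
        { toFun := fun a => ⟨⟨a.1, a.2.1⟩, fun h => a.2.2 (congrArg Subtype.val h)⟩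
          invFun := fun a => ⟨a.1.1, a.1.2, fun h => a.2 (Subtype.ext h)⟩
          left_inv := fun _ => rfl
          right_inv := fun _ => rfl }, Nat.card_eq_fintype_card, Fintype.card_subtype_compl,
        Fintype.card_subtype_eq, ← Nat.card_eq_fintype_card, card_skew hF]
  obtain ⟨α₀, hα₀, hα₀q⟩ := hF.exists_skew
  obtain ⟨x, hx⟩ := (four_fix hF hk hK hb hb0 (show α₀ ∈ skew hF from hα₀q) hα₀).2
  have hxC : x ∈ C := ⟨α₀, hα₀q, hα₀, hx⟩
  -- invariance of the image
  have hAinv : ∀ x ∈ C, ∀ w ∈ Aset hF x, (b * herm q w r) • r ∈ Aset hF x := by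
    rintro x ⟨α, hα, -, e⟩ w hw
    have h1 : Aset hF (τ • x) = Aset hF x := by
      conv_rhs => rw [← e]
      exact (Aset_tE hF (hZ hF hα : Heis 2 F q) _).symm
    have h2 := mem_Aset_inner hF (g := ⟨trv hF htr, det_uni hF _⟩) hw
    rw [← hτ, h1] at h2
    change (trv hF htr).1 w ∈ Aset hF x at h2
    have h3 := (Aset hF x).sub_mem h2 hw
    rwa [trv_apply, add_sub_cancel_left] at h3
  have hclosed : ∀ x : X, ∀ c ∈ fixF hF, ∀ w ∈ Aset hF x, c • w ∈ Aset hF x := fun x c hc w hw =>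
    fixF_closed hF (four_bot hF hk (hK x)).1 (Aset_comm hF (hK x)) (ha x) hc hw
  have hline : ∀ x ∈ C, ∃ t : F, t ≠ 0 ∧ t • r ∈ Aset hF x := by
    intro x hx
    obtain ⟨w, hw, hw0⟩ := (AddSubgroup.bot_or_exists_ne_zero (Aset hF x)).resolve_left fun h => by
      have h' := ha x
      rw [h, AddSubgroup.card_bot] at h'
      have : 1 < q ^ 2 := Nat.one_lt_pow (by omega) hq
      omega
    by_cases hwr : herm q w r = 0
    · obtain ⟨t, ht⟩ := ti_line hF (by norm_num) (pair_spec hF (m := 0)).1.ne_zero (h_ee hF)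
        ((four_bot hF hk (hK x)).1 w hw) (Forms.herm_comm_zero hF hwr)
      exact ⟨t, fun h => hw0 (by rw [← ht, h, zero_smul]), by rw [ht]; exact hw⟩
    · exact ⟨_, mul_ne_zero hb0 hwr, hAinv x hx w hw⟩
  -- translating inside an orbit
  have hmove : ∀ x ∈ C, ∀ p : Heis 2 F q, (b * herm q p.1.1 r) • r ∈ Aset hF x →
      tE hF p • x ∈ C := by
    rintro x ⟨α, hα, -, e⟩ p hp
    set p' := hLev hF 1 (trv hF htr) p with hp'
    obtain ⟨s, hs, hsx⟩ := hp
    have hw : p'.1.1 = p.1.1 + (b * herm q p.1.1 r) • r := by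
      rw [hp']
      simp only [hLev, one_pow, one_smul]
      change (trv hF htr).1 p.1.1 = _
      rw [trv_apply]
    have hτp : τ • tE hF p • x = tE hF p' • τ • x := by
      rw [hτ, ← mul_smul, inner_tE, mul_smul]
    have hτx : τ • x = tE hF (hInv hF (hZ hF hα : Heis 2 F q)) • x := by
      rw [← tE_inv, eq_inv_smul_iff, e]
    set P := hMul hF p' (hInv hF (hZ hF hα : Heis 2 F q)) with hP
    set S := hMul hF p s with hS
    have hPS : P.1.1 = S.1.1 := by
      simp only [hP, hS, hMul, hInv, hZ, neg_zero, add_zero, hw, hs]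
    have hd : P.1.2 - S.1.2 ∈ skew hF := by
      rw [mem_skew, hF.sub_pow]
      have := P.2
      rw [hPS] at this
      linear_combination this - S.2
    have hPeq : P = hMul hF (hZ hF hd) S := by
      rw [hMul_hZ]
      exact Subtype.ext (Prod.ext hPS (add_sub_cancel _ _).symm)
    have e3 : τ • tE hF p • x = tE hF (hZ hF hd : Heis 2 F q) • tE hF p • x := by
      rw [hτp, hτx, ← mul_smul, tE_mul, ← hP]
      conv_lhs => rw [hPeq]
      have hSx : tE hF S • x = tE hF p • x := by rw [hS, ← tE_mul, mul_smul, hsx]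
      rw [← tE_mul, mul_smul, hSx]
    have hne : P.1.2 - S.1.2 ≠ 0 := by
      intro h0
      refine hfree (tE hF p • x) ?_
      rw [e3, show (hZ hF hd : Heis 2 F q) = hOne hF from Subtype.ext (Prod.ext rfl h0), tE_one,
        one_smul]
    refine ⟨-(P.1.2 - S.1.2), (skew hF).neg_mem hd, neg_ne_zero.2 hne, ?_⟩
    rw [show (hZ hF ((skew hF).neg_mem hd) : Heis 2 F q) = hInv hF (hZ hF hd) from
      Subtype.ext (Prod.ext (by simp [hZ, hInv]) (by
        change -(P.1.2 - S.1.2) = (P.1.2 - S.1.2) ^ q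
        rw [(mem_skew hF).1 hd])), ← tE_inv, inv_smul_eq_iff, e3]
  -- the number of points of an orbit
  have hlow : ∀ x ∈ C, q ^ 2 ≤ Nat.card {z : X | z ∈ qOrb hF x ∧ z ∈ C} := by
    intro x hx
    obtain ⟨t, ht0, ht⟩ := hline x hx
    have hex : ∀ as : F × fixF hF, ∃ a' : F, a' + a' ^ q +
        herm q (ph hF 0 ((as.1, (as.2 : F) * t / b), 0)) (ph hF 0 ((as.1, (as.2 : F) * t / b), 0)) =
          0 := by
      intro as
      obtain ⟨a', ha'⟩ := hF.exists_trace (c := -herm q
        (ph hF 0 ((as.1, (as.2 : F) * t / b), 0)) (ph hF 0 ((as.1, (as.2 : F) * t / b), 0)))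
        (by rw [hF.neg_pow, hF.herm_symm])
      exact ⟨a', by rw [ha', neg_add_cancel]⟩
    choose c hc using hex
    let par' : (F × fixF hF) × skew hF → Heis 2 F q := fun r' =>
      hMul hF (hZ hF r'.2.2) ⟨(_, c r'.1), hc r'.1⟩
    have hp1 : ∀ r', (par' r').1.1 = ph hF 0 ((r'.1.1, (r'.1.2 : F) * t / b), 0) := fun r' => by
      simp only [par', hMul, hZ, zero_add]
    have hmem : ∀ r', (b * herm q (par' r').1.1 r) • r ∈ Aset hF x := fun r' => by
      have e : b * herm q (par' r').1.1 r = (r'.1.2 : F) * t := by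
        rw [hp1, hr, ← ph_eV hF, herm_ph]
        simp only [one_pow, zero_pow hF.q_ne_zero, herm_zero_left, mul_zero, mul_one, zero_add,
          add_zero]
        exact mul_div_cancel₀ _ hb0
      rw [e, ← smul_smul]
      exact hclosed x _ r'.1.2.2 _ ht
    have hinj : Function.Injective par' := by
      rintro ⟨⟨a, s⟩, u⟩ ⟨⟨a', s'⟩, u'⟩ h
      have h1 := congrArg (fun p : Heis 2 F q => p.1.1) h
      simp only [hp1] at h1
      have h2 := (ph hF 0).injective h1
      simp only [Prod.mk.injEq, and_true] at h2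
      obtain ⟨rfl, hs⟩ := h2
      obtain rfl : s = s' := Subtype.ext
        (mul_right_cancel₀ ht0 ((div_left_inj' hb0).1 hs))
      have h3 : (par' ((a, s), u)).1.2 = (par' ((a, s), u')).1.2 :=
        congrArg (fun p : Heis 2 F q => p.1.2) h
      simp only [par', hMul, hZ, hF.herm_zero_right, sub_zero, add_left_inj] at h3
      rw [Subtype.ext h3]
    let f : (F × fixF hF) × skew hF → {z : X | z ∈ qOrb hF x ∧ z ∈ C} := fun r' =>
      ⟨tE hF (par' r') • x, ⟨_, rfl⟩, hmove x hx _ (hmem r')⟩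
    have hbound : Nat.card ((F × fixF hF) × skew hF) ≤
        Nat.card {z : X | z ∈ qOrb hF x ∧ z ∈ C} * q ^ 2 := by
      have := Fintype.ofFinite {z : X | z ∈ qOrb hF x ∧ z ∈ C}
      rw [Nat.card_congr (Equiv.sigmaFiberEquiv f).symm, Nat.card_sigma,
        Nat.card_eq_fintype_card (α := {z : X | z ∈ qOrb hF x ∧ z ∈ C}), ← Finset.card_univ,
        ← smul_eq_mul]
      refine Finset.sum_le_card_nsmul _ _ _ fun z _ => ?_
      rcases isEmpty_or_nonempty {r' // f r' = z} with hE | ⟨⟨r₀, hr₀⟩⟩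
      · exact Nat.card_of_isEmpty.le.trans (Nat.zero_le _)
      have hq2 : Nat.card {p : Heis 2 F q // tE hF p • x = x} = q ^ 2 := by
        rw [card_fixed_heis, ha, hK, AddSubgroup.card_bot, mul_one]
      rw [← hq2]
      refine Nat.card_le_card_of_injective (fun r' =>
        ⟨hMul hF (hInv hF (par' r₀)) (par' r'.1), ?_⟩) ?_
      · have h : tE hF (par' r'.1) • x = tE hF (par' r₀) • x :=
          congrArg Subtype.val (r'.2.trans hr₀.symm)
        rw [← tE_mul, ← tE_inv, mul_smul, h, inv_smul_smul]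
      · intro r' r'' h
        have h' := congrArg (fun p : {p : Heis 2 F q // tE hF p • x = x} => tE hF p.1) h
        simp only [← tE_mul] at h'
        exact Subtype.ext (hinj (tE_injective hF (mul_left_cancel h')))
    rw [Nat.card_prod, Nat.card_prod, hcard, card_fixF hF, card_skew hF] at hbound
    have h4 : q ^ 2 * q ^ 2 ≤ Nat.card {z : X | z ∈ qOrb hF x ∧ z ∈ C} * q ^ 2 :=
      le_trans (le_of_eq (by ring)) hbound
    exact Nat.le_of_mul_le_mul_right h4 (pow_pos (by omega) 2)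
  by_cases hfullline : ∀ s : F, s • r ∈ Aset hF x
  · have h1 : Nat.card (qOrb hF x) ≤ Nat.card C := by
      refine Nat.card_mono (Set.toFinite _) ?_
      rintro _ ⟨p, rfl⟩
      exact hmove x hxC p (hfullline _)
    rw [horb] at h1
    have h2 := h1.trans hC
    rw [pow_succ' q 2] at h2
    have := Nat.le_of_mul_le_mul_right h2 (pow_pos (by omega) 2)
    omega
  obtain ⟨t₀, ht₀0, ht₀⟩ := hline x hxC
  have h2F : (2 : F) = 0 := by
    by_contra h2
    apply hfullline
    have hiso := (four_bot hF hk (hK x)).1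
    have hzero : ∀ w ∈ Aset hF x, ∃ c : F, c • (t₀ • r) = w := by
      intro w hw
      refine ti_line hF (by norm_num) (smul_ne_zero ht₀0 (pair_spec hF (m := 0)).1.ne_zero)
        (hiso _ ht₀) (hiso w hw) ?_
      have h := hiso _ ((Aset hF x).add_mem ht₀ hw)
      rw [herm_add_left, hF.herm_add_right, hF.herm_add_right, hiso _ ht₀, hiso w hw,
        Aset_comm hF (hK x) w hw _ ht₀] at h
      exact (mul_eq_zero.1 (show (2 : F) * herm q (t₀ • r) w = 0 by
        linear_combination h)).resolve_left h2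
    choose f hf using fun w : Aset hF x => hzero w.1 w.2
    have hfi : Function.Injective f := fun a b h => Subtype.ext (by rw [← hf a, ← hf b, h])
    have hfb := hfi.bijective_of_nat_card_le (by rw [hcard, ha])
    intro s
    obtain ⟨w, hw⟩ := hfb.2 (s * t₀⁻¹)
    have h := hf w
    rw [hw, smul_smul, mul_assoc, inv_mul_cancel₀ ht₀0, mul_one] at h
    rw [h]; exact w.2
  -- the scalars of norm one give different orbits
  let N := {l : F // l ^ (q + 1) = 1}
  have hNcard : Nat.card N = q + 1 := hF.card_norm_one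
  have := Fintype.ofFinite N
  have hl0 : ∀ l : N, l.1 ≠ 0 := fun l h => by
    have := l.2
    rw [h, zero_pow (Nat.succ_ne_zero q)] at this
    exact zero_ne_one this
  have hnorm : ∀ l : N, l.1 * l.1 ^ q = 1 := fun l => by rw [← pow_succ']; exact l.2
  have hμ : ∀ l : N, (l.1)⁻¹ * ((l.1)⁻¹) ^ q = 1 := fun l => by
    rw [inv_pow, ← mul_inv, hnorm, inv_one]
  have hdet : ∀ l : N, (LinearEquiv.det (scalUG (hμ l)).1 : F) = l.1 ^ q * (l.1)⁻¹ := fun l => by
    rw [det_scalUG, show l.1 ^ q = (l.1)⁻¹ from eq_inv_of_mul_eq_one_right (hnorm l)]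
    ring
  let L : N → SG 2 F q := fun l => lev hF (hl0 l) (scalUG (hμ l)) (hdet l)
  have hLτ : ∀ l, L l * τ = τ * L l := by
    intro l
    refine SG_ext hF fun ⟨⟨a, c⟩, z⟩ => ?_
    simp only [Subgroup.coe_mul, LinearEquiv.mul_apply, L, hτ, inner_apply, lev_apply, scalUG_apply,
      trv_apply, herm_smul_left]
    congr 2
    module
  have hLC : ∀ l, L l • x ∈ C := by
    intro l
    obtain ⟨α, hα, hα0, e⟩ := hxC
    refine ⟨α, hα, hα0, ?_⟩
    have hlz : L l * tE hF (hZ hF hα : Heis 2 F q) = tE hF (hZ hF hα) * L l := by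
      simp only [L]
      rw [lev_tE]
      congr 2
      exact Subtype.ext (Prod.ext (by simp [hLev, hZ]) (by simp [hLev, hZ, hnorm l]))
    rw [← mul_smul τ, ← hLτ, mul_smul, ← mul_smul (tE hF (hZ hF hα : Heis 2 F q)), ← hlz, mul_smul,
      e]
  have hAl : ∀ (l : N) (w : Fin 2 → F), w ∈ Aset hF x →
      ((l.1)⁻¹ * (l.1)⁻¹) • w ∈ Aset hF (L l • x) := by
    intro l w hw
    have h := mem_trans_Aset hF (hl0 l) (scalUG (hμ l)) (hdet l) (y := x) hw
    rw [scalUG_apply, smul_smul, show l.1 ^ q = (l.1)⁻¹ from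
      eq_inv_of_mul_eq_one_right (hnorm l)] at h
    exact h
  have hAl' : ∀ (l : N) (w : Fin 2 → F), w ∈ Aset hF (L l • x) → (l.1 * l.1) • w ∈ Aset hF x := by
    intro l w hw
    simp only [L] at hw
    rw [Aset_lev] at hw
    obtain ⟨w', hw', rfl⟩ := hw
    change (l.1 * l.1) • (l.1 ^ q • (scalUG (hμ l)).1 w') ∈ Aset hF x
    rw [scalUG_apply, smul_smul, smul_smul, show l.1 ^ q = (l.1)⁻¹ from
      eq_inv_of_mul_eq_one_right (hnorm l),
      show l.1 * l.1 * (l.1)⁻¹ * (l.1)⁻¹ = (1 : F) by field_simp [hl0 l], one_smul]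
    exact hw'
  have hdisj : ∀ l l' : N, ∀ z, z ∈ qOrb hF (L l • x) → z ∈ qOrb hF (L l' • x) → l = l' := by
    intro l l' z hz hz'
    have hA : Aset hF (L l • x) = Aset hF (L l' • x) :=
      ((congrArg Prod.fst (dat_of_mem_qOrb hF hz)).symm.trans
        (congrArg Prod.fst (dat_of_mem_qOrb hF hz')))
    set η := l'.1 * l'.1 * ((l.1)⁻¹ * (l.1)⁻¹) with hη
    have hclη : ∀ w ∈ Aset hF x, η • w ∈ Aset hF x := fun w hw => by
      rw [hη, ← smul_smul]
      exact hAl' l' _ (hA ▸ hAl l w hw)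
    have hηn : η * η ^ q = 1 := by
      rw [hη, mul_pow, mul_pow, mul_pow]
      linear_combination (l'.1 * l'.1 ^ q + 1) * ((l.1)⁻¹ * ((l.1)⁻¹) ^ q) ^ 2 * hnorm l' +
        ((l.1)⁻¹ * ((l.1)⁻¹) ^ q + 1) * hμ l
    by_cases hηf : η ∈ fixF hF
    · rw [(mem_fixF hF).1 hηf] at hηn
      have hη1 : η = 1 := by
        have : (η - 1) * (η - 1) = 0 := by linear_combination hηn + (1 - η) * h2F
        exact sub_eq_zero.1 (mul_self_eq_zero.1 this)
      have h' : l'.1 * l'.1 = l.1 * l.1 := by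
        rw [hη] at hη1
        field_simp [hl0 l] at hη1
        linear_combination hη1
      have : (l.1 - l'.1) * (l.1 - l'.1) = 0 := by
        linear_combination -h' + (l'.1 * l'.1 - l.1 * l'.1) * h2F
      exact Subtype.ext (sub_eq_zero.1 (mul_self_eq_zero.1 this))
    · exfalso
      apply hfullline
      have hne : η - η ^ q ≠ 0 := sub_ne_zero.2 fun h => hηf ((mem_fixF hF).2 h.symm)
      intro s
      set u := s / t₀
      set c₂ := (u - u ^ q) / (η - η ^ q) with hc₂
      have hc₂f : c₂ ∈ fixF hF := by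
        rw [mem_fixF, hc₂, div_pow, hF.sub_pow, hF.sub_pow, hF.pow_pow, hF.pow_pow, ← neg_sub u,
          ← neg_sub η (η ^ q), neg_div_neg_eq]
      have hc₁f : u - c₂ * η ∈ fixF hF := by
        rw [mem_fixF, hF.sub_pow, mul_pow, (mem_fixF hF).1 hc₂f]
        have e : c₂ * (η - η ^ q) = u - u ^ q := div_mul_cancel₀ _ hne
        linear_combination e
      have h := (Aset hF x).add_mem (hclosed x _ hc₁f _ ht₀)
        (hclosed x _ hc₂f _ (hclη _ ht₀))
      rw [smul_smul, smul_smul, smul_smul, ← add_smul] at h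
      convert h using 2
      simp only [u]
      field_simp
      ring
  have hfinal : (q + 1) * q ^ 2 ≤ Nat.card C := by
    refine le_trans ?_ (Nat.card_le_card_of_injective
      (fun p : Σ l : N, {z : X | z ∈ qOrb hF (L l • x) ∧ z ∈ C} => (⟨p.2.1, p.2.2.2⟩ : C)) ?_)
    · rw [Nat.card_sigma, ← hNcard, Nat.card_eq_fintype_card, ← Finset.card_univ, ← smul_eq_mul]
      exact Finset.card_nsmul_le_sum _ _ _ fun l _ => hlow _ (hLC l)
    · rintro ⟨l, z, hz, hzC⟩ ⟨l', z', hz', hzC'⟩ h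
      obtain rfl : z = z' := congrArg Subtype.val h
      obtain rfl := hdisj l l' z hz hz'
      rfl
  have h5 := Nat.le_of_mul_le_mul_right (hfinal.trans hC) (pow_pos (by omega) 2)
  omega

end Cfsg.Agent.MinU
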