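/-
The radical cannot act regularly on all points.
-/
import Mathlib
import Cfsg.Agent.MinU.Base

set_option autoImplicit false

namespace Cfsg.Agent.MinU

open Cfsg.Agent.Classical.U

universe u v

variable {F : Type u} [Field F] {q : ℕ} {m : ℕ}
variable (hF : SqField F q)
include hF

/-- A scaling pair for the argument. -/
theorem exists_scalars :
    ∃ (r : ℕ) (l μ : F), r.Prime ∧ ¬ r ∣ q ∧ l ≠ 0 ∧ μ ≠ 0 ∧ l ^ r = 1 ∧ μ ^ r = 1 ∧ l ≠ 1 ∧
      l ^ q ≠ 1 ∧ l ^ q * μ ≠ 1 ∧ μ * μ ^ q = 1 ∧ μ * (μ ^ q)⁻¹ = l ^ q * l⁻¹ := by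
  obtain ⟨hfin, hcard⟩ := id hF
  classical
  have h1 := hF.one_lt
  by_cases h2 : q = 2
  · subst h2
    have := Fintype.ofFinite F
    obtain ⟨w, hw0, hw1⟩ : ∃ w : F, w ≠ 0 ∧ w ≠ 1 := by
      by_contra h
      push Not at h
      have : Nat.card F ≤ 2 := by
        rw [Nat.card_eq_fintype_card, ← Finset.card_univ]
        refine (Finset.card_le_card (t := {0, 1}) fun a _ => ?_).trans Finset.card_le_two
        rcases eq_or_ne a 0 with ha | ha <;> simp [ha, h a]
      rw [hcard] at this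
      norm_num at this
    have h3 : w ^ 3 = 1 := by
      have := FiniteField.pow_card_sub_one_eq_one w hw0
      rw [← Nat.card_eq_fintype_card, hcard] at this
      simpa using this
    refine ⟨3, w, w ^ 2, Nat.prime_three, by norm_num, hw0, pow_ne_zero _ hw0, h3,
      by rw [← pow_mul, show 2 * 3 = 3 * 2 from rfl, pow_mul, h3, one_pow], hw1, ?_, ?_, ?_, ?_⟩
    · intro h
      exact hw1 (by rw [← h3, pow_succ, h, one_mul])
    · intro h
      exact hw1 (by linear_combination h - w * h3)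
    · linear_combination (w ^ 3 + 1) * h3
    · have hw2 : (w ^ 2) ^ 2 ≠ 0 := pow_ne_zero _ (pow_ne_zero _ hw0)
      field_simp
      linear_combination -h3
  · have hK : Nat.card (powMonoidHom (q - 1) : Fˣ →* Fˣ).ker = q - 1 := by
      rw [IsCyclic.card_powMonoidHom_ker, hF.card_units, Nat.gcd_eq_right (Dvd.intro _ rfl)]
    obtain ⟨r, hr, hrd⟩ := Nat.exists_prime_and_dvd (n := q - 1) (by omega)
    haveI : Fact r.Prime := ⟨hr⟩
    obtain ⟨x, hx⟩ := exists_prime_orderOf_dvd_card' (G := (powMonoidHom (q - 1) : Fˣ →* Fˣ).ker) r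
      (by rw [hK]; exact hrd)
    have hxr : ((x : Fˣ) : F) ^ r = 1 := by
      have := congrArg (fun y : (powMonoidHom (q - 1) : Fˣ →* Fˣ).ker => ((y : Fˣ) : F))
        (hx ▸ pow_orderOf_eq_one x)
      simpa using this
    have hx1 : ((x : Fˣ) : F) ≠ 1 := fun h => by
      have e : x = 1 := Subtype.ext (Units.ext h)
      rw [e, orderOf_one] at hx
      exact hr.ne_one hx.symm
    have hxq : ((x : Fˣ) : F) ^ q = x.1 :=
      (hF.fixed_iff (Units.ne_zero _)).2 (by simpa using congrArg Units.val x.2)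
    refine ⟨r, x.1, 1, hr, fun hd => ?_, Units.ne_zero _, one_ne_zero, hxr, one_pow _, hx1,
      by rwa [hxq], by rwa [hxq, mul_one], by simp, by
        rw [hxq, mul_inv_cancel₀ (Units.ne_zero _)]; simp⟩
    have := Nat.dvd_sub hd hrd
    rw [show q - (q - 1) = 1 by omega] at this
    exact hr.ne_one (Nat.dvd_one.1 this)

theorem lev_pow {l : F} (hl : l ≠ 0) (g : UG m F q)
    (hd : (LinearEquiv.det g.1 : F) = l ^ q * l⁻¹) (k : ℕ) (x y : F) (z : Fin m → F) :
    (lev hF hl g hd ^ k).1.1 (ph hF m ((x, y), z)) =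
      ph hF m ((l ^ k * x, ((l ^ q)⁻¹) ^ k * y), (g ^ k).1 z) := by
  induction k with
  | zero => simp
  | succ k ih =>
    rw [pow_succ', Subgroup.coe_mul, Subgroup.coe_mul, LinearEquiv.mul_apply, ih, lev_apply,
      pow_succ' g, Subgroup.coe_mul, LinearEquiv.mul_apply]
    congr 1
    refine Prod.ext (Prod.ext ?_ ?_) rfl <;> ring

variable {X : Type v} [UAct F q X m] [Finite X]

/-- The radical is not regular on everything. -/
theorem free_absurd (hm : 2 ≤ m) [Nonempty X]
    (hfree : ∀ y : X, Aset hF y = ⊥ ∧ Kset hF y = ⊥)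
    (hk : Nat.card X < 2 * (q ^ (2 * m) * q)) : False := by
  classical
  obtain ⟨hfin, hcard⟩ := id hF
  obtain ⟨p₀, rfl⟩ : ∃ p₀, m = p₀ + 2 := ⟨m - 2, by omega⟩
  set H := Heis (p₀ + 2) F q
  have hinj : ∀ (y : X) (p r : H), tE hF p • y = tE hF r • y → p = r := by
    intro y p r h
    have h1 : tE hF (hMul hF (hInv hF r) p) • y = y := by
      rw [← tE_mul, mul_smul, h, ← mul_smul, ← tE_inv, inv_mul_cancel, one_smul]
    have hw : -r.1.1 + p.1.1 ∈ Aset hF y := ⟨_, rfl, h1⟩
    rw [(hfree y).1, AddSubgroup.mem_bot, neg_add_eq_zero] at hw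
    have ha := sub_mem_Kset hF (y := y) (p := hMul hF (hInv hF r) p) (s := hOne hF)
      (by simp [hMul, hInv, hOne, hw]) h1 (by rw [tE_one, one_smul])
    rw [(hfree y).2, AddSubgroup.mem_bot] at ha
    simp only [hMul, hInv, hOne, sub_zero, hF.herm_neg_right, ← hw] at ha
    exact Subtype.ext (Prod.ext hw.symm (by linear_combination ha - r.2))
  have hQ := card_heis hF (m := p₀ + 2)
  have hsurj : ∀ y z : X, ∃ p : H, tE hF p • y = z := by
    intro y z
    by_contra hno
    push Not at hno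
    have hfH : Finite H := Subtype.finite
    have : Nat.card (H ⊕ H) ≤ Nat.card X := by
      refine Nat.card_le_card_of_injective (Sum.elim (fun p => tE hF p • y) (fun p => tE hF p • z)) ?_
      rintro (a | a) (b | b) h <;> simp only [Sum.elim_inl, Sum.elim_inr] at h
      · rw [hinj y a b h]
      · exfalso
        exact hno (hMul hF (hInv hF b) a) (by rw [← tE_mul, ← tE_inv, mul_smul, h, inv_smul_smul])
      · exfalso
        exact hno (hMul hF (hInv hF a) b) (by rw [← tE_mul, ← tE_inv, mul_smul, ← h, inv_smul_smul])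
      · rw [hinj z a b h]
    rw [Nat.card_sum, hQ] at this
    omega
  obtain ⟨x₀⟩ := ‹Nonempty X›
  have hX : Nat.card X = q ^ (2 * (p₀ + 2)) * q := by
    rw [← hQ]
    exact (Nat.card_congr (Equiv.ofBijective (fun p : H => tE hF p • x₀)
      ⟨fun a b h => hinj x₀ a b h, hsurj x₀⟩)).symm
  -- no non-trivial unipotent fixes a point
  have hnofix : ∀ {v x : Fin (p₀ + 2 + 2) → F} {a : F} (h : UniCond q v x a) (y : X),
      uS hF h • y = y → uS hF h = 1 := by
    intro v x a h y hy
    rcases eq_or_ne v 0 with rfl | hv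
    · refine Subtype.ext (Subtype.ext (LinearEquiv.ext fun z => ?_))
      change (uni hF h).1 z = z
      rw [uni_apply]
      simp [hF.herm_zero_right]
    obtain ⟨t, c, hc, e⟩ :=
      exists_SUG_line hF hv h.1 (pair_spec hF (m := p₀ + 2)).1.ne_zero (h_ee hF)
    obtain ⟨h', e'⟩ := uS_conj hF t h
    have hh : UniCond q (c • eV hF (p₀ + 2)) (t.1.1 x) a := by rw [← e]; exact h'
    have hh2 : UniCond q (eV hF (p₀ + 2)) (c ^ q • t.1.1 x) (c * c ^ q * a) := by
      refine ⟨h_ee hF, ?_, ?_⟩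
      · have := hh.2.1
        rw [herm_smul_right] at this
        rw [herm_smul_left]; exact this
      · rw [herm_smul_left, herm_smul_right, mul_pow, mul_pow, hF.pow_pow]
        linear_combination c * c ^ q * hh.2.2
    have e2 : t * uS hF h * t⁻¹ = uS hF hh2 := by
      rw [e', uS_congr hF h' hh e rfl rfl]
      exact Subtype.ext (uni_smul hF hh hh2)
    obtain ⟨p, hp⟩ := uS_eV hF hh2
    rw [hp] at e2
    have h1 : tE hF p • (t • y) = t • y := by
      rw [← e2, mul_smul, mul_smul, inv_smul_smul, hy]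
    have := hinj (t • y) p (hOne hF) (by rw [h1, tE_one, one_smul])
    rw [this, tE_one] at e2
    calc uS hF h = t⁻¹ * (t * uS hF h * t⁻¹) * t := by group
      _ = 1 := by rw [e2]; group
  -- the element with few fixed points
  obtain ⟨r, l, μ, hr, hrq, hl, hμ, hlr, hμr, -, hlq, hlμ, hNμ, hdet⟩ := exists_scalars hF
  set gm : UG (p₀ + 2) F q := ⟨levLin hF hμ 1, levLin_mem hF hμ 1⟩ with hgm
  have hgd : (LinearEquiv.det gm.1 : F) = l ^ q * l⁻¹ := by
    change (LinearEquiv.det (levLin hF hμ 1) : F) = _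
    rw [det_levLin, Subgroup.coe_one, map_one, Units.val_one, mul_one, hdet]
  have hμq : (μ ^ q)⁻¹ = μ := inv_eq_of_mul_eq_one_left hNμ
  have hgapp : ∀ (k : ℕ) (x y : F) (z : Fin p₀ → F),
      (gm ^ k).1 (ph hF p₀ ((x, y), z)) = ph hF p₀ ((μ ^ k * x, μ ^ k * y), z) := by
    intro k
    induction k with
    | zero => simp
    | succ k ih =>
      intro x y z
      rw [pow_succ', Subgroup.coe_mul, LinearEquiv.mul_apply, ih]
      change levLin hF hμ 1 _ = _
      rw [levLin_apply, hμq]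
      simp only [pow_succ', mul_assoc, Subgroup.coe_one, LinearEquiv.coe_one, id]
  set g := lev hF hl gm hgd with hg
  have hgr : g ^ r = 1 := by
    refine SG_ext hF fun ⟨⟨x, y⟩, z⟩ => ?_
    obtain ⟨⟨⟨a, b⟩, c⟩, rfl⟩ := (ph hF p₀).surjective z
    rw [hg, lev_pow, hgapp]
    simp [hlr, hμr, inv_pow, ← pow_mul, mul_comm q r, pow_mul l r q]
  haveI : Fact r.Prime := ⟨hr⟩
  have hpg : IsPGroup r (Subgroup.zpowers g) := by
    intro x
    refine ⟨1, ?_⟩
    obtain ⟨k, hk⟩ := Subgroup.mem_zpowers_iff.1 x.2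
    apply Subtype.ext
    rw [SubgroupClass.coe_pow, ← hk, pow_one, ← zpow_natCast, ← zpow_mul, mul_comm, zpow_mul,
      zpow_natCast, hgr, one_zpow]
    rfl
  obtain ⟨x, hx⟩ : ∃ x : X, g • x = x := by
    by_contra hno
    push Not at hno
    have h1 := hpg.card_modEq_card_fixedPoints (α := X)
    have h2 : IsEmpty (MulAction.fixedPoints (Subgroup.zpowers g) X) :=
      ⟨fun x => hno x.1 (x.2 ⟨g, Subgroup.mem_zpowers g⟩)⟩
    rw [@Nat.card_of_isEmpty _ h2, hX, ← pow_succ] at h1
    replace h1 := Nat.modEq_zero_iff_dvd.1 h1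
    exact hrq (hr.dvd_of_dvd_pow h1)
  -- a transvection of the quotient commuting with it
  obtain ⟨d, hd, hdq⟩ := hF.exists_skew
  have htr : TrvCond q (eV hF p₀) d := ⟨h_ee hF, hdq⟩
  set τ := inner hF (p₀ + 2) ⟨trv hF htr, det_uni hF _⟩ with hτ
  have hcomm : g * τ = τ * g := by
    refine SG_ext hF fun ⟨⟨a, b⟩, z⟩ => ?_
    simp only [Subgroup.coe_mul, LinearEquiv.mul_apply, hg, hτ, inner_apply, lev_apply]
    congr 2
    have e1 : gm.1 (eV hF p₀) = μ • eV hF p₀ := by
      rw [← ph_eV hF, ← pow_one gm, hgapp, pow_one, mul_zero, mul_one, ← map_smul]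
      simp
    rw [trv_apply, trv_apply, map_add, map_smul, e1, smul_smul]
    congr 2
    have e2 : herm q z (eV hF p₀) = herm q (gm.1 z) (gm.1 (eV hF p₀)) := (UG_app gm _ _).symm
    rw [e1, herm_smul_right] at e2
    rw [e2]
    linear_combination (d * herm q (gm.1 z) (eV hF p₀)) * hNμ
  obtain ⟨p, hp⟩ := hsurj x (τ • x)
  have hpw : p.1.1 = 0 := by
    have h1 : g • τ • x = τ • x := by rw [← mul_smul, hcomm, mul_smul, hx]
    rw [← hp, ← mul_smul, hg, lev_tE, mul_smul, ← hg, hx] at h1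
    have h2 := congrArg (fun s : H => s.1.1) (hinj x _ _ h1)
    obtain ⟨⟨⟨a, b⟩, c⟩, hc⟩ := (ph hF p₀).surjective p.1.1
    simp only [hLev] at h2
    rw [← hc, ← pow_one gm, hgapp, ← map_smul] at h2
    have h3 := (ph hF p₀).injective h2
    simp only [pow_one, Prod.smul_mk, smul_eq_mul, Prod.mk.injEq] at h3
    obtain ⟨⟨ha, hb⟩, hc'⟩ := h3
    rw [← mul_assoc] at ha hb
    have ha0 : a = 0 := by
      by_contra h
      exact hlμ (mul_right_cancel₀ h (ha.trans (one_mul a).symm))
    have hb0 : b = 0 := by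
      by_contra h
      exact hlμ (mul_right_cancel₀ h (hb.trans (one_mul b).symm))
    have hc0 : c = 0 := by
      have : (l ^ q - 1) • c = 0 := by rw [sub_smul, one_smul, hc', sub_self]
      exact (smul_eq_zero.1 this).resolve_left (sub_ne_zero.2 hlq)
    rw [← hc, ha0, hb0, hc0]
    exact map_zero _
  have hpa : p.1.2 ∈ skew hF := by
    have := p.2
    rw [hpw, herm_zero_left, add_zero] at this
    rw [mem_skew]
    linear_combination this
  have hτ' : ∀ a b : F, ∀ z : Fin (p₀ + 2) → F, τ.1.1 (ph hF (p₀ + 2) ((a, b), z)) =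
      ph hF (p₀ + 2) ((a, b), z + (d * herm q z (eV hF p₀)) • eV hF p₀) := by
    intro a b z
    rw [hτ, inner_apply, trv_apply]
  set α := -p.1.2 with hα
  have hαs : α ^ q = -α := by rw [hα, hF.neg_pow, (mem_skew hF).1 hpa]
  obtain ⟨ν, hν⟩ : ∃ ν : F, α * ν ^ (q + 1) = -d := by
    rcases eq_or_ne α 0 with h0 | h0
    · exact ⟨0, by exfalso; exact (by
        have hτx : τ • x = x := by
          rw [← hp]
          have : p = hOne hF := Subtype.ext (Prod.ext hpw (neg_eq_zero.1 (hα ▸ h0)))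
          rw [this, tE_one, one_smul]
        have hc : TrvCond q (iW (eV hF p₀)) d :=
          ⟨by rw [herm_iW _ _ hF.q_ne_zero]; exact h_ee hF, hdq⟩
        have hu : uS hF (hc.uniCond hF) = τ := by
          refine SG_ext hF fun ⟨⟨a, b⟩, z⟩ => ?_
          rw [hτ']
          change (trv hF hc).1 _ = _
          rw [trv_apply, ph_apply, ph_apply, iW_add, iW_smul]
          simp only [herm_add_left, herm_smul_left, h_ew hF, h_fw hF, herm_iW _ _ hF.q_ne_zero]
          module
        have h1 := hnofix (hc.uniCond hF) x (by rw [hu]; exact hτx)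
        rw [hu] at h1
        have h2 := hτ' 0 0 (fV hF p₀)
        rw [h1, Subgroup.coe_one, Subgroup.coe_one, LinearEquiv.coe_one, id, h_fe hF, mul_one] at h2
        have h3 := (Prod.ext_iff.1 ((ph hF (p₀ + 2)).injective h2)).2
        have h4 := congrArg (fun w => herm q w (fV hF p₀)) h3
        simp only [herm_add_left, herm_smul_left, h_ef hF, h_ff hF, zero_add, mul_one] at h4
        exact hd h4.symm)⟩
    · obtain ⟨ν, hν⟩ := hF.exists_norm (c := -d / α) (by
        rw [div_pow, hF.neg_pow, hdq, hαs, neg_div_neg_eq])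
      exact ⟨ν, by rw [hν, mul_div_cancel₀ _ h0]⟩
  have hν0 : ν ≠ 0 := by
    rintro rfl
    rw [zero_pow (Nat.succ_ne_zero q), mul_zero] at hν
    exact hd (neg_eq_zero.1 hν.symm)
  set e' := eV hF (p₀ + 2) + ν • iW (eV hF p₀) with he'
  have hcond : UniCond q e' ((-(α * ν)) • iW (eV hF p₀)) α := by
    refine ⟨?_, ?_, ?_⟩
    · simp [he', herm_add_left, hF.herm_add_right, herm_smul_left, herm_smul_right, h_ee hF,
        h_ew hF, h_we hF, herm_iW _ _ hF.q_ne_zero]
    · simp [he', hF.herm_add_right, herm_smul_left, herm_smul_right, h_we hF,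
        herm_iW _ _ hF.q_ne_zero, h_ee hF, herm_neg_left]
    · simp [herm_smul_left, herm_smul_right, herm_iW _ _ hF.q_ne_zero, h_ee hF, hαs, herm_neg_left,
        hF.herm_neg_right]
  have hu : tE hF (hInv hF p) * τ = uS hF hcond := by
    refine SG_ext hF fun ⟨⟨a, b⟩, z⟩ => ?_
    rw [Subgroup.coe_mul, Subgroup.coe_mul, LinearEquiv.mul_apply, hτ', tE_apply]
    change _ = (uni hF hcond).1 _
    rw [uni_apply, ph_apply, ph_apply]
    simp only [hInv, hpw, neg_zero, hF.herm_zero_right, sub_zero, smul_zero, add_zero,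
      (mem_skew hF).1 hpa, ← hα, he', hF.herm_add_right, herm_add_left, herm_smul_left,
      herm_smul_right, h_ee hF, h_fe hF, h_ew hF, h_fw hF, h_we hF, herm_iW _ _ hF.q_ne_zero,
      iW_add, iW_smul, hF.neg_pow, mul_pow, hαs]
    match_scalars
    all_goals first
      | ring1
      | linear_combination (herm q z (eV hF p₀)) * hν
      | linear_combination -(herm q z (eV hF p₀)) * hν
      | (rw [pow_succ] at hν; linear_combination (herm q z (eV hF p₀)) * hν)
      | (rw [pow_succ] at hν; linear_combination -(herm q z (eV hF p₀)) * hν)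
  have h1 := hnofix hcond x (by rw [← hu, mul_smul, ← hp, ← tE_inv, inv_smul_smul])
  rw [← hu] at h1
  have h2 := congrArg (fun t : SG (p₀ + 2) F q =>
    t.1.1 (ph hF (p₀ + 2) ((0, 0), fV hF p₀))) h1
  simp only [Subgroup.coe_mul, LinearEquiv.mul_apply, hτ', tE_apply, h_fe hF, mul_one] at h2
  rw [Subgroup.coe_one, Subgroup.coe_one, LinearEquiv.coe_one, id] at h2
  have h3 := (Prod.ext_iff.1 ((ph hF (p₀ + 2)).injective h2)).2
  simp only [hInv, hpw, neg_zero, smul_zero, add_zero] at h3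
  have h4 := congrArg (fun w => herm q w (fV hF p₀)) h3
  simp only [herm_add_left, herm_smul_left, h_ef hF, h_ff hF, zero_add, mul_one] at h4
  exact hd h4

end Cfsg.Agent.MinU
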