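/-
The degrees and the inequalities between them.
-/
import Mathlib
import Cfsg.Agent.MinU.Central

set_option autoImplicit false

namespace Cfsg.Agent.MinU

/-- The minimal degrees from dimension four on. -/
def Tn (q n : ℕ) : ℕ :=
  if n = 4 then (q + 1) * (q ^ 3 + 1)
  else if q = 2 ∧ Even n then 2 ^ (n - 1) * (2 ^ n - 1) / 3
  else isoN q n

theorem Tn_four (q : ℕ) : Tn q 4 = (q + 1) * (q ^ 3 + 1) := by simp [Tn]

theorem Tn_iso {q n : ℕ} (h4 : n ≠ 4) (h : ¬ (q = 2 ∧ Even n)) : Tn q n = isoN q n := by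
  simp [Tn, h4, h]

theorem three_mul_Tn_two {n : ℕ} (h4 : n ≠ 4) (he : Even n) :
    3 * Tn 2 n = 2 ^ (n - 1) * (2 ^ n - 1) := by
  rw [Tn, if_neg h4, if_pos ⟨rfl, he⟩]
  refine Nat.mul_div_cancel' ?_
  obtain ⟨j, rfl⟩ := he
  refine Dvd.dvd.mul_left ?_ _
  rw [← two_mul, pow_mul]
  have := Nat.sub_dvd_pow_sub_pow (2 ^ 2) 1 j
  norm_num at this ⊢
  exact this

theorem isoN_ge (q m : ℕ) : q ^ (2 * m + 1) ≤ isoN q (m + 2) := by
  simp only [isoN]; omega

theorem isoN_upper {q : ℕ} (hq : 2 ≤ q) : ∀ m, 2 ≤ m → q ^ 2 * isoN q m + 1 ≤ q ^ (2 * m)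
  | 0, h => absurd h (by omega)
  | 1, h => absurd h (by omega)
  | m + 2, _ => by
    rcases Nat.lt_or_ge m 2 with h | h
    · interval_cases m
      · simp only [isoN, mul_zero, add_zero, zero_add, pow_one, Nat.reduceMul, Nat.reduceAdd]
        nlinarith [Nat.mul_le_mul hq hq, Nat.mul_le_mul_left (q ^ 3) hq,
          Nat.mul_le_mul_left (q ^ 2) hq]
      · simp only [isoN, mul_zero, add_zero, zero_add, Nat.reduceMul, Nat.reduceAdd]
        nlinarith [Nat.mul_le_mul hq hq, Nat.mul_le_mul_left (q ^ 5) hq,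
          Nat.mul_le_mul_left (q ^ 4) hq, Nat.mul_le_mul_left (q ^ 3) hq,
          Nat.mul_le_mul_left (q ^ 2) hq]
    · have ih := isoN_upper hq m h
      simp only [isoN]
      have e1 : q ^ (2 * (m + 2)) = q ^ (2 * m) * q ^ 4 := by rw [← pow_add]; congr 1
      have e2 : q ^ (2 * m + 1) = q ^ (2 * m) * q := by rw [pow_succ]
      have hp : 1 ≤ q ^ (2 * m) := Nat.one_le_pow _ _ (by omega)
      have hk : q ^ 3 + q ^ 2 + 1 ≤ q ^ 4 := by
        nlinarith [Nat.mul_le_mul hq hq, Nat.mul_le_mul_left (q ^ 3) hq,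
          Nat.mul_le_mul_left (q ^ 2) hq]
      rw [e1, e2]
      nlinarith [Nat.mul_le_mul_left (q ^ 2) ih, Nat.mul_le_mul_left (q ^ (2 * m)) hk]

theorem isoN_le_mul {q : ℕ} (hq : 2 ≤ q) {m : ℕ} (hm : 2 ≤ m) :
    isoN q (m + 2) ≤ (q + 1) * q ^ (2 * m) := by
  have := isoN_upper hq m hm
  simp only [isoN]
  rw [pow_succ, add_one_mul, mul_comm q (q ^ (2 * m))]
  omega

theorem isoN_two_even {n : ℕ} (he : Even n) :
    2 * (3 * isoN 2 n + 1) = 2 ^ (2 * n) + 2 ^ n := by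
  have h := isoN_formula (q := 2) n
  rw [he.neg_pow] at h
  push_cast at h
  norm_num at h
  exact_mod_cast h

theorem isoN_two_odd {n : ℕ} (ho : Odd n) :
    2 * (3 * isoN 2 n + 1) + 2 ^ n = 2 ^ (2 * n) := by
  have h := isoN_formula (q := 2) n
  rw [ho.neg_pow] at h
  push_cast at h
  norm_num at h
  have : ((2 * (3 * isoN 2 n + 1) + 2 ^ n : ℕ) : ℤ) = ((2 ^ (2 * n) : ℕ) : ℤ) := by
    push_cast
    linear_combination h
  exact_mod_cast this

theorem pow_pred_two {n : ℕ} (hn : 1 ≤ n) : 2 * 2 ^ (n - 1) = 2 ^ n := by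
  obtain ⟨k, rfl⟩ := Nat.exists_eq_add_of_le' hn
  rw [Nat.add_sub_cancel, pow_succ']

theorem six_mul_Tn_two {n : ℕ} (h4 : n ≠ 4) (he : Even n) (hn : 1 ≤ n) :
    6 * Tn 2 n + 2 ^ n = 2 ^ (2 * n) := by
  have h := three_mul_Tn_two h4 he
  have h1 := pow_pred_two hn
  have h2 : 1 ≤ 2 ^ n := Nat.one_le_two_pow
  rw [show 6 * Tn 2 n = 2 * (3 * Tn 2 n) by ring, h, ← mul_assoc, h1, Nat.mul_sub, mul_one,
    two_mul n, pow_add]
  exact Nat.sub_add_cancel (Nat.le_mul_of_pos_right _ (by omega))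

theorem Tn_le_isoN {q : ℕ} (hq : 2 ≤ q) {n : ℕ} (hn : 4 ≤ n) : Tn q n ≤ isoN q n := by
  by_cases h4 : n = 4
  · subst h4
    rw [Tn_four, isoN_four]
    nlinarith [Nat.mul_le_mul hq hq, Nat.mul_le_mul_left (q ^ 4) hq, Nat.mul_le_mul_left (q ^ 3) hq]
  by_cases h : q = 2 ∧ Even n
  · obtain ⟨rfl, he⟩ := h
    have h1 := six_mul_Tn_two h4 he (by omega)
    have h2 := isoN_two_even he
    have h3 : 2 ≤ 2 ^ n := Nat.le_self_pow (by omega) 2
    omega
  · rw [Tn_iso h4 h]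

theorem le_Tn_four {q : ℕ} : q ^ 4 + q ^ 3 ≤ Tn q 4 := by
  rw [Tn_four]; ring_nf; omega

theorem le_Tn {q : ℕ} (hq : 2 ≤ q) {m : ℕ} (hm : 4 ≤ m) : q ^ (2 * m - 4) ≤ Tn q m := by
  by_cases h4 : m = 4
  · subst h4
    exact (Nat.le_add_right _ _).trans le_Tn_four
  by_cases h : q = 2 ∧ Even m
  · obtain ⟨rfl, he⟩ := h
    have h1 := six_mul_Tn_two h4 he (by omega)
    have e : 2 ^ (2 * m) = 16 * 2 ^ (2 * m - 4) := by
      rw [show (16 : ℕ) = 2 ^ 4 by norm_num, ← pow_add]; congr 1; omega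
    have h2 : 2 ^ m ≤ 2 * 2 ^ (2 * m - 4) := by
      rw [← pow_succ']; exact Nat.pow_le_pow_right (by norm_num) (by omega)
    omega
  · rw [Tn_iso h4 h]
    obtain ⟨j, rfl⟩ : ∃ j, m = j + 2 := ⟨m - 2, by omega⟩
    exact le_trans (Nat.pow_le_pow_right (by omega) (by omega)) (isoN_ge q j)

theorem split_num {q : ℕ} (hq : 2 ≤ q) {m : ℕ} (hm : 4 ≤ m) :
    (q + 1) * q ^ (2 * m) ≤ q ^ (m + 1) * Tn q m := by
  by_cases h4 : m = 4
  · subst h4
    refine le_trans (le_of_eq ?_) (Nat.mul_le_mul_left _ le_Tn_four)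
    ring
  refine le_trans ?_ (Nat.mul_le_mul_left _ (le_Tn hq hm))
  rw [← pow_add]
  calc (q + 1) * q ^ (2 * m) ≤ q ^ 2 * q ^ (2 * m) :=
        Nat.mul_le_mul_right _ (by nlinarith)
    _ = q ^ (2 + 2 * m) := (pow_add q 2 (2 * m)).symm
    _ ≤ _ := Nat.pow_le_pow_right (by omega) (by omega)

theorem full_num {q : ℕ} (hq : 2 ≤ q) {m : ℕ} (hm : 4 ≤ m) :
    q ^ (2 * ((m + 2) / 2)) - 1 ≤ Tn q m * (q ^ 2 - 1) := by
  refine le_trans (Nat.sub_le_sub_right (Nat.pow_le_pow_right (show 0 < q by omega)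
    (show 2 * ((m + 2) / 2) ≤ m + 2 by omega)) 1) ?_
  have h4 : 4 ≤ q ^ 2 := Nat.pow_le_pow_left hq 2
  by_cases hm4 : m = 4
  · subst hm4
    refine le_trans ?_ (Nat.mul_le_mul_right _ le_Tn_four)
    have h1 : 1 ≤ q ^ 6 := Nat.one_le_pow _ _ (by omega)
    have h2 : 1 ≤ q ^ 2 := by omega
    zify [h1, h2]
    have hq' : (2 : ℤ) ≤ q := by exact_mod_cast hq
    norm_num
    nlinarith [mul_nonneg (pow_nonneg (show (0:ℤ) ≤ q by omega) 4) (sub_nonneg.2 hq'),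
      mul_nonneg (pow_nonneg (show (0:ℤ) ≤ q by omega) 3) (sub_nonneg.2 hq')]
  refine le_trans ?_ (Nat.mul_le_mul_right _ (le_Tn hq hm))
  refine le_trans (Nat.sub_le _ _) ?_
  calc q ^ (m + 2) ≤ q ^ (2 * m - 4 + 1) := Nat.pow_le_pow_right (by omega) (by omega)
    _ = q ^ (2 * m - 4) * q := pow_succ _ _
    _ ≤ _ := Nat.mul_le_mul_left _ (by
      have : q * 2 ≤ q * q := Nat.mul_le_mul_left _ hq
      rw [sq]; omega)

theorem noniso_num {q : ℕ} (hq : 3 ≤ q) {m : ℕ} (hm : 3 ≤ m) :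
    (2 * q ^ 2 - 1) * isoN q m + 1 ≤ q ^ (2 * m) := by
  have h := isoN_formula (q := q) m
  have h1 : 1 ≤ 2 * q ^ 2 := by nlinarith
  zify [h1]
  have hq' : (3 : ℤ) ≤ q := by exact_mod_cast hq
  have hq2 : (9 : ℤ) ≤ (q : ℤ) ^ 2 := by nlinarith
  have hN : (0 : ℤ) ≤ isoN q m := Int.natCast_nonneg _
  have hp : (q : ℤ) ^ m ≤ (q : ℤ) ^ (2 * m) := pow_le_pow_right₀ (by omega) (by omega)
  have hp' : 27 * (q : ℤ) ^ m ≤ (q : ℤ) ^ (2 * m) := by
    rw [two_mul, pow_add]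
    refine mul_le_mul_of_nonneg_right ?_ (by positivity)
    calc (27 : ℤ) = 3 ^ 3 := by norm_num
      _ ≤ (q : ℤ) ^ 3 := pow_le_pow_left₀ (by norm_num) hq' 3
      _ ≤ _ := pow_le_pow_right₀ (by omega) hm
  have habs : (-(q : ℤ)) ^ m ≤ (q : ℤ) ^ m := by
    rcases neg_pow' (q : ℤ) m |> fun _ => Nat.even_or_odd m with he | ho
    · rw [he.neg_pow]
    · rw [ho.neg_pow]; linarith [pow_nonneg (show (0 : ℤ) ≤ q by omega) m]
  set A : ℤ := (q : ℤ) ^ (2 * m)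
  set B : ℤ := (q : ℤ) ^ m
  set N : ℤ := (isoN q m : ℤ)
  have h2 : (q : ℤ) * ((q ^ 2 - 1) * N) ≤ A + q * B := by
    nlinarith [mul_le_mul_of_nonneg_left habs (show (0 : ℤ) ≤ q - 1 by omega),
      pow_nonneg (show (0 : ℤ) ≤ q by omega) m]
  have h3 : (8 : ℤ) * (2 * q ^ 2 - 1) ≤ 17 * (q ^ 2 - 1) := by nlinarith
  have h4 : 8 * q * ((2 * q ^ 2 - 1) * N) ≤ 17 * (A + q * B) :=
    le_trans (by nlinarith [mul_le_mul_of_nonneg_right h3 hN]) (mul_le_mul_of_nonneg_left h2 (by norm_num))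
  have h5 : 27 * (q * B) ≤ q * A := by nlinarith
  refine le_of_mul_le_mul_left ?_ (show (0 : ℤ) < 8 * q * 27 by omega)
  have hA : (9 : ℤ) ≤ A := le_trans hq2 (pow_le_pow_right₀ (by omega) (by omega))
  nlinarith [mul_nonneg (sub_nonneg.2 hq') (show (0 : ℤ) ≤ 199 * A - 216 by linarith),
    mul_le_mul_of_nonneg_left h4 (show (0 : ℤ) ≤ 27 by norm_num)]

/-- The assumptions of the central bound hold below the degree. -/
theorem central_num {q m R : ℕ} (hq : 2 ≤ q) (hm : 3 ≤ m)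
    (hR : R + q ^ (2 * m) * q < Tn q (m + 2)) : CentralNum q m R (Tn q m) := by
  have hT := Tn_le_isoN hq (n := m + 2) (by omega)
  have hN : isoN q (m + 2) = q ^ (2 * m) * q + q ^ 2 * isoN q m + 1 := by rw [isoN, pow_succ]
  have hR' : R ≤ q ^ 2 * isoN q m := by omega
  have hup := isoN_upper hq m (by omega)
  have h4 : 4 ≤ q ^ 2 := Nat.pow_le_pow_left hq 2
  have hpos : 1 ≤ isoN q m := by
    obtain ⟨j, rfl⟩ : ∃ j, m = j + 2 := ⟨m - 2, by omega⟩
    exact le_trans (Nat.one_le_pow _ _ (by omega)) (isoN_ge q j)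
  refine ⟨by omega, ?_, ?_, ?_⟩
  · have : q ^ 2 * isoN q m < 2 * (q ^ 2 - 1) * isoN q m :=
      Nat.mul_lt_mul_of_pos_right (by omega) (by omega)
    rw [← mul_assoc]
    omega
  · by_cases h3 : 3 ≤ q
    · left
      have := noniso_num h3 hm
      have e : (2 * q ^ 2 - 1) * isoN q m = q ^ 2 * isoN q m + (q ^ 2 - 1) * isoN q m := by
        rw [← add_mul]; congr 1; omega
      omega
    obtain rfl : q = 2 := by omega
    by_cases hm3 : m = 3
    · subst hm3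
      left
      have : isoN 2 3 = 9 := isoN_three 2
      rw [this] at hR' ⊢
      norm_num at hR' ⊢
      omega
    right
    have hm4 : 4 ≤ m := by omega
    refine ⟨hm4, rfl, ?_⟩
    norm_num at hR' hR ⊢
    rcases Nat.even_or_odd m with he | ho
    · have h2 := isoN_two_even he
      have hne : m + 2 ≠ 4 := by omega
      have h6 := six_mul_Tn_two hne (he.add ⟨1, rfl⟩) (by omega)
      rw [show 2 * (m + 2) = 2 * m + 4 by ring, pow_add 2 (2 * m), pow_add 2 m] at h6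
      norm_num at h6
      refine ⟨?_, ?_⟩
      rotate_left
      · linarith [Nat.succ_le_of_lt hR]
      by_cases h4' : m = 4
      · subst h4'
        rw [Tn_four]
        norm_num at h2 h6 hR ⊢
        omega
      · have h6' := six_mul_Tn_two h4' he (by omega)
        have h16 : 2 ^ m * 2 ≤ 2 ^ (2 * m) := by
          rw [← pow_succ]; exact Nat.pow_le_pow_right (by norm_num) (by omega)
        omega
    · have h2 := isoN_two_odd ho
      have hne : ¬ (2 = 2 ∧ Even m) := fun h => (Nat.not_even_iff_odd.2 ho) h.2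
      rw [Tn_iso (by obtain ⟨k, rfl⟩ := ho; omega) hne]
      have : 2 ≤ 2 ^ m := Nat.le_self_pow (by omega) 2
      refine ⟨by omega, by linarith⟩
  · by_cases hm3 : m ≤ 3
    · exact Or.inl hm3
    refine Or.inr ?_
    have := Nat.mul_le_mul_left (q ^ 4) (le_Tn hq (m := m) (by omega))
    rw [← pow_add, show 4 + (2 * m - 4) = 2 * m by omega] at this
    omega

end Cfsg.Agent.MinU
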