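/-
The minimal degree of the special unitary groups from dimension four on.
-/
import Mathlib
import Cfsg.Agent.MinU.FourB
import Cfsg.Agent.MinU.Free
import Cfsg.Agent.MinU.Numbers

set_option autoImplicit false

namespace Cfsg.Agent.MinU

open Cfsg.Agent.Classical.U

universe u

variable {F : Type u} [Field F] {q : ℕ}
variable (hF : SqField F q)
include hF

/-- No transitive action below the degree. -/
theorem transitive_absurd {m : ℕ} (hm : 2 ≤ m) (ih : 4 ≤ m → Small.{u, u} m F q (Tn q m))
    {X : Type u} [UAct F q X m] [Finite X] [Nonempty X]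
    [MulAction.IsPretransitive (SG m F q) X] (hnofix : ∀ y : X, ∃ g : SG m F q, g • y ≠ y)
    (hk : Nat.card X < Tn q (m + 2)) : False := by
  classical
  obtain ⟨hfin, hcard⟩ := id hF
  have hq : 2 ≤ q := hF.one_lt
  have hn : ¬ (m + 2 = 3 ∧ q = 2) := by omega
  have hN : Nat.card X < isoN q (m + 2) := lt_of_lt_of_le hk (Tn_le_isoN hq (by omega))
  have h2 : 2 * 2 ≤ q ^ 2 := (Nat.mul_le_mul hq hq).trans (sq q).ge
  rcases (show m = 2 ∨ m = 3 ∨ 4 ≤ m by omega) with rfl | rfl | hm4
  · rw [Tn_four] at hk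
    refine four_absurd hF hk hnofix
      (full_absurd hF hn hnofix (Or.inr ⟨by norm_num, rfl⟩) hN ?_)
    have hT : isoN q (2 + 2) * isoN q 2 * (q ^ 2 - 1) =
        (q + 1) * (q ^ 3 + 1) * (q ^ 4 - 1) := by
      rw [show 2 + 2 = 4 from rfl, isoN_four, isoN_two]
      have h1 : 1 ≤ q ^ 2 := by omega
      have h4 : 1 ≤ q ^ 4 := Nat.one_le_pow _ _ (by omega)
      zify [h1, h4]
      ring
    rw [hT]
    have h16 : 2 ^ 4 ≤ q ^ 4 := Nat.pow_le_pow_left hq 4
    exact Nat.mul_lt_mul_of_pos_right hk (Nat.sub_pos_of_lt (lt_of_lt_of_le (by norm_num) h16))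
  · have hfull := full_absurd hF hn hnofix (Or.inr ⟨le_rfl, rfl⟩) hN (by
      calc Nat.card X * (q ^ (2 * ((3 + 2) / 2)) - 1)
          ≤ Nat.card X * (isoN q 3 * (q ^ 2 - 1)) := by
            refine Nat.mul_le_mul_left _ ?_
            rw [isoN_three]
            have h1 : 1 ≤ q ^ 2 := by omega
            have h4 : 1 ≤ q ^ 4 := Nat.one_le_pow _ _ (by omega)
            norm_num
            zify [h1, h4]
            have hq' : (2 : ℤ) ≤ q := by exact_mod_cast hq
            nlinarith [mul_nonneg (pow_nonneg (show (0:ℤ) ≤ q by omega) 4) (sub_nonneg.2 hq'),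
              mul_nonneg (pow_nonneg (show (0:ℤ) ≤ q by omega) 3) (sub_nonneg.2 hq'),
              mul_nonneg (pow_nonneg (show (0:ℤ) ≤ q by omega) 2) (sub_nonneg.2 hq')]
        _ < isoN q (3 + 2) * (isoN q 3 * (q ^ 2 - 1)) := by
            refine Nat.mul_lt_mul_of_pos_right hN (Nat.mul_pos ?_ (by omega))
            rw [isoN_three]; omega
        _ = _ := (mul_assoc _ _ _).symm)
    exact final_step hF hn le_rfl hnofix (five_split hF hN)
      (fun h => free_absurd hF (by norm_num) h (by
        have := isoN_le_mul hq (m := 3) (by norm_num)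
        refine lt_of_lt_of_le (lt_of_lt_of_le hN this) ?_
        calc (q + 1) * q ^ (2 * 3) ≤ (2 * q) * q ^ (2 * 3) := Nat.mul_le_mul_right _ (by omega)
          _ = _ := by ring))
      hfull (T' := Tn q 3) (fun h => absurd h (by norm_num))
      (fun R hR => central_num hq le_rfl (lt_of_le_of_lt hR hk)) hN
  · have hs := ih hm4
    have hle := isoN_le_mul hq (m := m) (by omega)
    have hTpos : 0 < Tn q m := lt_of_lt_of_le (pow_pos (by omega) _) (le_Tn hq hm4)
    have hfull := full_absurd hF hn hnofix (Or.inl hs) hN (by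
      rw [mul_assoc]
      exact lt_of_le_of_lt (Nat.mul_le_mul_left _ (full_num hq hm4))
        (Nat.mul_lt_mul_of_pos_right hN (Nat.mul_pos hTpos (by omega))))
    have hk1 : Nat.card X < q ^ (m + 1) * Tn q m :=
      lt_of_lt_of_le (lt_of_lt_of_le hN hle) (split_num hq hm4)
    have hk2 : Nat.card X < (q + 1) * q ^ (2 * m) := lt_of_lt_of_le hN hle
    exact final_step hF hn (by omega) hnofix (regular_or_central hF hm4 hs hk1 hk2)
      (fun h => free_absurd hF hm h (lt_of_lt_of_le hk2 (by
        calc (q + 1) * q ^ (2 * m) ≤ (2 * q) * q ^ (2 * m) := Nat.mul_le_mul_right _ (by omega)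
          _ = _ := by ring)))
      hfull (fun _ => hs) (fun R hR => central_num hq (by omega) (lt_of_le_of_lt hR hk)) hN

/-- Below the degree all actions are trivial. -/
theorem small_SUG : ∀ n : ℕ, 4 ≤ n → Small.{u, u} n F q (Tn q n) := by
  intro n
  induction n using Nat.strong_induction_on with
  | _ n ih =>
    intro hn
    obtain ⟨m, rfl⟩ : ∃ m, n = m + 2 := ⟨n - 2, by omega⟩
    intro Y _ _ hY g₀ y
    by_contra hne
    set O := MulAction.orbit ↥(SUG (m + 2) F q) y
    letI : UAct F q ↥O m := ⟨inferInstance⟩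
    have : Nonempty ↥O := ⟨⟨y, MulAction.mem_orbit_self y⟩⟩
    have : MulAction.IsPretransitive (SG m F q) ↥O :=
      inferInstanceAs (MulAction.IsPretransitive ↥(SUG (m + 2) F q) ↥O)
    refine transitive_absurd hF (X := ↥O) (by omega) (fun hm => ih m (by omega) hm) ?_ ?_
    · intro z
      by_contra hz
      push Not at hz
      obtain ⟨h, hh⟩ := MulAction.exists_smul_eq (SG m F q) z ⟨y, MulAction.mem_orbit_self y⟩
      rw [hz h] at hh
      subst hh
      exact hne (congrArg Subtype.val (hz g₀))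
    · exact lt_of_le_of_lt (Finite.card_subtype_le _) hY

end Cfsg.Agent.MinU
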