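/-
Indices of subgroups of the projective special unitary groups.
-/
import Mathlib
import Cfsg.Prelude.Def_Classical
import Cfsg.Agent.Classical.USimple
import Cfsg.Agent.Forms.UnitaryStab
import Cfsg.Agent.MinU.Main

set_option autoImplicit false

namespace Cfsg.Agent.MinU

open Cfsg.Agent.Classical.U Module

universe u

variable {F : Type u} [Field F] {q : ℕ}
variable (hF : SqField F q)
include hF

/-- Every proper subgroup has large index. -/
theorem index_bound {n : ℕ} (hn : 4 ≤ n) :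
    ∀ H : Subgroup (Cfsg.PSU n F q), H ≠ ⊤ → Tn q n ≤ H.index := by
  obtain ⟨hfin, -⟩ := id hF
  intro H hH
  by_contra hlt
  push Not at hlt
  obtain ⟨φ⟩ := nonempty_PSU_equiv n F q
  let π : ↥(SUG n F q) →* Cfsg.PSU n F q :=
    φ.symm.toMonoidHom.comp (QuotientGroup.mk' _)
  have hπ : Function.Surjective π := φ.symm.surjective.comp (QuotientGroup.mk'_surjective _)
  set K := H.comap π
  have : Finite ((Fin n → F) ≃ₗ[F] (Fin n → F)) :=
    Finite.of_injective (fun g : (Fin n → F) ≃ₗ[F] (Fin n → F) => (g : _ → _))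
      DFunLike.coe_injective
  have hidx : K.index = H.index := Subgroup.index_comap_of_surjective H hπ
  have hcard : Nat.card (↥(SUG n F q) ⧸ K) = H.index := by
    rw [← hidx]; exact (Subgroup.index_eq_card K).symm
  have hfix := small_SUG hF n hn (↥(SUG n F q) ⧸ K) (by rw [hcard]; exact hlt)
  refine hH (Subgroup.index_eq_one.1 ?_)
  rw [← hcard, Nat.card_eq_one_iff_unique]
  exact ⟨⟨fun a b => by
    obtain ⟨g, rfl⟩ := MulAction.exists_smul_eq ↥(SUG n F q) a b
    rw [hfix]⟩, ⟨((1 : ↥(SUG n F q)) : ↥(SUG n F q) ⧸ K)⟩⟩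

/-- An orbit of subspaces fixed by scalars gives an index. -/
theorem exists_index_orbit {n : ℕ} (hn : 2 ≤ n) {S : Set (Submodule F (Fin n → F))}
    {L₀ : Submodule F (Fin n → F)} (hL₀ : L₀ ∈ S)
    (hmem : ∀ (g : ↥(SUG n F q)), ∀ L ∈ S, L.map g.1.1.toLinearMap ∈ S)
    (htr : ∀ L ∈ S, ∃ g : ↥(SUG n F q), L₀.map g.1.1.toLinearMap = L) :
    ∃ H : Subgroup (Cfsg.PSU n F q), H.index = Nat.card S := by
  obtain ⟨hfin, -⟩ := id hF
  obtain ⟨φ⟩ := nonempty_PSU_equiv n F q
  letI : MulAction ↥(SUG n F q) (Submodule F (Fin n → F)) :=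
    { smul := fun g L => L.map g.1.1.toLinearMap
      one_smul := fun L => Submodule.map_id L
      mul_smul := fun g g' L => Submodule.map_comp g'.1.1.toLinearMap g.1.1.toLinearMap L }
  set Hs := MulAction.stabilizer ↥(SUG n F q) L₀
  have horb : MulAction.orbit ↥(SUG n F q) L₀ = S := by
    ext L
    exact ⟨fun ⟨g, hg⟩ => hg ▸ hmem g L₀ hL₀, fun hL => (htr L hL).imp fun _ h => h⟩
  have hcen : Subgroup.center ↥(SUG n F q) ≤ Hs := fun g hg => by
    obtain ⟨c, hc⟩ := center_SUG_scalar hF hn g hg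
    rw [MulAction.mem_stabilizer_iff]
    refine Submodule.eq_of_le_of_finrank_eq ?_ (LinearEquiv.finrank_map_eq g.1.1 L₀)
    rintro _ ⟨w, hw, rfl⟩
    change g.1.1 w ∈ L₀
    rw [hc]
    exact L₀.smul_mem c hw
  refine ⟨(Hs.map (QuotientGroup.mk' (Subgroup.center ↥(SUG n F q)))).comap φ.toMonoidHom, ?_⟩
  rw [Subgroup.index_comap_of_surjective _ φ.surjective,
    Subgroup.index_map_eq _ (QuotientGroup.mk'_surjective _) (by
      rw [QuotientGroup.ker_mk']; exact hcen),
    MulAction.index_stabilizer, horb, Nat.card_coe_set_eq]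

/-- The stabiliser of an isotropic line. -/
theorem exists_index_iso {m : ℕ} :
    ∃ H : Subgroup (Cfsg.PSU (m + 2) F q), H.index = isoN q (m + 2) := by
  refine (exists_index_orbit hF (by omega) (eLine_mem hF (m := m))
    (fun g L hL => mapL_mem g hL) fun L hL => ?_).imp fun H hH =>
      hH.trans (card_isoLines hF (m + 2))
  · obtain ⟨g, hg⟩ := exists_mapL_eq hF hL
    refine ⟨g⁻¹, ?_⟩
    rw [← hg]
    change mapL g⁻¹ (mapL g L) = L
    rw [mapL, mapL, ← Submodule.map_comp]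
    convert Submodule.map_id L
    exact LinearMap.ext fun v => g.1.1.symm_apply_apply v

/-- The stabiliser of a totally isotropic plane in dimension four. -/
theorem exists_index_plane (h : Nat.card (Forms.TISub 4 2 F q) = (q + 1) * (q ^ 3 + 1)) :
    ∃ H : Subgroup (Cfsg.PSU 4 F q), H.index = (q + 1) * (q ^ 3 + 1) := by
  obtain ⟨hfin, -⟩ := id hF
  obtain ⟨W₀⟩ : Nonempty (Forms.TISub 4 2 F q) := by
    refine (Nat.card_pos_iff.1 ?_).1
    rw [h]; positivity
  refine (exists_index_orbit hF (n := 4) (by norm_num)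
    (S := {W : Submodule F (Fin 4 → F) | finrank F W = 2 ∧
      ∀ u ∈ W, ∀ v ∈ W, Cfsg.hermForm 4 F q u v = 0}) W₀.2
    (fun g L hL => ⟨by rw [LinearEquiv.finrank_map_eq g.1.1 L, hL.1], by
      rintro _ ⟨u, hu, rfl⟩ _ ⟨v, hv, rfl⟩
      exact (UG_app g.1 u v).trans (hL.2 u hu v hv)⟩) fun L hL => ?_).imp fun H hH => hH.trans h
  · obtain ⟨g, hg⟩ := Forms.UG_transitive_TISub hF W₀ ⟨L, hL⟩
    obtain ⟨k, hk, hkd⟩ := Forms.exists_ustab_det hF (n := 4) (by norm_num)
      (W := W₀.1) W₀.2.2 (c := ((LinearEquiv.det g.1 : Fˣ) : F)⁻¹)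
      (by rw [inv_pow, det_norm_one hF, inv_one])
    refine ⟨⟨g * k, mem_SUG.2 (Units.ext ?_)⟩, ?_⟩
    · rw [Subgroup.coe_mul, map_mul, Units.val_mul, hkd, mul_inv_cancel₀ (Units.ne_zero _),
        Units.val_one]
    · change W₀.1.map (g * k).1.toLinearMap = L
      rw [Subgroup.coe_mul, LinearEquiv.coe_toLinearMap_mul, Module.End.mul_eq_comp,
        Submodule.map_comp, Forms.mem_ustab_iff.1 hk, hg]

/-- Over four elements the non-isotropic lines. -/
theorem exists_index_noniso (h2 : q = 2) {n : ℕ} (hn : 2 ≤ n) (h4 : n ≠ 4) (he : Even n) :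
    ∃ H : Subgroup (Cfsg.PSU n F q), H.index = Tn q n := by
  subst h2
  obtain ⟨hfin, hcard⟩ := id hF
  have hnorm : ∀ c : F, c ≠ 0 → c * c ^ 2 = 1 := fun c hc => by
    have := Fintype.ofFinite F
    have := FiniteField.pow_card_sub_one_eq_one c hc
    rw [← Nat.card_eq_fintype_card, hcard] at this
    rw [← pow_succ']
    simpa using this
  set S₀ : Set (Fin n → F) := {v | herm 2 v v = 1}
  have hsm : ∀ v ∈ S₀, ∀ c : F, c ≠ 0 → c • v ∈ S₀ := fun v hv c hc => by
    change herm 2 (c • v) (c • v) = 1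
    rw [herm_smul_left, herm_smul_right, show herm 2 v v = 1 from hv, mul_one, hnorm c hc]
  have h0 : ∀ v ∈ S₀, v ≠ 0 := fun v hv h => by
    have : herm 2 v v = 1 := hv
    rw [h, herm_zero_left] at this
    exact zero_ne_one this
  have hcnt := card_linesOf hF S₀ h0 hsm
  have hval := card_value_formula hF (one_pow 2) (one_ne_zero (α := F)) n
  rw [he.neg_pow] at hval
  push_cast at hval
  have hT := six_mul_Tn_two h4 he (by omega)
  have hlines : Nat.card (linesOf S₀) = Tn 2 n := by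
    have hval' : 2 * Nat.card S₀ + 2 ^ n = 2 ^ (2 * n) := by
      have this : ((2 * Nat.card S₀ + 2 ^ n : ℕ) : ℤ) = ((2 ^ (2 * n) : ℕ) : ℤ) := by
        simp only [Nat.cast_add, Nat.cast_mul, Nat.cast_pow, Nat.cast_ofNat]
        change (2 : ℤ) * Nat.card {v : Fin n → F // herm 2 v v = 1} + 2 ^ n = 2 ^ (2 * n)
        linear_combination hval
      exact Int.ofNat_inj.1 this
    rw [show 2 ^ 2 - 1 = 3 from rfl] at hcnt
    omega
  obtain ⟨v₀, hv₀⟩ : ∃ v₀, v₀ ∈ S₀ := by
    by_contra h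
    push Not at h
    have : Nat.card (linesOf S₀) = 0 := by
      have : IsEmpty (linesOf S₀) := ⟨fun L => by
        obtain ⟨v, hv, -⟩ := L.2
        exact h v hv⟩
      exact Nat.card_of_isEmpty
    have h3 : 2 ^ n < 2 ^ (2 * n) := Nat.pow_lt_pow_right (by norm_num) (by omega)
    omega
  refine (exists_index_orbit hF hn (S := linesOf S₀)
    (L₀ := Submodule.span F {v₀}) ⟨v₀, hv₀, rfl⟩ (fun g L hL => ?_) fun L hL => ?_).imp
      fun H hH => hH.trans hlines
  · obtain ⟨v, hv, rfl⟩ := hL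
    refine ⟨g.1.1 v, ?_, ?_⟩
    · change herm 2 (g.1.1 v) (g.1.1 v) = 1
      rw [UG_app]; exact hv
    · rw [Submodule.map_span, Set.image_singleton]; rfl
  · obtain ⟨v, hv, rfl⟩ := hL
    obtain ⟨g, hg⟩ := exists_SUG_map hF hn (v := v₀) (v' := v)
      (by rw [show herm 2 v₀ v₀ = 1 from hv₀]; exact one_ne_zero)
      (by rw [show herm 2 v₀ v₀ = 1 from hv₀, show herm 2 v v = 1 from hv])
    refine ⟨g, ?_⟩
    rw [Submodule.map_span, Set.image_singleton, LinearEquiv.coe_coe, hg]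

/-- The closed form of the number of isotropic points. -/
theorem isoN_closed {n : ℕ} (hn : 1 ≤ n) :
    (isoN q n : ℤ) * ((q : ℤ) ^ 2 - 1) =
      ((q : ℤ) ^ n - (-1) ^ n) * ((q : ℤ) ^ (n - 1) + (-1) ^ n) := by
  obtain ⟨k, rfl⟩ := Nat.exists_eq_add_of_le' hn
  have h := isoN_formula (q := q) (k + 1)
  rw [neg_pow] at h
  rw [Nat.add_sub_cancel]
  refine mul_left_cancel₀ (show (q : ℤ) ≠ 0 by exact_mod_cast hF.q_ne_zero) ?_
  have e : ((-1 : ℤ) ^ (k + 1)) * (-1) ^ (k + 1) = 1 := by rw [← mul_pow]; norm_num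
  linear_combination h + (q : ℤ) * e

end Cfsg.Agent.MinU
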