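/-
Coordinates for the three-dimensional special unitary group: the stabiliser of an isotropic line
and its action on the isotropic lines.
-/
import Mathlib
import Cfsg.Agent.MinU.Mixed

set_option autoImplicit false

namespace Cfsg.Agent.MinU.Three

open Cfsg.Agent.Classical.U Cfsg.Agent.MinU

universe u

variable {F : Type u} [Field F] {q : ℕ}

theorem ext_one {v w : Fin 1 → F} (h : v 0 = w 0) : v = w :=
  funext fun i => by rw [Subsingleton.elim i 0]; exact h

variable (hF : SqField F q)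
include hF

theorem herm_one (v w : Fin 1 → F) : herm q v w = v 0 * (w 0) ^ q := by
  rw [herm_succ]
  simp [herm_def]

theorem eq_zero_of_norm {v : Fin 1 → F} (h : herm q v v = 0) : v = 0 := by
  rw [herm_one hF, ← pow_succ'] at h
  exact ext_one (pow_eq_zero_iff (Nat.succ_ne_zero q) |>.1 h)

theorem units_pow (l : Fˣ) : (l : F) ^ (q ^ 2 - 1) = 1 := by
  obtain ⟨hfin, hcard⟩ := id hF
  have := Fintype.ofFinite F
  rw [← hcard, Nat.card_eq_fintype_card]
  exact FiniteField.pow_card_sub_one_eq_one _ l.ne_zero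

omit hF in
/-- The multiplier on the quotient of the radical. -/
def mu (q : ℕ) : Fˣ →* Fˣ where
  toFun l := l ^ q * (l ^ q * l⁻¹)
  map_one' := by simp
  map_mul' l l' := by simp only [mul_pow, mul_inv]; ac_rfl

omit hF in
/-- The multiplier on the centre of the radical. -/
def nu (q : ℕ) : Fˣ →* Fˣ := powMonoidHom (q + 1)

omit hF in
theorem mu_coe (l : Fˣ) : (mu q l : F) = (l : F) ^ q * ((l : F) ^ q * (l : F)⁻¹) := by
  simp [mu]

omit hF in
theorem nu_coe (l : Fˣ) : (nu q l : F) = (l : F) * (l : F) ^ q := by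
  simp [nu, pow_succ']

theorem mu_norm (l : Fˣ) : (mu q l : F) * (mu q l : F) ^ q = (nu q l : F) := by
  have h := l.ne_zero
  have h' := pow_ne_zero q h
  rw [mu_coe, nu_coe]
  simp only [mul_pow, inv_pow, hF.pow_pow]
  field_simp

/-- The scalar on the last coordinate. -/
noncomputable def gS (l : Fˣ) : UG 1 F q :=
  ⟨LinearEquiv.smulOfNeZero F (Fin 1 → F) ((l : F) ^ q * (l : F)⁻¹)
    (mul_ne_zero (pow_ne_zero _ l.ne_zero) (inv_ne_zero l.ne_zero)), fun u v => by
      change herm q (((l : F) ^ q * (l : F)⁻¹) • u) (((l : F) ^ q * (l : F)⁻¹) • v) = herm q u v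
      rw [herm_smul_left, herm_smul_right, mul_pow, inv_pow, hF.pow_pow]
      have h := l.ne_zero
      have h' := pow_ne_zero q h
      field_simp⟩

theorem gS_apply (l : Fˣ) (v : Fin 1 → F) : (gS hF l).1 v = ((l : F) ^ q * (l : F)⁻¹) • v := rfl

theorem det_gS (l : Fˣ) : (LinearEquiv.det (gS hF l).1 : F) = (l : F) ^ q * (l : F)⁻¹ := by
  rw [LinearEquiv.coe_det]
  rw [show ((gS hF l).1 : (Fin 1 → F) →ₗ[F] (Fin 1 → F)) =
    ((l : F) ^ q * (l : F)⁻¹) • LinearMap.id from LinearMap.ext fun v => rfl,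
    LinearMap.det_smul, LinearMap.det_id, Module.finrank_pi, Fintype.card_fin, pow_one, mul_one]

/-- A Levi element as a function of its parameter. -/
noncomputable def lv0 (l : Fˣ) : SG 1 F q := lev hF l.ne_zero (gS hF l) (det_gS hF l)

theorem lv0_apply (l : Fˣ) (x y : F) (z : Fin 1 → F) :
    (lv0 hF l).1.1 (ph hF 1 ((x, y), z)) =
      ph hF 1 (((l : F) * x, ((l : F) ^ q)⁻¹ * y), ((l : F) ^ q * (l : F)⁻¹) • z) := by
  rw [lv0, lev_apply, gS_apply]

/-- The Levi elements. -/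
noncomputable def lv : Fˣ →* SG 1 F q where
  toFun := lv0 hF
  map_one' := SG_ext hF fun ⟨⟨x, y⟩, z⟩ => by simp [lv0_apply]
  map_mul' l l' := SG_ext hF fun ⟨⟨x, y⟩, z⟩ => by
    rw [Subgroup.coe_mul, Subgroup.coe_mul, LinearEquiv.mul_apply, lv0_apply, lv0_apply, lv0_apply]
    simp only [Units.val_mul, mul_pow, mul_inv, smul_smul]
    congr 1
    refine Prod.ext (Prod.ext (by ring) (by ring)) ?_
    congr 1
    ring

theorem lv_apply (l : Fˣ) (x y : F) (z : Fin 1 → F) :
    (lv hF l).1.1 (ph hF 1 ((x, y), z)) =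
      ph hF 1 (((l : F) * x, ((l : F) ^ q)⁻¹ * y), ((l : F) ^ q * (l : F)⁻¹) • z) :=
  lv0_apply hF l x y z

theorem lv_injective : Function.Injective (lv hF) := fun l l' h => by
  have := congrArg (fun g : SG 1 F q => (ph hF 1).symm (g.1.1 (ph hF 1 ((1, 0), 0)))) h
  simp only [lv_apply, LinearEquiv.symm_apply_apply, Prod.mk.injEq, mul_one] at this
  exact Units.ext this.1.1

theorem hl_cond (l : Fˣ) (p : Heis 1 F q) :
    (nu q l : F) * p.1.2 + ((nu q l : F) * p.1.2) ^ q +
      herm q ((mu q l : F) • p.1.1) ((mu q l : F) • p.1.1) = 0 := by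
  rw [herm_smul_left, herm_smul_right, ← mul_assoc (mu q l : F), mu_norm hF, mul_pow, nu_coe,
    mul_pow, hF.pow_pow]
  linear_combination (l : F) * (l : F) ^ q * p.2

/-- The action of a Levi element on the radical. -/
def hl (l : Fˣ) (p : Heis 1 F q) : Heis 1 F q :=
  ⟨((mu q l : F) • p.1.1, (nu q l : F) * p.1.2), hl_cond hF l p⟩

theorem hl_eq (l : Fˣ) (p : Heis 1 F q) : hLev hF (l : F) (gS hF l) p = hl hF l p := by
  refine Subtype.ext (Prod.ext ?_ ?_)
  · simp only [hLev, hl, gS_apply, smul_smul, mu_coe]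
  · simp only [hLev, hl, nu_coe]

theorem lv_tE (l : Fˣ) (p : Heis 1 F q) : lv hF l * tE hF p = tE hF (hl hF l p) * lv hF l := by
  rw [← hl_eq hF]
  exact lev_tE hF l.ne_zero (gS hF l) (det_gS hF l) p

theorem lv_conj (l : Fˣ) (p : Heis 1 F q) :
    lv hF l * tE hF p * (lv hF l)⁻¹ = tE hF (hl hF l p) :=
  mul_inv_eq_iff_eq_mul.2 (lv_tE hF l p)

theorem Aset_lv {X : Type*} [UAct F q X 1] (l : Fˣ) (y : X) :
    Aset hF (lv hF l • y) = (Aset hF y).map (AddMonoidHom.mk' (fun w => (mu q l : F) • w)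
      fun a b => smul_add _ a b) := by
  change Aset hF (lev hF l.ne_zero (gS hF l) (det_gS hF l) • y) = _
  rw [Aset_lev]
  congr 1
  refine AddMonoidHom.ext fun w => ?_
  change (l : F) ^ q • (gS hF l).1 w = (mu q l : F) • w
  rw [gS_apply, smul_smul, mu_coe]

theorem Kset_lv {X : Type*} [UAct F q X 1] (l : Fˣ) (y : X) :
    Kset hF (lv hF l • y) = (Kset hF y).map (AddMonoidHom.mulLeft (nu q l : F)) := by
  change Kset hF (lev hF l.ne_zero (gS hF l) (det_gS hF l) • y) = _
  rw [Kset_lev, nu_coe]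

/-- A central parameter of the radical, by its value. -/
noncomputable def zc (a : skew hF) : SG 1 F q := tE hF (hZ hF a.2)

theorem zc_add (a b : skew hF) : zc hF (a + b) = zc hF a * zc hF b := by
  rw [zc, zc, zc, tE_mul]
  congr 1
  exact Subtype.ext (Prod.ext (by simp [hMul, hZ]) (by simp [hMul, hZ]))

theorem zc_zero : zc hF (0 : skew hF) = 1 := by
  have := zc_add hF (0 : skew hF) 0
  rw [add_zero] at this
  exact left_eq_mul.1 this

theorem zc_nsmul (a : skew hF) : ∀ n : ℕ, zc hF a ^ n = zc hF (n • a)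
  | 0 => by rw [pow_zero, zero_nsmul, zc_zero]
  | n + 1 => by rw [pow_succ, zc_nsmul a n, succ_nsmul, zc_add]

theorem exists_zc {p : Heis 1 F q} (h : p.1.1 = 0) :
    ∃ a : skew hF, (a : F) = p.1.2 ∧ tE hF p = zc hF a := by
  have ha : p.1.2 ∈ skew hF := by
    have := p.2
    rw [h, herm_zero_left, add_zero] at this
    exact (mem_skew hF).2 (eq_neg_of_add_eq_zero_right this)
  exact ⟨⟨_, ha⟩, rfl, congrArg (tE hF) (Subtype.ext (Prod.ext h rfl))⟩

theorem zc_comm {l : Fˣ} (hl1 : nu q l = 1) (a : skew hF) :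
    lv hF l * zc hF a = zc hF a * lv hF l := by
  rw [zc, lv_tE]
  congr 2
  exact Subtype.ext (Prod.ext (by simp [hl, hZ]) (by simp [hl, hZ, hl1]))

theorem tE_pow (p : Heis 1 F q) : tE hF p ^ (q ^ 3) = 1 := by
  obtain ⟨hfin, -⟩ := id hF
  have h : Nat.card (rad hF 1) = q ^ 3 := by
    rw [← Nat.card_congr (radEquiv hF 1), card_heis hF]; ring
  have : Finite (rad hF 1) := Nat.finite_of_card_ne_zero (by
    rw [h]; exact pow_ne_zero _ hF.q_ne_zero)
  have e := pow_card_eq_one' (G := rad hF 1) (x := ⟨tE hF p, p, rfl⟩)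
  rw [h] at e
  exact congrArg Subtype.val e

/-! ### The isotropic lines -/

omit hF in
/-- The isotropic lines in dimension three. -/
abbrev Ln (F : Type u) [Field F] (q : ℕ) : Type u := ↥(isoLines (1 + 2) F q)

omit hF in
noncomputable instance instLnAction : MulAction (SG 1 F q) (Ln F q) where
  smul g L := ⟨mapL g L.1, mapL_mem g L.2⟩
  one_smul L := Subtype.ext (Submodule.map_id L.1)
  mul_smul g g' L := Subtype.ext (Submodule.map_comp g'.1.1.toLinearMap g.1.1.toLinearMap L.1)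

omit hF in
theorem smul_coe (g : SG 1 F q) (L : Ln F q) : ((g • L : Ln F q) : Submodule F _) = mapL g L.1 :=
  rfl

/-- The first standard line. -/
noncomputable def Le : Ln F q := ⟨eLine hF 1, eLine_mem hF⟩

/-- The second standard line. -/
noncomputable def Lf : Ln F q :=
  ⟨Submodule.span F {fV hF 1}, _, ⟨((pair_spec hF).1.symm hF).ne_zero, h_ff hF⟩, rfl⟩

/-- The lines other than the first. -/
noncomputable def Lp (p : Heis 1 F q) : Ln F q := tE hF p • Lf hF

theorem Lp_coe (p : Heis 1 F q) :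
    (Lp hF p : Submodule F _) = Submodule.span F {ph hF 1 ((p.1.2, 1), p.1.1)} := by
  rw [Lp, smul_coe]
  change mapL _ (Submodule.span F {fV hF 1}) = _
  rw [mapL_span, ← ph_fV hF, tE_apply]
  simp

theorem Lp_injective : Function.Injective (Lp hF) := by
  intro p s h
  have h' := congrArg (fun L : Ln F q => L.1) h
  simp only [Lp_coe] at h'
  obtain ⟨c, hc⟩ := Submodule.mem_span_singleton.1 (h' ▸ Submodule.mem_span_singleton_self
    (ph hF 1 ((p.1.2, 1), p.1.1)))
  rw [← map_smul, (ph hF 1).injective.eq_iff] at hc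
  simp only [Prod.smul_mk, smul_eq_mul, mul_one, Prod.mk.injEq] at hc
  obtain ⟨⟨e1, rfl⟩, e2⟩ := hc
  rw [one_mul] at e1
  rw [one_smul] at e2
  exact (Subtype.ext (Prod.ext e2 e1)).symm

theorem Lp_ne_Le (p : Heis 1 F q) : Lp hF p ≠ Le hF := by
  intro h
  have h' := congrArg (fun L : Ln F q => L.1) h
  simp only [Lp_coe] at h'
  have hm : ph hF 1 ((p.1.2, 1), p.1.1) ∈ Submodule.span F {eV hF 1} := by
    change _ ∈ (Le hF).1
    rw [← h']
    exact Submodule.mem_span_singleton_self _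
  obtain ⟨c, hc⟩ := Submodule.mem_span_singleton.1 hm
  rw [← ph_eV hF, ← map_smul, (ph hF 1).injective.eq_iff] at hc
  simp at hc

theorem Ln_cases (L : Ln F q) : L = Le hF ∨ ∃ p, L = Lp hF p := by
  obtain ⟨_, v, ⟨hv, hv0⟩, rfl⟩ := L
  obtain ⟨⟨⟨x, y⟩, z⟩, rfl⟩ := (ph hF 1).surjective v
  rw [herm_ph] at hv0
  rcases eq_or_ne y 0 with rfl | hy
  · left
    have hz : z = 0 := eq_zero_of_norm hF (by simpa [hF.q_ne_zero] using hv0)
    subst hz
    have hx : x ≠ 0 := by rintro rfl; exact hv (map_zero _)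
    refine Subtype.ext ?_
    change Submodule.span F {ph hF 1 ((x, 0), 0)} = Submodule.span F {eV hF 1}
    rw [show ph hF 1 ((x, 0), 0) = x • eV hF 1 by rw [← ph_eV hF, ← map_smul]; simp]
    exact Submodule.span_singleton_smul_eq (IsUnit.mk0 _ hx) _
  · right
    have hc : x / y + (x / y) ^ q + herm q (y⁻¹ • z) (y⁻¹ • z) = 0 := by
      have hyq := pow_ne_zero q hy
      rw [herm_smul_left, herm_smul_right, div_pow, inv_pow]
      field_simp
      linear_combination hv0
    refine ⟨⟨(y⁻¹ • z, x / y), hc⟩, Subtype.ext ?_⟩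
    refine Eq.trans ?_ (Lp_coe hF _).symm
    change Submodule.span F {ph hF 1 ((x, y), z)} = _
    rw [← Submodule.span_singleton_smul_eq (IsUnit.mk0 _ (inv_ne_zero hy))]
    congr 2
    rw [← map_smul]
    congr 1
    simp [Prod.smul_mk, div_eq_inv_mul, hy]

theorem tE_smul_Le (p : Heis 1 F q) : tE hF p • Le hF = Le hF := by
  refine Subtype.ext ?_
  change mapL _ (Submodule.span F {eV hF 1}) = Submodule.span F {eV hF 1}
  rw [mapL_span, ← ph_eV hF, tE_apply]
  simp

theorem lv_smul_Le (l : Fˣ) : lv hF l • Le hF = Le hF := by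
  refine Subtype.ext ?_
  change mapL _ (Submodule.span F {eV hF 1}) = Submodule.span F {eV hF 1}
  rw [mapL_span, ← ph_eV hF, lv_apply]
  rw [show ph hF 1 (((l : F) * 1, ((l : F) ^ q)⁻¹ * 0), ((l : F) ^ q * (l : F)⁻¹) • 0) =
    (l : F) • ph hF 1 ((1, 0), 0) by rw [← map_smul]; simp]
  exact Submodule.span_singleton_smul_eq (IsUnit.mk0 _ l.ne_zero) _

theorem lv_smul_Lf (l : Fˣ) : lv hF l • Lf hF = Lf hF := by
  refine Subtype.ext ?_
  change mapL _ (Submodule.span F {fV hF 1}) = Submodule.span F {fV hF 1}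
  rw [mapL_span, ← ph_fV hF, lv_apply]
  rw [show ph hF 1 (((l : F) * 0, ((l : F) ^ q)⁻¹ * 1), ((l : F) ^ q * (l : F)⁻¹) • 0) =
    ((l : F) ^ q)⁻¹ • ph hF 1 ((0, 1), 0) by rw [← map_smul]; simp]
  exact Submodule.span_singleton_smul_eq (IsUnit.mk0 _ (inv_ne_zero (pow_ne_zero _ l.ne_zero))) _

theorem tE_smul_Lp (r p : Heis 1 F q) : tE hF r • Lp hF p = Lp hF (hMul hF r p) := by
  rw [Lp, Lp, smul_smul, tE_mul]

theorem lv_smul_Lp (l : Fˣ) (p : Heis 1 F q) : lv hF l • Lp hF p = Lp hF (hl hF l p) := by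
  rw [Lp, Lp, smul_smul, lv_tE, mul_smul, lv_smul_Lf]

theorem Lp_one : Lp hF (hOne hF) = Lf hF := by rw [Lp, tE_one, one_smul]

theorem card_Ln : Nat.card (Ln F q) = q ^ 3 + 1 := by
  rw [card_isoLines hF, isoN_three]

theorem smul_Le_iff (g : SG 1 F q) :
    g • Le hF = Le hF ↔ ∃ c : F, g.1.1 (eV hF 1) = c • eV hF 1 := by
  constructor
  · intro h
    have h' : mapL g (Submodule.span F {eV hF 1}) = Submodule.span F {eV hF 1} :=
      congrArg Subtype.val h
    rw [mapL_span] at h'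
    obtain ⟨c, hc⟩ := Submodule.mem_span_singleton.1
      (h' ▸ Submodule.mem_span_singleton_self (g.1.1 (eV hF 1)))
    exact ⟨c, hc.symm⟩
  · rintro ⟨c, hc⟩
    refine Subtype.ext ?_
    change mapL g (Submodule.span F {eV hF 1}) = _
    rw [mapL_span, hc]
    refine Submodule.span_singleton_smul_eq (IsUnit.mk0 _ ?_) _
    rintro rfl
    rw [zero_smul, LinearEquiv.map_eq_zero_iff] at hc
    exact (pair_spec hF).1.ne_zero hc

/-- An element fixing both standard vectors is trivial. -/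
theorem eq_one_of_fix {g : SG 1 F q} (he : g.1.1 (eV hF 1) = eV hF 1)
    (hf : g.1.1 (fV hF 1) = fV hF 1) : g = 1 := by
  set o : Fin 1 → F := fun _ => 1 with ho
  obtain ⟨⟨⟨x, y⟩, z⟩, hz⟩ := (ph hF 1).surjective (g.1.1 (ph hF 1 ((0, 0), o)))
  have h1 := UG_app g.1 (ph hF 1 ((0, 0), o)) (eV hF 1)
  have h2 := UG_app g.1 (ph hF 1 ((0, 0), o)) (fV hF 1)
  have h3 := UG_app g.1 (ph hF 1 ((0, 0), o)) (ph hF 1 ((0, 0), o))
  rw [he, ← hz, ← ph_eV hF, herm_ph, herm_ph] at h1
  rw [hf, ← hz, ← ph_fV hF, herm_ph, herm_ph] at h2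
  rw [← hz, herm_ph, herm_ph] at h3
  simp [hF.q_ne_zero, hF.herm_zero_right] at h1 h2
  subst h1 h2
  have hzo : z = z 0 • o := ext_one (by simp [ho])
  have hn : z 0 ^ (q + 1) = 1 := by
    simp [hF.q_ne_zero, herm_one hF, ho] at h3
    rw [pow_succ']; exact h3
  let e : UG 1 F q := ⟨LinearEquiv.smulOfNeZero F (Fin 1 → F) (z 0) (fun h => by
    rw [h, zero_pow (Nat.succ_ne_zero q)] at hn; exact zero_ne_one hn), fun u v => by
      change herm q (z 0 • u) (z 0 • v) = herm q u v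
      rw [herm_smul_left, herm_smul_right, ← mul_assoc, ← pow_succ', hn, one_mul]⟩
  have hg : g.1.1 = levLin hF one_ne_zero e := by
    refine LinearEquiv.ext fun v => ?_
    obtain ⟨⟨⟨a, b⟩, w⟩, rfl⟩ := (ph hF 1).surjective v
    rw [levLin_apply]
    have hw : w = w 0 • o := ext_one (by simp [ho])
    have hd : ph hF 1 ((a, b), w) =
        a • eV hF 1 + b • fV hF 1 + w 0 • ph hF 1 ((0, 0), o) := by
      rw [← ph_eV hF, ← ph_fV hF, ← map_smul, ← map_smul, ← map_smul, ← map_add, ← map_add]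
      conv_lhs => rw [hw]
      simp
    rw [hd, map_add, map_add, map_smul, map_smul, map_smul, he, hf, ← hz, ← ph_eV hF, ← ph_fV hF,
      ← map_smul, ← map_smul, ← map_smul, ← map_add, ← map_add]
    change _ = ph hF 1 ((1 * a, ((1 : F) ^ q)⁻¹ * b), z 0 • w)
    congr 1
    simp
    exact ext_one (by simp [ho, mul_comm])
  have hdet : (LinearEquiv.det e.1 : F) = z 0 := by
    rw [LinearEquiv.coe_det, show (e.1 : (Fin 1 → F) →ₗ[F] (Fin 1 → F)) = z 0 • LinearMap.id from
      LinearMap.ext fun v => rfl, LinearMap.det_smul, LinearMap.det_id, Module.finrank_pi,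
      Fintype.card_fin, pow_one, mul_one]
  have h4 := det_levLin hF one_ne_zero e
  rw [← hg, mem_SUG.1 g.2, Units.val_one, hdet] at h4
  simp at h4
  refine SG_ext hF fun ⟨⟨a, b⟩, w⟩ => ?_
  rw [hg, levLin_apply]
  change ph hF 1 ((1 * a, ((1 : F) ^ q)⁻¹ * b), z 0 • w) = _
  rw [← h4]
  simp

/-- The stabiliser of the first line. -/
theorem exists_decomp_Bor {g : SG 1 F q} (h : g • Le hF = Le hF) :
    ∃ (p : Heis 1 F q) (l : Fˣ), g = tE hF p * lv hF l := by
  obtain ⟨c, hc⟩ := (smul_Le_iff hF g).1 h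
  have hc0 : c ≠ 0 := by
    rintro rfl
    rw [zero_smul, LinearEquiv.map_eq_zero_iff] at hc
    exact (pair_spec hF).1.ne_zero hc
  set g' := g * (lv hF (Units.mk0 c hc0))⁻¹ with hg'
  have he : g'.1.1 (eV hF 1) = eV hF 1 := by
    rw [hg', ← map_inv, Subgroup.coe_mul, Subgroup.coe_mul, LinearEquiv.mul_apply, ← ph_eV hF,
      lv_apply]
    simp only [mul_one, mul_zero, smul_zero]
    rw [show ph hF 1 (((((Units.mk0 c hc0)⁻¹ : Fˣ) : F), 0), 0) =
      c⁻¹ • ph hF 1 ((1, 0), 0) by rw [← map_smul]; simp, map_smul, ph_eV hF, hc, smul_smul,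
      inv_mul_cancel₀ hc0, one_smul]
  obtain ⟨⟨⟨a, b⟩, w⟩, hw⟩ := (ph hF 1).surjective (g'.1.1 (fV hF 1))
  have h1 := UG_app g'.1 (fV hF 1) (eV hF 1)
  have h2 := UG_app g'.1 (fV hF 1) (fV hF 1)
  rw [he, ← hw, h_fe hF, ← ph_eV hF] at h1
  · rw [← hw, h_ff hF] at h2
    rw [herm_ph] at h1 h2
    simp [hF.q_ne_zero, hF.herm_zero_right] at h1
    subst h1
    simp at h2
    let r : Heis 1 F q := ⟨(w, a), by linear_combination h2⟩
    refine ⟨r, Units.mk0 c hc0, ?_⟩
    have h3 : (tE hF r)⁻¹ * g' = 1 := by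
      refine eq_one_of_fix hF ?_ ?_
      · rw [tE_inv, Subgroup.coe_mul, Subgroup.coe_mul, LinearEquiv.mul_apply, he, ← ph_eV hF,
          tE_apply]
        simp
      · have e : (tE hF r).1.1 (fV hF 1) = g'.1.1 (fV hF 1) := by
          rw [← hw, ← ph_fV hF, tE_apply]
          simp [r]
        rw [Subgroup.coe_mul, Subgroup.coe_mul, LinearEquiv.mul_apply, ← e]
        exact (tE hF r).1.1.symm_apply_apply _
    rw [inv_mul_eq_one.1 h3, hg', inv_mul_cancel_right]

theorem decomp_unique {p p' : Heis 1 F q} {l l' : Fˣ}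
    (h : tE hF p * lv hF l = tE hF p' * lv hF l') : p = p' ∧ l = l' := by
  have e := congrArg (fun g : SG 1 F q => (ph hF 1).symm (g.1.1 (ph hF 1 ((1, 0), 0)))) h
  simp only [Subgroup.coe_mul, LinearEquiv.mul_apply, lv_apply, tE_apply,
    LinearEquiv.symm_apply_apply, Prod.mk.injEq] at e
  obtain rfl : l = l' := Units.ext (by simpa using e.1.1)
  exact ⟨tE_injective hF (mul_right_cancel h), rfl⟩

theorem decomp_mem (p : Heis 1 F q) (l : Fˣ) : (tE hF p * lv hF l) • Le hF = Le hF := by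
  rw [mul_smul, lv_smul_Le, tE_smul_Le]

theorem exists_smul_eq_Le (L : Ln F q) : ∃ g : SG 1 F q, g • L = Le hF := by
  obtain ⟨g, hg⟩ := exists_mapL_eq hF L.2
  exact ⟨g, Subtype.ext hg⟩

/-- A nontrivial element of the radical fixes only the first line. -/
theorem eq_Le_of_tE {p : Heis 1 F q} (hp : p ≠ hOne hF) {L : Ln F q} (h : tE hF p • L = L) :
    L = Le hF := by
  refine (Ln_cases hF L).resolve_right ?_
  rintro ⟨s, rfl⟩
  rw [tE_smul_Lp] at h
  have e := congrArg (fun r => tE hF r) (Lp_injective hF h)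
  simp only [← tE_mul] at e
  exact hp (tE_injective hF ((mul_eq_right.1 e).trans (tE_one hF).symm))

/-- Conjugating a regular Levi element by the radical. -/
theorem exists_conj_lv {l : Fˣ} (hmu : mu q l ≠ 1) (hnu : nu q l ≠ 1) (p : Heis 1 F q) :
    ∃ s : Heis 1 F q, tE hF p * lv hF l = tE hF s * lv hF l * (tE hF s)⁻¹ := by
  obtain ⟨hfin, -⟩ := id hF
  have : Finite (Heis 1 F q) := Subtype.finite
  let φ : Heis 1 F q → Heis 1 F q := fun s => hMul hF s (hInv hF (hl hF l s))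
  have hφ : ∀ s, tE hF s * lv hF l * (tE hF s)⁻¹ = tE hF (φ s) * lv hF l := fun s => by
    change _ = tE hF (hMul hF s (hInv hF (hl hF l s))) * _
    rw [← tE_mul, ← tE_inv, ← lv_conj]
    group
  have hinj : Function.Injective φ := by
    intro s s' h
    have h1 : tE hF (φ s) * lv hF l = tE hF (φ s') * lv hF l := by rw [h]
    rw [← hφ, ← hφ] at h1
    set t := hMul hF (hInv hF s') s with ht
    have h2 : tE hF t * lv hF l = lv hF l * tE hF t := by
      rw [ht, ← tE_mul, ← tE_inv]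
      calc (tE hF s')⁻¹ * tE hF s * lv hF l
          = (tE hF s')⁻¹ * (tE hF s * lv hF l * (tE hF s)⁻¹) * tE hF s := by group
        _ = (tE hF s')⁻¹ * (tE hF s' * lv hF l * (tE hF s')⁻¹) * tE hF s := by rw [h1]
        _ = _ := by group
    rw [lv_tE] at h2
    have h3 := tE_injective hF (mul_right_cancel h2)
    have hv : t.1.1 = 0 := by
      have e := congrArg (fun r : Heis 1 F q => r.1.1) h3
      change t.1.1 = (mu q l : F) • t.1.1 at e
      refine ext_one ?_
      have e0 := congrFun e 0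
      rw [Pi.smul_apply, smul_eq_mul] at e0
      exact (mul_left_eq_self₀.1 e0.symm).resolve_left
        (fun h => hmu (Units.ext h))
    have ha : t.1.2 = 0 := by
      have e := congrArg (fun r : Heis 1 F q => r.1.2) h3
      change t.1.2 = (nu q l : F) * t.1.2 at e
      exact (mul_left_eq_self₀.1 e.symm).resolve_left (fun h => hnu (Units.ext h))
    have h4 : tE hF t = 1 := by
      rw [← tE_one hF]; exact congrArg _ (Subtype.ext (Prod.ext hv ha))
    rw [ht, ← tE_mul, ← tE_inv, inv_mul_eq_one] at h4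
    exact tE_injective hF h4.symm
  obtain ⟨s, hs⟩ := (Finite.injective_iff_surjective.1 hinj) p
  exact ⟨s, by rw [hφ, hs]⟩

/-- An involution fixes an isotropic line. -/
theorem exists_fixed_of_invol {g : SG 1 F q} (hg : g * g = 1) : ∃ L : Ln F q, g • L = L := by
  obtain ⟨t, ht⟩ := exists_smul_eq_Le hF (Le hF)
  suffices ∀ g : SG 1 F q, g * g = 1 → g • Lf hF = Le hF → ∃ L : Ln F q, g • L = L by
    by_cases h : g • Le hF = Le hF
    · exact ⟨_, h⟩
    obtain ⟨p, hp⟩ := (Ln_cases hF (g • Le hF)).resolve_left h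
    obtain ⟨L, hL⟩ := this ((tE hF p)⁻¹ * g * tE hF p)
      (by rw [show (tE hF p)⁻¹ * g * tE hF p * ((tE hF p)⁻¹ * g * tE hF p) =
          (tE hF p)⁻¹ * (g * g) * tE hF p by group, hg]; group)
      (by
        rw [mul_smul, mul_smul, show tE hF p • Lf hF = g • Le hF from hp.symm, smul_smul g g, hg,
          one_smul, inv_smul_eq_iff, tE_smul_Le])
    refine ⟨tE hF p • L, ?_⟩
    rw [mul_smul, mul_smul, inv_smul_eq_iff] at hL
    exact hL
  clear! g t
  intro g hg h
  have h' : mapL g (Submodule.span F {fV hF 1}) = Submodule.span F {eV hF 1} :=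
    congrArg Subtype.val h
  rw [mapL_span] at h'
  obtain ⟨c, hc⟩ := Submodule.mem_span_singleton.1
    (h' ▸ Submodule.mem_span_singleton_self (g.1.1 (fV hF 1)))
  have hgg : ∀ v, g.1.1 (g.1.1 v) = v := fun v => by
    have e := congrArg (fun k : SG 1 F q => k.1.1 v) hg
    simpa [LinearEquiv.mul_apply] using e
  have hc0 : c ≠ 0 := by
    rintro rfl
    rw [zero_smul] at hc
    exact ((pair_spec hF).1.symm hF).ne_zero (g.1.1.map_eq_zero_iff.1 hc.symm)
  have hgf : g.1.1 (fV hF 1) = c • eV hF 1 := hc.symm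
  have hge : g.1.1 (eV hF 1) = c⁻¹ • fV hF 1 := by
    have e := hgg (fV hF 1)
    rw [hgf, map_smul] at e
    rw [← e, smul_smul, inv_mul_cancel₀ hc0, one_smul]
  have hcq : c ^ q = c := by
    have e := UG_app g.1 (fV hF 1) (eV hF 1)
    rw [hgf, hge, herm_smul_left, herm_smul_right, h_ef hF, h_fe hF, inv_pow, mul_one] at e
    exact (eq_of_div_eq_one (by rw [div_eq_mul_inv]; exact e)).symm
  set o : Fin 1 → F := fun _ => 1 with ho
  obtain ⟨⟨⟨x, y⟩, z⟩, hz⟩ := (ph hF 1).surjective (g.1.1 (ph hF 1 ((0, 0), o)))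
  have h1 := UG_app g.1 (ph hF 1 ((0, 0), o)) (eV hF 1)
  have h2 := UG_app g.1 (ph hF 1 ((0, 0), o)) (fV hF 1)
  rw [← hz, hge, herm_smul_right, ← ph_eV hF, ← ph_fV hF, herm_ph, herm_ph] at h1
  rw [← hz, hgf, herm_smul_right, ← ph_eV hF, ← ph_fV hF, herm_ph, herm_ph] at h2
  simp [hF.q_ne_zero, hF.herm_zero_right, hc0] at h1 h2
  subst h1 h2
  have hgo : g.1.1 (ph hF 1 ((0, 0), o)) = z 0 • ph hF 1 ((0, 0), o) := by
    rw [← hz, ← map_smul]
    congr 1
    simp only [Prod.smul_mk, smul_zero]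
    exact Prod.ext rfl (ext_one (by simp [ho]))
  have hε : z 0 * z 0 = 1 := by
    have e := hgg (ph hF 1 ((0, 0), o))
    rw [hgo, map_smul, hgo, smul_smul] at e
    exact smul_left_injective F (fun h => by
      have := congrFun (congrArg Prod.snd ((LinearEquiv.map_eq_zero_iff _).1 h)) 0
      simp [ho] at this) (e.trans (one_smul _ _).symm)
  -- the vector eV + z 0 * c * ... in the eigenspace
  set ε := z 0 with hεdef
  have hεq : ε ^ q = ε := by
    rcases mul_self_eq_one_iff.1 hε with h | h <;> rw [h]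
    · exact one_pow q
    · rw [hF.neg_pow, one_pow]
  obtain ⟨w, hw⟩ := hF.exists_norm (c := -(ε * c⁻¹ + ε * c⁻¹)) (by
    rw [hF.neg_pow, hF.add_pow, mul_pow, inv_pow, hεq, hcq])
  set v := eV hF 1 + (ε * c⁻¹) • fV hF 1 + w • ph hF 1 ((0, 0), o) with hv
  have hvv : v = ph hF 1 ((1, ε * c⁻¹), w • o) := by
    rw [hv, ← ph_eV hF, ← ph_fV hF, ← map_smul, ← map_smul, ← map_add, ← map_add]
    simp
  refine ⟨⟨Submodule.span F {v}, v, ⟨?_, ?_⟩, rfl⟩, Subtype.ext ?_⟩
  · rw [hvv]
    intro h0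
    have := congrArg (fun p : (F × F) × (Fin 1 → F) => p.1.1) ((LinearEquiv.map_eq_zero_iff _).1 h0)
    simp at this
  · rw [hvv, herm_ph, herm_smul_left, herm_smul_right, herm_one hF]
    rw [pow_succ'] at hw
    simp only [mul_pow, inv_pow, hεq, hcq, one_pow, ho]
    linear_combination hw
  · change mapL g (Submodule.span F {v}) = Submodule.span F {v}
    rw [mapL_span, hv, map_add, map_add, map_smul, map_smul, hge, hgf, hgo, smul_smul, smul_smul,
      mul_assoc, inv_mul_cancel₀ hc0, mul_one]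
    have : c⁻¹ • fV hF 1 + ε • eV hF 1 + (w * ε) • ph hF 1 ((0, 0), o) =
        ε • (eV hF 1 + (ε * c⁻¹) • fV hF 1 + w • ph hF 1 ((0, 0), o)) := by
      simp only [smul_add, smul_smul, ← mul_assoc, hε, one_mul, mul_comm w]
      abel
    rw [this]
    exact Submodule.span_singleton_smul_eq (IsUnit.mk0 _ (left_ne_zero_of_mul_eq_one hε)) _

end Cfsg.Agent.MinU.Three
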