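/-
A transitive action of the three-dimensional special unitary group on few points: the stabiliser of
a point is transitive on the isotropic lines, and its part in the stabiliser of a line is of one of
three shapes.
-/
import Mathlib
import Cfsg.Agent.MinU.ThreeBase

set_option autoImplicit false

namespace Cfsg.Agent.MinU.Three

open Cfsg.Agent.Classical.U Cfsg.Agent.MinU MulAction

universe u v

/-- Orbit times stabiliser. -/
theorem card_orbit_mul {G α : Type*} [Group G] [MulAction G α] (a : α) :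
    Nat.card (orbit G a) * Nat.card (stabilizer G a) = Nat.card G := by
  rw [Nat.card_coe_set_eq, ← index_stabilizer, mul_comm, Subgroup.card_mul_index]

/-- Solutions of an equation in a finite group of units. -/
theorem card_le_of_pow {K : Type*} [Field K] [Finite K] (C : Subgroup Kˣ) {n : ℕ} (hn : 0 < n)
    (h : ∀ l ∈ C, l ^ n = 1) : Nat.card C ≤ n := by
  classical
  have := Fintype.ofFinite Kˣ
  refine le_trans ?_ (IsCyclic.card_pow_eq_one_le (α := Kˣ) hn)
  rw [Nat.card_eq_fintype_card, Fintype.card_subtype]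
  exact Finset.card_le_card fun l hl => by simp at hl ⊢; exact h l hl

/-- A subgroup of units is killed by exponents dividing it. -/
theorem card_dvd_of_pow {K : Type*} [Field K] [Finite K] (C : Subgroup Kˣ) {n : ℕ}
    (h : ∀ l ∈ C, l ^ n = 1) : Nat.card C ∣ n := by
  obtain ⟨g, hg⟩ := IsCyclic.exists_ofOrder_eq_natCard (α := C)
  rw [← hg, ← Subgroup.orderOf_coe]
  exact orderOf_dvd_of_pow_eq_one (h g.1 g.2)

/-- The hypotheses on the action. -/
structure Setting (F : Type u) [Field F] (q : ℕ) (X : Type v) [UAct F q X 1] : Prop where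
  three : 3 ≤ q
  fin : Finite X
  trans : IsPretransitive (SG 1 F q) X
  nofix : ∀ y : X, ∃ g : SG 1 F q, g • y ≠ y
  small : Nat.card X ≤ q ^ 3

variable {F : Type u} [Field F] {q : ℕ}
variable (hF : SqField F q)
include hF

/-- The stabiliser of the first line. -/
noncomputable abbrev Bor : Subgroup (SG 1 F q) := stabilizer (SG 1 F q) (Le hF)

/-- The Levi part of an element of the stabiliser of the first line. -/
noncomputable def piB : ↥(Bor hF) →* Fˣ :=
  MonoidHom.mk' (fun g => (exists_decomp_Bor hF g.2).choose_spec.choose) fun g g' => by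
    obtain ⟨p, hp⟩ : ∃ p, g.1 = tE hF p * lv hF (exists_decomp_Bor hF g.2).choose_spec.choose :=
      ⟨_, (exists_decomp_Bor hF g.2).choose_spec.choose_spec⟩
    obtain ⟨p', hp'⟩ : ∃ p, g'.1 = tE hF p * lv hF (exists_decomp_Bor hF g'.2).choose_spec.choose :=
      ⟨_, (exists_decomp_Bor hF g'.2).choose_spec.choose_spec⟩
    obtain ⟨r, hr⟩ : ∃ p, (g * g').1 =
        tE hF p * lv hF (exists_decomp_Bor hF (g * g').2).choose_spec.choose :=
      ⟨_, (exists_decomp_Bor hF (g * g').2).choose_spec.choose_spec⟩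
    set l := (exists_decomp_Bor hF g.2).choose_spec.choose
    set l' := (exists_decomp_Bor hF g'.2).choose_spec.choose
    refine (decomp_unique hF (p := r) (p' := hMul hF p (hl hF l p')) ?_).2
    rw [← hr, Subgroup.coe_mul, hp, hp', ← tE_mul, map_mul]
    calc tE hF p * lv hF l * (tE hF p' * lv hF l')
        = tE hF p * (lv hF l * tE hF p') * lv hF l' := by group
      _ = tE hF p * (tE hF (hl hF l p') * lv hF l) * lv hF l' := by rw [lv_tE]
      _ = _ := by group

theorem piB_spec (g : ↥(Bor hF)) : ∃ p, g.1 = tE hF p * lv hF (piB hF g) :=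
  ⟨_, (exists_decomp_Bor hF g.2).choose_spec.choose_spec⟩

theorem piB_mk (p : Heis 1 F q) (l : Fˣ) :
    piB hF ⟨tE hF p * lv hF l, decomp_mem hF p l⟩ = l := by
  obtain ⟨r, hr⟩ := piB_spec hF ⟨tE hF p * lv hF l, decomp_mem hF p l⟩
  exact (decomp_unique hF hr).2.symm

theorem finite_SG : Finite (SG 1 F q) := by
  obtain ⟨hfin, -⟩ := id hF
  have : Finite ((Fin (1 + 2) → F) ≃ₗ[F] (Fin (1 + 2) → F)) :=
    Finite.of_injective (fun g : (Fin (1 + 2) → F) ≃ₗ[F] (Fin (1 + 2) → F) => (g : _ → _))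
      DFunLike.coe_injective
  infer_instance

theorem card_Bor : Nat.card (Bor hF) = q ^ 3 * (q ^ 2 - 1) := by
  obtain ⟨hfin, hcard⟩ := id hF
  have e : Heis 1 F q × Fˣ ≃ ↥(Bor hF) := Equiv.ofBijective
    (fun r => ⟨tE hF r.1 * lv hF r.2, decomp_mem hF r.1 r.2⟩) ⟨fun r s h => by
      have := decomp_unique hF (congrArg Subtype.val h)
      exact Prod.ext this.1 this.2, fun g => by
      obtain ⟨p, hp⟩ := piB_spec hF g
      exact ⟨(p, piB hF g), Subtype.ext hp.symm⟩⟩
  have := Fintype.ofFinite F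
  classical
  rw [← Nat.card_congr e, Nat.card_prod, card_heis hF, Nat.card_eq_fintype_card (α := Fˣ),
    Fintype.card_units, ← Nat.card_eq_fintype_card, hcard]
  ring

variable {X : Type v} [UAct F q X 1]

/-- The Levi parts of the elements fixing a point and the first line. -/
noncomputable def Cs (x : X) : Subgroup Fˣ :=
  (stabilizer (↥(Bor hF)) x).map (piB hF)

theorem mem_Cs {x : X} {l : Fˣ} :
    l ∈ Cs hF x ↔ ∃ p, (tE hF p * lv hF l) • x = x := by
  constructor
  · rintro ⟨g, hg, rfl⟩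
    obtain ⟨p, hp⟩ := piB_spec hF g
    exact ⟨p, by rw [← hp]; exact hg⟩
  · rintro ⟨p, hp⟩
    exact ⟨⟨_, decomp_mem hF p l⟩, hp, piB_mk hF p l⟩

theorem mu_mem_Aset {x : X} {l : Fˣ} (hl' : l ∈ Cs hF x) {w : Fin 1 → F} (hw : w ∈ Aset hF x) :
    (mu q l : F) • w ∈ Aset hF x := by
  obtain ⟨p, hp⟩ := (mem_Cs hF).1 hl'
  rw [← hp, mul_smul, Aset_tE, Aset_lv]
  exact ⟨w, hw, rfl⟩

theorem nu_mem_Kset {x : X} {l : Fˣ} (hl' : l ∈ Cs hF x) {a : F} (ha : a ∈ Kset hF x) :
    (nu q l : F) * a ∈ Kset hF x := by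
  obtain ⟨p, hp⟩ := (mem_Cs hF).1 hl'
  rw [← hp, mul_smul, Kset_tE, Kset_lv]
  exact ⟨a, ha, rfl⟩

theorem card_stabBor (x : X) : Nat.card (stabilizer (↥(Bor hF)) x) =
    Nat.card (Aset hF x) * Nat.card (Kset hF x) * Nat.card (Cs hF x) := by
  set f := (piB hF).comp (stabilizer (↥(Bor hF)) x).subtype with hf
  have hrange : f.range = Cs hF x := by
    rw [hf, MonoidHom.range_comp, Subgroup.range_subtype]; rfl
  have hker : Nat.card f.ker = Nat.card {p : Heis 1 F q // tE hF p • x = x} := by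
    symm
    refine Nat.card_congr (Equiv.ofBijective (fun p => ⟨⟨⟨tE hF p.1 * lv hF 1,
      decomp_mem hF p.1 1⟩, ?_⟩, ?_⟩) ⟨fun p r h => ?_, fun g => ?_⟩)
    · change (tE hF p.1 * lv hF 1) • x = x
      rw [map_one, mul_one]; exact p.2
    · exact piB_mk hF p.1 1
    · exact Subtype.ext (decomp_unique hF
        (congrArg (fun s : f.ker => (s.1.1.1 : SG 1 F q)) h)).1
    · obtain ⟨p, hp⟩ := piB_spec hF g.1.1
      have h1 : piB hF g.1.1 = 1 := g.2
      rw [h1] at hp
      have hx : tE hF p • x = x := by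
        have := g.1.2
        change g.1.1.1 • x = x at this
        rwa [hp, map_one, mul_one] at this
      exact ⟨⟨p, hx⟩, Subtype.ext (Subtype.ext (Subtype.ext hp.symm))⟩
  rw [← card_fixed_heis hF x, ← hker, ← hrange, ← Subgroup.card_mul_index f.ker,
    Subgroup.index_ker]

theorem card_line_stab (x : X) :
    Nat.card {g : SG 1 F q // g • x = x ∧ g • Le hF = Le hF} =
      Nat.card (stabilizer (↥(Bor hF)) x) :=
  Nat.card_congr
    { toFun := fun g => ⟨⟨g.1, g.2.2⟩, g.2.1⟩
      invFun := fun g => ⟨g.1.1, g.2, g.1.2⟩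
      left_inv := fun _ => rfl
      right_inv := fun _ => rfl }

variable (S : Setting F q X)
include S

/-- A point stabiliser is transitive on the isotropic lines. -/
theorem line_trans (x : X) (L : Ln F q) : ∃ h : SG 1 F q, h • x = x ∧ h • L = Le hF := by
  obtain ⟨hfin, hcard⟩ := id hF
  have := S.fin
  have := S.trans
  have hq := S.three
  obtain ⟨t, ht⟩ := exists_smul_eq_Le hF L
  by_cases hreg : ∃ y : X, Aset hF y = ⊥ ∧ Kset hF y = ⊥
  · obtain ⟨y, hA, hK⟩ := hreg
    have h1 := card_qOrb_mul hF y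
    rw [hA, hK, AddSubgroup.card_bot, AddSubgroup.card_bot, mul_one, mul_one] at h1
    have hall : qOrb hF y = Set.univ := by
      refine Set.eq_univ_of_forall fun z => ?_
      have h2 : (qOrb hF y).ncard ≥ (Set.univ : Set X).ncard := by
        rw [← Nat.card_coe_set_eq, h1, Set.ncard_univ]
        have := S.small
        calc Nat.card X ≤ q ^ 3 := this
          _ = q ^ (2 * 1) * q := by ring
      rw [Set.eq_of_subset_of_ncard_le (Set.subset_univ _) h2]
      exact Set.mem_univ z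
    obtain ⟨p, hp⟩ : ∃ p, tE hF p • y = t • x := hall ▸ Set.mem_univ (t • x)
    obtain ⟨r, hr⟩ : ∃ p, tE hF p • y = x := hall ▸ Set.mem_univ x
    refine ⟨tE hF r * (tE hF p)⁻¹ * t, ?_, ?_⟩
    · rw [mul_smul, mul_smul, ← hp, inv_smul_smul, hr]
    · rw [mul_smul, mul_smul, ht, inv_smul_eq_iff.2 (tE_smul_Le hF p).symm, tE_smul_Le]
  · push Not at hreg
    obtain ⟨P, k, hP, -, hqP⟩ := hF.exists_char
    have := Fact.mk hP
    -- every line has a radical element fixing the point
    have hu : ∀ M : Ln F q, ∃ u : SG 1 F q, u • x = x ∧ u • M = M ∧ u ^ (P ^ (3 * k)) = 1 ∧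
        ∀ N : Ln F q, u • N = N → N = M := by
      intro M
      obtain ⟨g, hg⟩ := exists_smul_eq_Le hF M
      obtain ⟨p, hp1, hp⟩ : ∃ p : Heis 1 F q, p ≠ hOne hF ∧ tE hF p • g • x = g • x := by
        by_cases hA : Aset hF (g • x) = ⊥
        · obtain ⟨a, ⟨ha, hfx⟩, ha0⟩ :=
            (AddSubgroup.bot_or_exists_ne_zero _).resolve_left (hreg (g • x) hA)
          exact ⟨_, fun h => ha0 (congrArg (fun r : Heis 1 F q => r.1.2) h), hfx⟩
        · obtain ⟨w, ⟨p, rfl, hp⟩, hw⟩ := (AddSubgroup.bot_or_exists_ne_zero _).resolve_left hA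
          exact ⟨p, fun h => hw (congrArg (fun r : Heis 1 F q => r.1.1) h), hp⟩
      refine ⟨g⁻¹ * tE hF p * g, ?_, ?_, ?_, fun N hN => ?_⟩
      · rw [mul_smul, mul_smul, hp, inv_smul_smul]
      · rw [mul_smul, mul_smul, hg, tE_smul_Le, inv_smul_eq_iff, hg]
      · have hp3 : tE hF p ^ (P ^ (3 * k)) = 1 := by
          rw [pow_mul' P 3 k, ← hqP]; exact tE_pow hF p
        rw [show g⁻¹ * tE hF p * g = g⁻¹ * tE hF p * g⁻¹⁻¹ by rw [inv_inv], conj_pow, hp3]
        group
      · rw [mul_smul, mul_smul, inv_smul_eq_iff] at hN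
        exact MulAction.injective g ((eq_Le_of_tE hF hp1 hN).trans hg.symm)
    set O : Set (Ln F q) := {M | ∃ h : SG 1 F q, h • x = x ∧ h • L = M} with hO
    change Le hF ∈ O
    have hfinLn : Finite (Ln F q) := Nat.finite_of_card_ne_zero (by rw [card_Ln hF]; omega)
    have key : ∀ M : Ln F q, ∃ c : ℕ, (M ∈ O → c = 1) ∧ (M ∉ O → c = 0) ∧
        Nat.card O ≡ c [MOD P] := by
      intro M
      obtain ⟨u, hux, huM, hpow, huniq⟩ := hu M
      let U := Subgroup.zpowers u
      have hU : IsPGroup P U := by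
        rintro ⟨g, i, rfl⟩
        refine ⟨3 * k, Subtype.ext ?_⟩
        change (u ^ i) ^ (P ^ (3 * k)) = 1
        rw [← zpow_natCast, ← zpow_mul, mul_comm, zpow_mul, zpow_natCast, hpow, one_zpow]
      have hmem : ∀ g ∈ U, ∀ M' ∈ O, g • M' ∈ O := by
        rintro g hg M' ⟨h, hhx, rfl⟩
        refine ⟨g * h, ?_, mul_smul _ _ _⟩
        rw [mul_smul, hhx]
        exact (Subgroup.zpowers_le.2 (show u ∈ stabilizer (SG 1 F q) x from hux)) hg
      letI : MulAction U O :=
        { smul := fun g M' => ⟨g.1 • M'.1, hmem _ g.2 _ M'.2⟩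
          one_smul := fun M' => Subtype.ext (one_smul _ _)
          mul_smul := fun g g' M' => Subtype.ext (mul_smul _ _ _) }
      refine ⟨Nat.card (fixedPoints U O), fun hM => ?_, fun hM => ?_,
        hU.card_modEq_card_fixedPoints O⟩
      · rw [Nat.card_eq_one_iff_unique]
        refine ⟨⟨fun a b => Subtype.ext (Subtype.ext ?_)⟩, ⟨⟨⟨M, hM⟩, fun g => Subtype.ext ?_⟩⟩⟩
        · rw [huniq _ (congrArg Subtype.val (a.2 ⟨u, Subgroup.mem_zpowers u⟩)),
            huniq _ (congrArg Subtype.val (b.2 ⟨u, Subgroup.mem_zpowers u⟩))]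
        · exact (Subgroup.zpowers_le.2 (show u ∈ stabilizer (SG 1 F q) M from huM)) g.2
      · have : IsEmpty (fixedPoints U O) := ⟨fun a => hM (by
          rw [← huniq _ (congrArg Subtype.val (a.2 ⟨u, Subgroup.mem_zpowers u⟩))]
          exact a.1.2)⟩
        exact Nat.card_of_isEmpty
    by_contra hLe
    obtain ⟨c, h1, -, hc⟩ := key L
    obtain ⟨c', -, h0, hc'⟩ := key (Le hF)
    rw [h1 ⟨1, one_smul _ _, one_smul _ _⟩] at hc
    rw [h0 hLe] at hc'
    have := (hc.symm.trans hc')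
    rw [Nat.modEq_zero_iff_dvd, Nat.dvd_one] at this
    exact hP.one_lt.ne' this

/-- The stabiliser of the first line is transitive on the points. -/
theorem bor_trans (y z : X) :
    ∃ (p : Heis 1 F q) (l : Fˣ), (tE hF p * lv hF l) • y = z := by
  have := S.trans
  obtain ⟨g, hg⟩ := exists_smul_eq (SG 1 F q) z y
  obtain ⟨h, hh, hL⟩ := line_trans hF S y (g • Le hF)
  obtain ⟨p, l, e⟩ := exists_decomp_Bor hF (g := (h * g)⁻¹) (by
    rw [inv_smul_eq_iff, mul_smul, hL])
  refine ⟨p, l, ?_⟩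
  rw [← e, inv_smul_eq_iff, mul_smul, hg, hh]

theorem card_Aset_eq (y z : X) : Nat.card (Aset hF z) = Nat.card (Aset hF y) := by
  obtain ⟨p, l, rfl⟩ := bor_trans hF S y z
  rw [mul_smul, Aset_tE]
  exact card_Aset_lev hF l.ne_zero (gS hF l) (det_gS hF l) y

theorem card_Kset_eq (y z : X) : Nat.card (Kset hF z) = Nat.card (Kset hF y) := by
  obtain ⟨p, l, rfl⟩ := bor_trans hF S y z
  rw [mul_smul, Kset_tE]
  exact card_Kset_lev hF l.ne_zero (gS hF l) (det_gS hF l) y

theorem Kset_ne (x : X) : Kset hF x ≠ skew hF := by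
  obtain ⟨hfin, -⟩ := id hF
  intro h
  have hall : ∀ y : X, Kset hF y = skew hF := fun y =>
    AddSubgroup.eq_of_le_of_card_ge (Kset_le hF y) (by rw [card_Kset_eq hF S x y, h])
  obtain ⟨g, hg⟩ := S.nofix x
  exact hg (fixed_of_centre hF (by have := S.three; omega) hall g x)

theorem Aset_le_q (x : X) : Nat.card (Aset hF x) ≤ q := by
  simpa using card_Aset_le hF (Kset_ne hF S x)

theorem card_pts (x : X) :
    Nat.card X * (Nat.card (Aset hF x) * Nat.card (Kset hF x) * Nat.card (Cs hF x)) =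
      q ^ 3 * (q ^ 2 - 1) := by
  have horb : orbit (↥(Bor hF)) x = Set.univ := Set.eq_univ_of_forall fun z => by
    obtain ⟨p, l, e⟩ := bor_trans hF S x z
    exact ⟨⟨_, decomp_mem hF p l⟩, e⟩
  have h := card_orbit_mul (G := ↥(Bor hF)) x
  rw [horb, card_Bor hF, card_stabBor hF x, Nat.card_congr (Equiv.Set.univ X)] at h
  exact h

theorem card_stab (x : X) : Nat.card (stabilizer (SG 1 F q) x) =
    (q ^ 3 + 1) * (Nat.card (Aset hF x) * Nat.card (Kset hF x) * Nat.card (Cs hF x)) := by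
  have horb : orbit (↥(stabilizer (SG 1 F q) x)) (Le hF) = Set.univ :=
    Set.eq_univ_of_forall fun L => by
      obtain ⟨h, hx, hL⟩ := line_trans hF S x L
      exact ⟨⟨h⁻¹, inv_smul_eq_iff.2 hx.symm⟩, inv_smul_eq_iff.2 hL.symm⟩
  have h := card_orbit_mul (G := ↥(stabilizer (SG 1 F q) x)) (Le hF)
  have e : Nat.card (stabilizer (↥(stabilizer (SG 1 F q) x)) (Le hF)) =
      Nat.card (stabilizer (↥(Bor hF)) x) :=
    Nat.card_congr
      { toFun := fun g => ⟨⟨g.1.1, g.2⟩, g.1.2⟩
        invFun := fun g => ⟨⟨g.1.1, g.2⟩, g.1.2⟩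
        left_inv := fun _ => rfl
        right_inv := fun _ => rfl }
  rw [horb, e, Nat.card_congr (Equiv.Set.univ (Ln F q)), card_Ln hF, card_stabBor hF x] at h
  exact h.symm

theorem le_acC (x : X) :
    q ^ 2 - 1 ≤ Nat.card (Aset hF x) * Nat.card (Kset hF x) * Nat.card (Cs hF x) := by
  refine Nat.le_of_mul_le_mul_left ?_ (pow_pos (Nat.pos_of_ne_zero hF.q_ne_zero) 3)
  rw [← card_pts hF S x]
  exact Nat.mul_le_mul_right _ S.small

/-- A point with a centre part has an image in the quotient. -/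
theorem Aset_ne_bot {x : X} (hK : Kset hF x ≠ ⊥) : Aset hF x ≠ ⊥ := by
  have := S.fin
  intro hA
  refine Kset_ne hF S x ((triv_Aset_cases hF le_rfl ?_ hA).resolve_left hK)
  refine lt_of_le_of_lt S.small ?_
  have := pow_pos (Nat.pos_of_ne_zero hF.q_ne_zero) 2
  rw [add_mul, one_mul, ← pow_succ']
  norm_num
  omega

/-- The regular shape. -/
theorem regular_shape {x : X} (hA : Aset hF x = ⊥) (hK : Kset hF x = ⊥) : Cs hF x = ⊤ := by
  obtain ⟨hfin, hcard⟩ := id hF
  have h := le_acC hF S x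
  rw [hA, hK, AddSubgroup.card_bot, AddSubgroup.card_bot, one_mul, one_mul] at h
  refine Subgroup.eq_top_of_card_eq _ (le_antisymm (Subgroup.card_le_card_group _) ?_)
  have := Fintype.ofFinite F
  classical
  rw [Nat.card_eq_fintype_card (α := Fˣ), Fintype.card_units, ← Nat.card_eq_fintype_card, hcard]
  exact h

/-- The Levi parts act on the image with at most three scalars acting trivially. -/
theorem card_Cs_le {x : X} (hA : Aset hF x ≠ ⊥) :
    Nat.card (Cs hF x) ≤ 3 * (Nat.card (Aset hF x) - 1) ∧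
      ((∀ l ∈ Cs hF x, mu q l = 1 → l = 1) → Nat.card (Cs hF x) ≤ Nat.card (Aset hF x) - 1) := by
  obtain ⟨hfin, -⟩ := id hF
  classical
  obtain ⟨w, hw, hw0⟩ := (AddSubgroup.bot_or_exists_ne_zero _).resolve_left hA
  let f : Cs hF x → {v : Aset hF x // v ≠ 0} := fun l =>
    ⟨⟨_, mu_mem_Aset hF l.2 hw⟩, fun h =>
      smul_ne_zero (mu q l.1).ne_zero hw0 (congrArg Subtype.val h)⟩
  have hcard : Nat.card {v : Aset hF x // v ≠ 0} = Nat.card (Aset hF x) - 1 := by
    have := Fintype.ofFinite (Aset hF x)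
    simp [Nat.card_eq_fintype_card, Fintype.card_subtype_compl]
  have hf : ∀ l l', f l = f l' → mu q l.1 = mu q l'.1 := fun l l' h =>
    Units.ext (smul_left_injective F hw0
      (congrArg (fun v : {v : Aset hF x // v ≠ 0} => v.1.1) h))
  have hker : Nat.card ((mu q).ker : Subgroup Fˣ) ≤ 3 := by
    refine card_le_of_pow _ (by norm_num) fun l hl => ?_
    have h1 : l ^ (q * 2) = l := by
      have e : l ^ q * (l ^ q * l⁻¹) = 1 := hl
      rw [← mul_assoc, mul_inv_eq_one] at e
      rwa [mul_two, pow_add]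
    have h2 : l ^ (q * q) = l := Units.ext (by
      rw [Units.val_pow_eq_pow_val, pow_mul, hF.pow_pow])
    have h4 : l ^ 4 = l := by
      calc l ^ 4 = (l ^ (q * q)) ^ 4 := by rw [h2]
        _ = (l ^ (q * 2)) ^ (q * 2) := by rw [← pow_mul, ← pow_mul]; congr 1; ring
        _ = l := by rw [h1, h1]
    rw [show l ^ 4 = l ^ 3 * l from pow_succ l 3, mul_eq_right] at h4
    exact h4
  constructor
  · rw [← hcard]
    have := Fintype.ofFinite (Cs hF x)
    have := Fintype.ofFinite (Aset hF x)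
    rw [Nat.card_eq_fintype_card, Nat.card_eq_fintype_card, mul_comm, ← Finset.card_univ,
      ← Finset.card_univ, mul_comm]
    refine Finset.card_le_mul_card_image_of_maps_to (f := f) (fun _ _ => Finset.mem_univ _) 3
      fun v _ => ?_
    by_cases hv : ∃ l, f l = v
    · obtain ⟨l₀, rfl⟩ := hv
      refine le_trans ?_ hker
      rw [← Fintype.card_subtype, ← Nat.card_eq_fintype_card]
      refine Nat.card_le_card_of_injective
        (fun l => ⟨l.1.1 * l₀.1⁻¹, ?_⟩) fun l l' h => ?_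
      · rw [MonoidHom.mem_ker, map_mul, map_inv, hf _ _ l.2, mul_inv_cancel]
      · exact Subtype.ext (Subtype.ext (mul_right_cancel (congrArg Subtype.val h)))
    · push Not at hv
      simp [hv]
  · intro h
    rw [← hcard]
    refine Nat.card_le_card_of_injective f fun l l' e => Subtype.ext ?_
    have := h (l.1 * l'.1⁻¹) (mul_mem l.2 (inv_mem l'.2)) (by
      rw [map_mul, map_inv, hf _ _ e, mul_inv_cancel])
    rwa [mul_inv_eq_one] at this

omit S in
/-- In characteristic two a point with trivial centre part is regular. -/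
theorem two_ne_of_bot {x : X} (hA : Aset hF x ≠ ⊥) (hK : Kset hF x = ⊥) : (2 : F) ≠ 0 := by
  intro h2
  obtain ⟨w, ⟨p, rfl, hp⟩, hw0⟩ := (AddSubgroup.bot_or_exists_ne_zero _).resolve_left hA
  have h : tE hF (hMul hF p p) • x = x := by rw [← tE_mul, mul_smul, hp, hp]
  have hv : (hMul hF p p).1.1 = (hOne hF : Heis 1 F q).1.1 := by
    change p.1.1 + p.1.1 = 0
    rw [← two_smul F, h2, zero_smul]
  have h3 := sub_mem_Kset hF hv h (show tE hF (hOne hF) • x = x by rw [tE_one, one_smul])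
  rw [hK, AddSubgroup.mem_bot] at h3
  change p.1.2 + p.1.2 - herm q p.1.1 p.1.1 - 0 = 0 at h3
  refine hw0 (eq_zero_of_norm hF ?_)
  linear_combination -h3 + p.1.2 * h2

/-- The shape with trivial centre part. -/
theorem bot_shape {x : X} (hA : Aset hF x ≠ ⊥) (hK : Kset hF x = ⊥) :
    (∃ w : Fin 1 → F, w ≠ 0 ∧ ∀ c : F, c • w ∈ Aset hF x ↔ c ^ q = c) ∧
    Nat.card (Aset hF x) = q ∧ q % 2 = 1 ∧ q % 3 = 2 ∧
    ((∀ l : Fˣ, l ∈ Cs hF x ↔ l ^ (3 * (q - 1)) = 1) ∨
      Nat.card (Cs hF x) * 2 = 3 * (q - 1)) ∧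
    (∀ l ∈ Cs hF x, l ^ (3 * (q - 1)) = 1) ∧ q ≤ Nat.card (Cs hF x) := by
  obtain ⟨hfin, hcard⟩ := id hF
  have hq := S.three
  obtain ⟨w, hw, hw0⟩ := (AddSubgroup.bot_or_exists_ne_zero _).resolve_left hA
  have hle := le_acC hF S x
  rw [hK, AddSubgroup.card_bot, mul_one] at hle
  obtain ⟨hC3, hC1⟩ := card_Cs_le hF S hA
  set a := Nat.card (Aset hF x) with ha
  obtain ⟨c, hc⟩ : ∃ c, Nat.card (Cs hF x) = c := ⟨_, rfl⟩
  rw [hc] at hle hC3 hC1 ⊢
  have haq := Aset_le_q hF S x
  obtain ⟨P, k, hP, hchar, hqP⟩ := hF.exists_char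
  have hsq : 3 * 3 ≤ q ^ 2 := sq q ▸ Nat.mul_le_mul hq hq
  -- `a = q`
  have hdvd : a ∣ q ^ 2 := by
    have h := (Aset hF x).card_addSubgroup_dvd_card
    rwa [Nat.card_fun, Nat.card_fin, hcard, pow_one] at h
  have haq' : a = q := by
    by_contra hne
    rw [hqP, ← pow_mul] at hdvd
    obtain ⟨j, -, hj⟩ := (Nat.dvd_prime_pow hP).1 hdvd
    have h2 := card_le_of_ne hP (a := j) (b := k) (by rw [← hj, ← hqP]; omega)
    rw [← hj, ← hqP] at h2
    have hh : q ^ 2 - 1 ≤ a * (3 * (a - 1)) := hle.trans (Nat.mul_le_mul_left _ hC3)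
    have h5 : 4 * (a * (3 * (a - 1))) ≤ q * (3 * q) := by
      calc 4 * (a * (3 * (a - 1))) = (2 * a) * (3 * (2 * (a - 1))) := by ring
        _ ≤ q * (3 * q) := Nat.mul_le_mul h2 (Nat.mul_le_mul_left _ (by omega))
    rw [show q * (3 * q) = 3 * q ^ 2 by ring] at h5
    omega
  rw [haq'] at hle hC3 hC1
  have hcq : q ≤ c := by
    by_contra hlt
    have : q * c ≤ q * (q - 1) := Nat.mul_le_mul_left _ (by omega)
    rw [Nat.mul_sub_one, ← sq] at this
    omega
  -- the image is a real line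
  have hline : ∀ v ∈ Aset hF x, ∃ d : F, d ^ q = d ∧ v = d • w := by
    intro v hv
    have h := comm_mem_Kset hF hw hv
    rw [hK, AddSubgroup.mem_bot, sub_eq_zero, herm_one hF, herm_one hF] at h
    have hw00 : w 0 ≠ 0 := fun e => hw0 (ext_one e)
    refine ⟨v 0 / w 0, ?_, ext_one ?_⟩
    · rw [div_pow, div_eq_div_iff (pow_ne_zero _ hw00) hw00]
      linear_combination -h
    · simp [div_mul_cancel₀ _ hw00]
  have hreal : ∀ d : F, d • w ∈ Aset hF x ↔ d ^ q = d := by
    intro d
    constructor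
    · intro hd
      obtain ⟨d', hd', e⟩ := hline _ hd
      rw [smul_left_injective F hw0 e]; exact hd'
    · intro hd
      let g : Aset hF x → fixF hF := fun v => ⟨(hline v.1 v.2).choose, (hline v.1 v.2).choose_spec.1⟩
      have hg : Function.Bijective g := by
        refine (Nat.bijective_iff_injective_and_card g).2 ⟨fun v v' e => Subtype.ext ?_, ?_⟩
        · rw [(hline v.1 v.2).choose_spec.2, (hline v'.1 v'.2).choose_spec.2]
          exact congrArg (fun t : fixF hF => (t : F) • w) e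
        · exact haq'.trans (card_fixF hF).symm
      obtain ⟨v, hv⟩ := hg.2 ⟨d, hd⟩
      have h1 := (hline v.1 v.2).choose_spec.2
      have h2 : (hline v.1 v.2).choose = d := congrArg Subtype.val hv
      rw [h2] at h1
      rw [← h1]; exact v.2
  have hodd : q % 2 = 1 := by
    rcases hP.eq_two_or_odd with h2 | ho
    · subst h2
      exact absurd (CharP.cast_eq_zero F 2) (by exact_mod_cast two_ne_of_bot hF hA hK)
    · rw [hqP, Nat.pow_mod, ho]; simp
  have hroot : ∀ l ∈ Cs hF x, l ^ (3 * (q - 1)) = 1 := by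
    intro l hl'
    have h1 : (mu q l) ^ (q - 1) = 1 := by
      refine Units.ext ?_
      rw [Units.val_pow_eq_pow_val, Units.val_one]
      exact (hF.fixed_iff (mu q l).ne_zero).1 ((hreal _).1 (mu_mem_Aset hF hl' hw))
    have h2 : l ^ (q ^ 2 - 1) = 1 := Units.ext (by
      rw [Units.val_pow_eq_pow_val]; exact units_pow hF l)
    have h3 : l ^ (q * 2 * (q - 1)) = l ^ (q - 1) := by
      have e : (l ^ (q * 2) * l⁻¹) ^ (q - 1) = 1 := by
        rw [pow_mul, sq, mul_assoc]; exact h1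
      rw [mul_pow, inv_pow, mul_inv_eq_one, ← pow_mul] at e
      exact e
    have h4 : q * 2 * (q - 1) + 3 * (q - 1) = (q - 1) + 2 * (q ^ 2 - 1) := by
      obtain ⟨e, rfl⟩ : ∃ e, q = e + 1 := ⟨q - 1, by omega⟩
      rw [show (e + 1) ^ 2 = e * e + 2 * e + 1 by ring, Nat.add_sub_cancel, Nat.add_sub_cancel]
      ring
    have h5 := congrArg (fun n => l ^ n) h4
    simp only [pow_add, h3, pow_mul' l 2, h2, one_pow, mul_one] at h5
    exact mul_left_cancel (h5.trans (mul_one _).symm)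
  have hq3 : q % 3 = 2 := by
    by_contra hne
    refine absurd (hC1 fun l hl' hmu => ?_) (by omega)
    have h1 : l ^ 3 = 1 := by
      have h1 : l ^ q * (l ^ q * l⁻¹) = 1 := hmu
      have h2 : (l ^ q) ^ q = l := Units.ext (by simp [hF.pow_pow])
      have e : l = l ^ (q * 2) := by
        rw [pow_mul, sq]
        rw [← mul_assoc, mul_inv_eq_one] at h1
        exact h1.symm
      have h4 : l ^ 4 = l := by
        calc l ^ 4 = ((l ^ q) ^ q) ^ 4 := by rw [h2]
          _ = (l ^ (q * 2)) ^ (q * 2) := by rw [← pow_mul, ← pow_mul, ← pow_mul]; congr 1; ring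
          _ = l := by rw [← e, ← e]
      rwa [show l ^ 4 = l ^ 3 * l from pow_succ l 3, mul_eq_right] at h4
    have h2 : l ^ (q * 2) = l := by
      have h1 : l ^ q * (l ^ q * l⁻¹) = 1 := hmu
      rw [← mul_assoc, mul_inv_eq_one] at h1
      rwa [pow_mul, sq]
    rw [← Nat.div_add_mod (q * 2) 3, pow_add, pow_mul, h1, one_pow, one_mul] at h2
    rcases (show q * 2 % 3 = 0 ∨ q * 2 % 3 = 2 by omega) with h | h <;> rw [h] at h2
    · rw [pow_zero] at h2; exact h2.symm
    · rwa [sq, mul_eq_right] at h2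
  have hdv := card_dvd_of_pow _ hroot
  rw [hc] at hdv
  refine ⟨⟨w, hw0, hreal⟩, haq', hodd, hq3, ?_, hroot, hcq⟩
  obtain ⟨j, hj⟩ := hdv
  have hjlt : j < 3 := by
    by_contra hge
    have : c * 3 ≤ c * j := Nat.mul_le_mul_left _ (by omega)
    omega
  rcases (show j = 0 ∨ j = 1 ∨ j = 2 by omega) with rfl | rfl | rfl
  · omega
  · left
    rw [mul_one] at hj
    intro l
    refine ⟨hroot l, fun hl' => ?_⟩
    classical
    have := Fintype.ofFinite Fˣ
    have hsub : (Finset.univ.filter fun l : Fˣ => l ∈ Cs hF x) ⊆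
        Finset.univ.filter fun l : Fˣ => l ^ (3 * (q - 1)) = 1 := fun m hm => by
      simp at hm ⊢; exact hroot m hm
    have heq := Finset.eq_of_subset_of_card_le hsub (by
      refine (IsCyclic.card_pow_eq_one_le (α := Fˣ) (by omega)).trans ?_
      rw [hj, ← hc, Nat.card_eq_fintype_card, Fintype.card_subtype])
    have : l ∈ Finset.univ.filter fun l : Fˣ => l ∈ Cs hF x := by rw [heq]; simp [hl']
    simpa using this
  · right; exact hj.symm

end Cfsg.Agent.MinU.Three
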