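/-
The stabiliser of a non-isotropic line in dimension three and its action on the projective line.
-/
import Mathlib
import Cfsg.Agent.MinU.ThreeShape
import Cfsg.Agent.MaxSub.Dickson.Finite

set_option autoImplicit false

open scoped OnePoint MatrixGroups

namespace Cfsg.Agent.MinU.Three

open Cfsg.Agent.Classical.U Cfsg.Agent.MinU MulAction Cfsg.Agent.MaxSub.Dickson

universe u v

variable {F : Type u} [Field F] {q : ℕ}
variable (hF : SqField F q)
include hF

/-- The standard non-isotropic vector. -/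
noncomputable def ow : Fin (1 + 2) → F := ph hF 1 ((0, 0), fun _ => 1)

theorem ow_ne : ow hF ≠ 0 := fun h => by
  have e := congrArg (fun p : (F × F) × (Fin 1 → F) => p.2 0) ((LinearEquiv.map_eq_zero_iff _).1 h)
  exact one_ne_zero (α := F) e

/-- The stabiliser of the standard non-isotropic line. -/
noncomputable def Pl : Subgroup (SG 1 F q) where
  carrier := {g | mapL g (Submodule.span F {ow hF}) = Submodule.span F {ow hF}}
  one_mem' := Submodule.map_id _
  mul_mem' {g g'} (h : mapL g _ = _) (h' : mapL g' _ = _) := by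
    change mapL (g * g') _ = _
    rw [show mapL (g * g') (Submodule.span F {ow hF}) = mapL g (mapL g' (Submodule.span F {ow hF}))
      from Submodule.map_comp g'.1.1.toLinearMap g.1.1.toLinearMap _, h', h]
  inv_mem' {g} (h : mapL g _ = _) := by
    change mapL g⁻¹ _ = _
    conv_lhs => rw [← h]
    rw [mapL, mapL, ← Submodule.map_comp]
    convert Submodule.map_id _
    exact LinearMap.ext fun v => g.1.1.symm_apply_apply v

theorem mem_Pl {g : SG 1 F q} : g ∈ Pl hF ↔ ∃ c : F, c ≠ 0 ∧ g.1.1 (ow hF) = c • ow hF := by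
  change mapL g _ = _ ↔ _
  rw [mapL_span]
  constructor
  · intro h
    obtain ⟨c, hc⟩ := Submodule.mem_span_singleton.1
      (h ▸ Submodule.mem_span_singleton_self (g.1.1 (ow hF)))
    refine ⟨c, ?_, hc.symm⟩
    rintro rfl
    rw [zero_smul] at hc
    exact ow_ne hF (g.1.1.map_eq_zero_iff.1 hc.symm)
  · rintro ⟨c, hc0, hc⟩
    rw [hc]
    exact Submodule.span_singleton_smul_eq (IsUnit.mk0 _ hc0) _

theorem plane_closed {g : SG 1 F q} (hg : g ∈ Pl hF) (x y : F) :
    ((ph hF 1).symm (g.1.1 (ph hF 1 ((x, y), 0)))).2 = 0 := by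
  obtain ⟨c, hc0, hc⟩ := (mem_Pl hF).1 hg
  obtain ⟨⟨⟨a, b⟩, z⟩, hz⟩ := (ph hF 1).surjective (g.1.1 (ph hF 1 ((x, y), 0)))
  rw [← hz, LinearEquiv.symm_apply_apply]
  have h := UG_app g.1 (ph hF 1 ((x, y), 0)) (ow hF)
  rw [hc, ← hz, herm_smul_right, ow, herm_ph, herm_ph, herm_one hF, herm_one hF] at h
  simp [hF.q_ne_zero, hc0] at h
  exact ext_one h

/-- The matrix on the plane. -/
noncomputable def Mx (g : SG 1 F q) : Matrix (Fin 2) (Fin 2) F :=
  !![((ph hF 1).symm (g.1.1 (eV hF 1))).1.1, ((ph hF 1).symm (g.1.1 (fV hF 1))).1.1;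
     ((ph hF 1).symm (g.1.1 (eV hF 1))).1.2, ((ph hF 1).symm (g.1.1 (fV hF 1))).1.2]

theorem plane_apply {g : SG 1 F q} (hg : g ∈ Pl hF) (x y : F) :
    g.1.1 (ph hF 1 ((x, y), 0)) =
      ph hF 1 ((Mx hF g 0 0 * x + Mx hF g 0 1 * y, Mx hF g 1 0 * x + Mx hF g 1 1 * y), 0) := by
  have he : ∀ a b : F, g.1.1 (ph hF 1 ((a, b), 0)) =
      ph hF 1 (((ph hF 1).symm (g.1.1 (ph hF 1 ((a, b), 0)))).1, 0) := fun a b => by
    conv_lhs => rw [← (ph hF 1).apply_symm_apply (g.1.1 _)]
    congr 1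
    exact Prod.ext rfl (plane_closed hF hg a b)
  have hd : ph hF 1 ((x, y), 0) = x • ph hF 1 ((1, 0), 0) + y • ph hF 1 ((0, 1), 0) := by
    rw [← map_smul, ← map_smul, ← map_add]; simp
  rw [hd, map_add, map_smul, map_smul, he 1 0, he 0 1, ← map_smul, ← map_smul, ← map_add]
  congr 1
  refine Prod.ext (Prod.ext ?_ ?_) ?_ <;> simp [Mx, ph_eV, ph_fV, mul_comm]

/-- The matrix on the plane as a homomorphism. -/
noncomputable def MxHom : ↥(Pl hF) →* Matrix (Fin 2) (Fin 2) F where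
  toFun g := Mx hF g.1
  map_one' := by
    ext i j
    fin_cases i <;> fin_cases j <;> simp [Mx, ← ph_eV hF, ← ph_fV hF]
  map_mul' g g' := by
    have key : ∀ x y : F, (ph hF 1).symm ((g * g').1.1.1 (ph hF 1 ((x, y), 0))) =
        ((Mx hF g.1 0 0 * (Mx hF g'.1 0 0 * x + Mx hF g'.1 0 1 * y) +
            Mx hF g.1 0 1 * (Mx hF g'.1 1 0 * x + Mx hF g'.1 1 1 * y),
          Mx hF g.1 1 0 * (Mx hF g'.1 0 0 * x + Mx hF g'.1 0 1 * y) +
            Mx hF g.1 1 1 * (Mx hF g'.1 1 0 * x + Mx hF g'.1 1 1 * y)), 0) := fun x y => by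
      rw [Subgroup.coe_mul, Subgroup.coe_mul, Subgroup.coe_mul, LinearEquiv.mul_apply,
        plane_apply hF g'.2, plane_apply hF g.2, LinearEquiv.symm_apply_apply]
    ext i j
    rw [Matrix.mul_apply, Fin.sum_univ_two]
    have h1 := key 1 0
    have h2 := key 0 1
    rw [ph_eV] at h1
    rw [ph_fV] at h2
    fin_cases i <;> fin_cases j
    · simpa [Mx] using congrArg (fun p : (F × F) × (Fin 1 → F) => p.1.1) h1
    · simpa [Mx] using congrArg (fun p : (F × F) × (Fin 1 → F) => p.1.1) h2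
    · simpa [Mx] using congrArg (fun p : (F × F) × (Fin 1 → F) => p.1.2) h1
    · simpa [Mx] using congrArg (fun p : (F × F) × (Fin 1 → F) => p.1.2) h2

/-- The induced map of the projective line. -/
noncomputable def gam : ↥(Pl hF) →* PGL(2, F) :=
  Matrix.ProjGenLinGroup.mk.comp (MxHom hF).toHomUnits

/-- The isotropic points of the projective line. -/
def Sset : Set (OnePoint F) := insert ∞ (OnePoint.some '' (skew hF : Set F))

omit hF in
/-- The vector over a point of the projective line. -/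
def vecOf : OnePoint F → F × F
  | ∞ => (1, 0)
  | (a : F) => (a, 1)

omit hF in
theorem vecOf_infty : vecOf (∞ : OnePoint F) = (1, 0) := rfl

omit hF in
theorem vecOf_coe (a : F) : vecOf (a : OnePoint F) = (a, 1) := rfl

/-- The line of a point of the projective line. -/
noncomputable def lineOf (z : OnePoint F) : Submodule F (Fin (1 + 2) → F) :=
  Submodule.span F {ph hF 1 (vecOf z, 0)}

theorem lineOf_infty : lineOf hF (∞ : OnePoint F) = (Le hF).1 := by
  rw [lineOf, vecOf_infty, ph_eV]; rfl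

theorem lineOf_coe {a : F} (ha : a ∈ skew hF) :
    lineOf hF (a : OnePoint F) = (Lp hF (hZ hF ha)).1 := by
  rw [Lp_coe]; rfl

theorem lineOf_injective : Function.Injective (lineOf hF) := by
  intro z z' h
  have hm : ph hF 1 (vecOf z, 0) ∈ lineOf hF z' := by
    rw [← h]; exact Submodule.mem_span_singleton_self _
  obtain ⟨c, hc⟩ := Submodule.mem_span_singleton.1 hm
  rw [← map_smul, (ph hF 1).injective.eq_iff] at hc
  induction z using OnePoint.rec <;> induction z' using OnePoint.rec <;>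
    simp [vecOf_infty, vecOf_coe] at hc ⊢
  all_goals (obtain ⟨h1, h2⟩ := hc; subst h2; simpa using h1.symm)

theorem mapL_lineOf [DecidableEq F] (g : ↥(Pl hF)) (z : OnePoint F) :
    mapL g.1 (lineOf hF z) = lineOf hF (gam hF g • z) := by
  set A : GL (Fin 2) F := (MxHom hF).toHomUnits g with hA
  have hAij : ∀ i j, A i j = Mx hF g.1 i j := fun i j => rfl
  have hg : gam hF g • z = A • z := rfl
  rw [hg, lineOf, mapL_span]
  have hp := plane_apply hF g.2 (vecOf z).1 (vecOf z).2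
  rw [Prod.mk.eta] at hp
  rw [hp]
  have hspan : ∀ (x y : F) (c : F), c ≠ 0 →
      Submodule.span F {ph hF 1 ((c * x, c * y), 0)} = Submodule.span F {ph hF 1 ((x, y), 0)} :=
    fun x y c hc => by
      rw [show ph hF 1 ((c * x, c * y), 0) = c • ph hF 1 ((x, y), 0) by rw [← map_smul]; simp]
      exact Submodule.span_singleton_smul_eq (IsUnit.mk0 _ hc) _
  have hdet : A 0 0 * A 1 1 - A 0 1 * A 1 0 ≠ 0 := by
    have := A.det_ne_zero
    rwa [Matrix.det_fin_two] at this
  induction z using OnePoint.rec with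
  | infty =>
    simp only [vecOf_infty, mul_one, mul_zero, add_zero, OnePoint.smul_infty_eq_ite, ← hAij]
    by_cases hc : A 1 0 = 0
    · rw [if_pos hc, hc, lineOf, vecOf_infty]
      have h0 : A 0 0 ≠ 0 := fun h => hdet (by rw [h, hc]; ring)
      conv_lhs => rw [show (A 0 0, (0 : F)) = (A 0 0 * 1, A 0 0 * 0) by simp]
      exact hspan _ _ _ h0
    · rw [if_neg hc, lineOf, vecOf_coe]
      conv_lhs => rw [show (A 0 0, A 1 0) = (A 1 0 * (A 0 0 / A 1 0), A 1 0 * 1) by
        rw [mul_div_cancel₀ _ hc, mul_one]]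
      exact hspan _ _ _ hc
  | coe a =>
    simp only [vecOf_coe, mul_one, OnePoint.smul_some_eq_ite, ← hAij]
    by_cases hc : A 1 0 * a + A 1 1 = 0
    · rw [if_pos hc, hc, lineOf, vecOf_infty]
      have h0 : A 0 0 * a + A 0 1 ≠ 0 := fun h => hdet (by
        linear_combination (-A 1 0) * h + A 0 0 * hc)
      conv_lhs => rw [show (A 0 0 * a + A 0 1, (0 : F)) =
        ((A 0 0 * a + A 0 1) * 1, (A 0 0 * a + A 0 1) * 0) by simp]
      exact hspan _ _ _ h0
    · rw [if_neg hc, lineOf, vecOf_coe]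
      conv_lhs => rw [show (A 0 0 * a + A 0 1, A 1 0 * a + A 1 1) =
        ((A 1 0 * a + A 1 1) * ((A 0 0 * a + A 0 1) / (A 1 0 * a + A 1 1)),
          (A 1 0 * a + A 1 1) * 1) by rw [mul_div_cancel₀ _ hc, mul_one]]
      exact hspan _ _ _ hc

theorem mem_Sset {z : OnePoint F} : z ∈ Sset hF ↔ lineOf hF z ∈ isoLines (1 + 2) F q := by
  constructor
  · rintro (rfl | ⟨a, ha, rfl⟩)
    · rw [lineOf_infty]; exact (Le hF).2
    · rw [lineOf_coe hF ha]; exact (Lp hF (hZ hF ha)).2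
  · rintro ⟨v, ⟨-, hv0⟩, hv⟩
    induction z using OnePoint.rec with
    | infty => exact Set.mem_insert _ _
    | coe a =>
      refine Or.inr ⟨a, ?_, rfl⟩
      have hm : ph hF 1 (vecOf (a : OnePoint F), 0) ∈ Submodule.span F {v} := by
        rw [← hv]; exact Submodule.mem_span_singleton_self _
      obtain ⟨c, hc⟩ := Submodule.mem_span_singleton.1 hm
      have h : herm q (ph hF 1 (vecOf (a : OnePoint F), 0))
          (ph hF 1 (vecOf (a : OnePoint F), 0)) = 0 := by
        rw [← hc, herm_smul_left, herm_smul_right, hv0, mul_zero, mul_zero]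
      rw [vecOf_coe, herm_ph] at h
      simp at h
      exact (mem_skew hF).2 (eq_neg_of_add_eq_zero_right h)

theorem card_Sset : Nat.card (Sset hF) = q + 1 := by
  obtain ⟨hfin, -⟩ := id hF
  rw [Nat.card_coe_set_eq, Sset, Set.ncard_insert_of_notMem (by simp) (Set.toFinite _),
    Set.ncard_image_of_injective _ OnePoint.coe_injective, ← Nat.card_coe_set_eq]
  exact congrArg (· + 1) (card_skew hF)

theorem gam_mem_Sset [DecidableEq F] (g : ↥(Pl hF)) {z : OnePoint F} (hz : z ∈ Sset hF) :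
    gam hF g • z ∈ Sset hF := by
  rw [mem_Sset, ← mapL_lineOf]
  exact mapL_mem _ ((mem_Sset hF).1 hz)

theorem smul_eq_iff [DecidableEq F] (g : ↥(Pl hF)) {z w : OnePoint F} {L M : Ln F q}
    (hL : L.1 = lineOf hF z) (hM : M.1 = lineOf hF w) : g.1 • L = M ↔ gam hF g • z = w := by
  rw [Subtype.ext_iff, smul_coe, hL, hM, mapL_lineOf]
  exact (lineOf_injective hF).eq_iff

/-- The line of an isotropic point of the projective line. -/
noncomputable def toLn {z : OnePoint F} (hz : z ∈ Sset hF) : Ln F q :=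
  ⟨lineOf hF z, (mem_Sset hF).1 hz⟩

theorem lv_mem (l : Fˣ) : lv hF l ∈ Pl hF := by
  refine (mem_Pl hF).2 ⟨(l : F) ^ q * (l : F)⁻¹,
    mul_ne_zero (pow_ne_zero _ l.ne_zero) (inv_ne_zero l.ne_zero), ?_⟩
  rw [ow, lv_apply, ← map_smul]
  simp

theorem zc_mem (a : skew hF) : zc hF a ∈ Pl hF := by
  refine (mem_Pl hF).2 ⟨1, one_ne_zero, ?_⟩
  rw [zc, ow, tE_apply, one_smul]
  simp [hZ, hF.herm_zero_right]

theorem gam_lv [DecidableEq F] (l : Fˣ) :
    gam hF ⟨lv hF l, lv_mem hF l⟩ = aff (nu q l) 0 := by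
  refine ext_smul fun z => lineOf_injective hF ?_
  rw [← mapL_lineOf, lineOf, mapL_span]
  induction z using OnePoint.rec with
  | infty =>
    rw [aff_infty, lineOf, vecOf_infty, lv_apply]
    rw [show ph hF 1 (((l : F) * 1, ((l : F) ^ q)⁻¹ * 0), ((l : F) ^ q * (l : F)⁻¹) • 0) =
      (l : F) • ph hF 1 ((1, 0), 0) by rw [← map_smul]; simp]
    exact Submodule.span_singleton_smul_eq (IsUnit.mk0 _ l.ne_zero) _
  | coe a =>
    rw [aff_coe, add_zero, lineOf, vecOf_coe, vecOf_coe, lv_apply]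
    rw [show ph hF 1 (((l : F) * a, ((l : F) ^ q)⁻¹ * 1), ((l : F) ^ q * (l : F)⁻¹) • 0) =
      ((l : F) ^ q)⁻¹ • ph hF 1 (((nu q l : F) * a, 1), 0) by
        rw [← map_smul, nu_coe]
        congr 1
        simp only [Prod.smul_mk, smul_eq_mul, mul_one, smul_zero]
        refine Prod.ext (Prod.ext ?_ rfl) rfl
        have := pow_ne_zero q l.ne_zero
        field_simp]
    exact Submodule.span_singleton_smul_eq
      (IsUnit.mk0 _ (inv_ne_zero (pow_ne_zero _ l.ne_zero))) _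

theorem gam_zc [DecidableEq F] (a : skew hF) :
    gam hF ⟨zc hF a, zc_mem hF a⟩ = aff 1 (a : F) := by
  refine ext_smul fun z => lineOf_injective hF ?_
  rw [← mapL_lineOf, lineOf, mapL_span]
  simp only [zc]
  induction z using OnePoint.rec with
  | infty => rw [aff_infty, lineOf, vecOf_infty, tE_apply]; simp [hZ, hF.herm_zero_right]
  | coe b =>
    rw [aff_coe, lineOf, vecOf_coe, vecOf_coe, tE_apply]
    simp [hZ, hF.herm_zero_right]

/-- An element of the line stabiliser fixing the first line. -/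
theorem exists_of_fix {g : SG 1 F q} (hg : g ∈ Pl hF) (h : g • Le hF = Le hF) :
    ∃ (a : skew hF) (l : Fˣ), g = zc hF a * lv hF l := by
  obtain ⟨p, l, rfl⟩ := exists_decomp_Bor hF h
  have hp : tE hF p ∈ Pl hF := by
    have := mul_mem hg (inv_mem (lv_mem hF l))
    rwa [mul_inv_cancel_right] at this
  have h2 := plane_closed hF hp 0 1
  rw [tE_apply, LinearEquiv.symm_apply_apply] at h2
  have hv : p.1.1 = 0 := by simpa using h2
  obtain ⟨a, -, e⟩ := exists_zc hF hv
  exact ⟨a, l, by rw [e]⟩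

theorem tS_mem {x y a : F} (h : TrvCond q (ph hF 1 ((x, y), 0)) a) : tS hF h ∈ Pl hF := by
  refine (mem_Pl hF).2 ⟨1, one_ne_zero, ?_⟩
  change (trv hF h).1 (ow hF) = _
  rw [trv_apply, ow, herm_ph]
  simp [hF.q_ne_zero, hF.herm_zero_right]

/-- The line stabiliser moves the first line to all isotropic points. -/
theorem exists_move_Sset [DecidableEq F] {z : OnePoint F} (hz : z ∈ Sset hF) :
    ∃ g : ↥(Pl hF), gam hF g • (∞ : OnePoint F) = z := by
  rcases hz with rfl | ⟨a, ha, rfl⟩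
  · exact ⟨1, by rw [map_one, one_smul]⟩
  obtain ⟨s, hs, hsq⟩ := hF.exists_skew
  have hb : (s⁻¹) ∈ skew hF := by rw [mem_skew, inv_pow, hsq, inv_neg]
  have hc : TrvCond q (ph hF 1 ((0, 1), 0)) s := ⟨by rw [ph_fV]; exact h_ff hF, hsq⟩
  refine ⟨⟨zc hF (⟨a, ha⟩ - ⟨_, hb⟩), zc_mem hF _⟩ * ⟨tS hF hc, tS_mem hF hc⟩, ?_⟩
  rw [map_mul, mul_smul]
  have h1 : gam hF ⟨tS hF hc, tS_mem hF hc⟩ • (∞ : OnePoint F) = ((s⁻¹ : F) : OnePoint F) := by
    refine lineOf_injective hF ?_
    rw [← mapL_lineOf, lineOf, lineOf, mapL_span, vecOf_infty, vecOf_coe]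
    change Submodule.span F {(trv hF hc).1 (ph hF 1 ((1, 0), 0))} = _
    rw [trv_apply, herm_ph]
    rw [show ph hF 1 ((1, 0), 0) + (s * ((1 : F) * 1 ^ q + 0 * 0 ^ q + herm q (0 : Fin 1 → F) 0)) •
        ph hF 1 ((0, 1), 0) = s • ph hF 1 ((s⁻¹, 1), 0) by
      rw [← map_smul, ← map_smul, ← map_add]; simp [hF.q_ne_zero, hs]]
    exact Submodule.span_singleton_smul_eq (IsUnit.mk0 _ hs) _
  rw [h1, gam_zc, aff_coe]
  simp

/-- An element commuting with a block Levi element preserves the line. -/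
theorem mem_Pl_of_comm {g : SG 1 F q} {l : Fˣ} (hN : nu q l = 1) (h3 : l ^ 3 ≠ 1)
    (hc : g * lv hF l = lv hF l * g) : g ∈ Pl hF := by
  set γ : F := (l : F) ^ q * (l : F)⁻¹ with hγ
  have hlq : ((l : F) ^ q)⁻¹ = l := by
    refine inv_eq_of_mul_eq_one_left ?_
    rw [← nu_coe, hN, Units.val_one]
  have hne : γ ≠ (l : F) := by
    intro e
    refine h3 (Units.ext ?_)
    rw [Units.val_pow_eq_pow_val, Units.val_one]
    rw [hγ] at e
    have h0 := l.ne_zero
    have h1 : (l : F) * (l : F) ^ q = 1 := by rw [← nu_coe, hN, Units.val_one]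
    field_simp at e
    linear_combination h1 - (l : F) * e
  obtain ⟨⟨⟨x, y⟩, z⟩, hz⟩ := (ph hF 1).surjective (g.1.1 (ow hF))
  have e := congrArg (fun k : SG 1 F q => k.1.1 (ow hF)) hc
  simp only [Subgroup.coe_mul, LinearEquiv.mul_apply] at e
  rw [ow, lv_apply] at e
  rw [show ph hF 1 (((l : F) * 0, ((l : F) ^ q)⁻¹ * 0), γ • fun _ : Fin 1 => (1 : F)) =
    γ • ow hF by rw [ow, ← map_smul]; simp, map_smul] at e
  change γ • g.1.1 (ow hF) = (lv hF l).1.1 (g.1.1 (ow hF)) at e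
  rw [← hz, lv_apply, ← map_smul, (ph hF 1).injective.eq_iff, hlq] at e
  simp only [Prod.smul_mk, smul_eq_mul, Prod.mk.injEq] at e
  have hx : x = 0 := by
    by_contra h
    exact hne (mul_right_cancel₀ h e.1.1)
  have hy : y = 0 := by
    by_contra h
    exact hne (mul_right_cancel₀ h e.1.2)
  subst hx hy
  refine (mem_Pl hF).2 ⟨z 0, ?_, ?_⟩
  · intro h
    have hz0 : z = 0 := ext_one h
    rw [hz0, show ((((0 : F), (0 : F)), (0 : Fin 1 → F))) = 0 from rfl, map_zero] at hz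
    exact ow_ne hF (g.1.1.map_eq_zero_iff.1 hz.symm)
  · rw [← hz, ow, ← map_smul]
    congr 1
    simp only [Prod.smul_mk, smul_zero]
    exact Prod.ext rfl (ext_one (by simp))

/-- The image of a point stabiliser. -/
noncomputable def Gam {X : Type v} [UAct F q X 1] (x : X) : Subgroup PGL(2, F) :=
  ((stabilizer (SG 1 F q) x).subgroupOf (Pl hF)).map (gam hF)

theorem mem_Gam {X : Type v} [UAct F q X 1] {x : X} {γ : PGL(2, F)} :
    γ ∈ Gam hF x ↔ ∃ g : ↥(Pl hF), g.1 • x = x ∧ gam hF g = γ := by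
  constructor
  · rintro ⟨g, hg, rfl⟩; exact ⟨g, hg, rfl⟩
  · rintro ⟨g, hg, rfl⟩; exact ⟨g, hg, rfl⟩

/-- The conjugate image. -/
theorem conj_mem_Gam {X : Type v} [UAct F q X 1] {x : X} {γ : PGL(2, F)} (h : γ ∈ Gam hF x)
    (t : ↥(Pl hF)) : gam hF t * γ * (gam hF t)⁻¹ ∈ Gam hF (t.1 • x) := by
  obtain ⟨g, hg, rfl⟩ := (mem_Gam hF).1 h
  refine (mem_Gam hF).2 ⟨t * g * t⁻¹, ?_, by rw [map_mul, map_mul, map_inv]⟩
  simp only [Subgroup.coe_mul, Subgroup.coe_inv, mul_smul, inv_smul_smul, hg]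

omit hF in
/-- Subfield groups: an element of order the characteristic, and translations at its fixed point. -/
theorem subfield_trans [Fintype F] [DecidableEq F] {p : ℕ} [Fact p.Prime] [CharP F p]
    (F₀ : Subfield F) (h : PGL(2, F)) (Γ : Subgroup PGL(2, F))
    (hlo : ∀ s : PGL(2, F₀), s ∈ lsub F₀ → h * subPGL F₀ s * h⁻¹ ∈ Γ)
    (hhi : ∀ g ∈ Γ, ∃ s : PGL(2, F₀), g = h * subPGL F₀ s * h⁻¹) :
    p ∣ Nat.card Γ ∧ ∀ (z : OnePoint F) (g : PGL(2, F)), g ∈ Γ → g ≠ 1 → g ^ p = 1 → g • z = z →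
      (∃ w : OnePoint F₀, z = h • OnePoint.map F₀.subtype w) ∧
      ∃ f : F₀ → PGL(2, F), Function.Injective f ∧ ∀ t, f t ∈ Γ ∧ f t ^ p = 1 ∧ f t • z = z := by
  classical
  have hls : ∀ t : F₀, aff (1 : F₀ˣ) t ∈ lsub F₀ := fun t => by
    rw [aff, mk_mem_lsub_iff]
    simp [Matrix.GeneralLinearGroup.mkOfDetNeZero, Matrix.det_fin_two]
  have : CharP F₀ p := (RingHom.charP_iff F₀.subtype F₀.subtype.injective p).2 inferInstance
  have hp : ∀ t : F₀, aff (1 : F₀ˣ) t ^ p = 1 := fun t => aff_pow_char_eq_one_iff.2 rfl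
  constructor
  · set g0 := h * subPGL F₀ (aff (1 : F₀ˣ) 1) * h⁻¹ with hg0
    have h1 : g0 ≠ 1 := by
      rw [hg0]
      intro e
      have e2 : subPGL F₀ (aff (1 : F₀ˣ) 1) = 1 := by
        calc subPGL F₀ (aff (1 : F₀ˣ) 1) = h⁻¹ * (h * subPGL F₀ (aff (1 : F₀ˣ) 1) * h⁻¹) * h := by
              group
          _ = 1 := by rw [e]; group
      rw [← map_one (subPGL F₀)] at e2
      exact one_ne_zero (aff_eq_one_iff.1 (subPGL_injective F₀ e2)).2
    have h2 : g0 ^ p = 1 := by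
      rw [hg0, conj_pow, ← map_pow, hp, map_one]; group
    have := orderOf_dvd_natCard (⟨g0, hlo _ (hls 1)⟩ : Γ)
    rwa [Subgroup.orderOf_mk, orderOf_eq_prime h2 h1] at this
  · intro z g hg hg1 hgp hgz
    obtain ⟨s, rfl⟩ := hhi g hg
    have hs1 : s ≠ 1 := by rintro rfl; exact hg1 (by rw [map_one]; group)
    have hsp : s ^ p = 1 := by
      refine subPGL_injective F₀ ?_
      rw [map_pow, map_one]
      calc subPGL F₀ s ^ p = h⁻¹ * (h * subPGL F₀ s * h⁻¹) ^ p * h := by rw [conj_pow]; group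
        _ = 1 := by rw [hgp]; group
    obtain ⟨w, hw⟩ : ∃ w : OnePoint F₀, s • w = w := by
      have hU : IsPGroup p (Subgroup.zpowers s) := by
        rintro ⟨a, i, rfl⟩
        refine ⟨1, Subtype.ext ?_⟩
        change (s ^ i) ^ (p ^ 1) = 1
        rw [pow_one, ← zpow_natCast, ← zpow_mul, mul_comm, zpow_mul, zpow_natCast, hsp, one_zpow]
      have : Finite (OnePoint F₀) := inferInstanceAs (Finite (Option F₀))
      have hmod := hU.card_modEq_card_fixedPoints (OnePoint F₀)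
      have hc : Nat.card (OnePoint F₀) = Nat.card F₀ + 1 := Finite.card_option
      obtain ⟨d, -, hd⟩ := FiniteField.card F₀ p
      rw [hc, Nat.card_eq_fintype_card, hd] at hmod
      have hne : Nat.card (fixedPoints (Subgroup.zpowers s) (OnePoint F₀)) ≠ 0 := by
        intro e
        rw [e, Nat.modEq_zero_iff_dvd, Nat.dvd_add_right (dvd_pow_self p d.pos.ne'),
          Nat.dvd_one] at hmod
        exact (Fact.out : p.Prime).ne_one hmod
      obtain ⟨w, hw⟩ := (Nat.card_ne_zero.1 hne).1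
      exact ⟨w, hw ⟨s, Subgroup.mem_zpowers s⟩⟩
    have hzw : h⁻¹ • z = OnePoint.map F₀.subtype w := by
      refine fixed_unique (p := p) (g := subPGL F₀ s) ?_ (by rw [← map_pow, hsp, map_one]) ?_ ?_
      · rw [Ne, ← map_one (subPGL F₀)]
        exact fun e => hs1 (subPGL_injective F₀ e)
      · rw [mul_smul, mul_smul] at hgz
        exact eq_inv_smul_iff.2 hgz
      · rw [subPGL_smul, hw]
    obtain ⟨σ, hσ, hσw⟩ : ∃ σ ∈ lsub F₀, σ • (∞ : OnePoint F₀) = w := by
      induction w using OnePoint.rec with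
      | infty => exact ⟨1, one_mem _, one_smul _ _⟩
      | coe c =>
        let R : PGL(2, F₀) := Matrix.ProjGenLinGroup.mk
          (Matrix.GeneralLinearGroup.mkOfDetNeZero !![(0 : F₀), -1; 1, 0]
            (by simp [Matrix.det_fin_two]))
        have hR : R ∈ lsub F₀ := by
          rw [mk_mem_lsub_iff]
          simp [Matrix.GeneralLinearGroup.mkOfDetNeZero, Matrix.det_fin_two]
        refine ⟨aff 1 c * R, mul_mem (hls c) hR, ?_⟩
        rw [mul_smul, mk_smul, OnePoint.smul_infty_eq_ite]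
        simp [Matrix.GeneralLinearGroup.mkOfDetNeZero, aff_coe]
    refine ⟨⟨w, by rw [← hzw, smul_inv_smul]⟩, fun t => h * subPGL F₀ (σ * aff 1 t * σ⁻¹) * h⁻¹, fun t t' e => ?_, fun t =>
      ⟨hlo _ (mul_mem (mul_mem hσ (hls t)) (inv_mem hσ)), ?_, ?_⟩⟩
    · have e2 : σ * aff 1 t * σ⁻¹ = σ * aff 1 t' * σ⁻¹ :=
        subPGL_injective F₀ (mul_left_cancel (mul_right_cancel e))
      exact (aff_inj (mul_left_cancel (mul_right_cancel e2))).2
    · rw [conj_pow, ← map_pow, conj_pow, hp]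
      simp
    · rw [mul_smul, mul_smul, hzw, subPGL_smul, mul_smul, mul_smul,
        inv_smul_eq_iff.2 hσw.symm, aff_infty, hσw, ← hzw, smul_inv_smul]

end Cfsg.Agent.MinU.Three
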